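/-
From local to global 3-transposition sets by dihedral arguments.
-/
import Cfsg.Agent.Fi.Dihedral
import Cfsg.Agent.Fi.Basic

set_option autoImplicit false

namespace CA.U6

open Cfsg Subgroup CA.Fi

variable {G : Type*} [Group G]

/-- A set `D` of involutions of `K`, invariant under `K`, which is locally a set of 3-transpositions. -/
structure L3 (K : Subgroup G) (D : Set G) : Prop where
  sub : ∀ x ∈ D, x ∈ K
  cj : ∀ g ∈ K, ∀ x ∈ D, g * x * g⁻¹ ∈ D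
  tt : ∀ k ∈ D, IsThreeTranspositionSet {x | x ∈ D ∧ Commute k x}
  pu : ∀ x ∈ D, ∀ y ∈ D, Commute x y → x ≠ y → ∀ g ∈ K, Commute g (x * y) → g * x * g⁻¹ = x ∨ g * x * g⁻¹ = y
  fix : ∀ x ∈ D, ∀ y ∈ D, Commute x y → x ≠ y → ∀ u ∈ K, u * u = 1 → u * x * u⁻¹ = y →
    ∃ a ∈ D, Commute a x ∧ Commute a u
  nj : ∀ x ∈ D, ∀ y ∈ D, Commute x y → x ≠ y → ∀ b ∈ D, ¬ IsConj b (x * y)
  typ : ∀ x ∈ D, ∀ y ∈ D, ∀ w ∈ D, Commute x y → Commute x w → Commute y w → x ≠ y → x ≠ w → y ≠ w →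
    ∃ a ∈ D, Commute a x ∧ Commute a y ∧ Commute a w ∧ ¬ IsConj (x * y) (x * y * w * a)
  ex : ∀ x ∈ D, ∃ y ∈ D, Commute x y ∧ x ≠ y

namespace L3

variable {K : Subgroup G} {D : Set G} (h : L3 K D) {x y : G}
include h

theorem sq (hx : x ∈ D) : x * x = 1 := tt_sq (h.tt x hx) ⟨hx, Commute.refl x⟩

theorem four (hx : x ∈ D) (hy : y ∈ D) (hc : Commute x (y * x * y⁻¹)) : Commute x y := by
  by_contra hn
  have ne : x ≠ y * x * y⁻¹ := fun e => hn (mul_inv_eq_iff_eq_mul.1 e.symm).symm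
  obtain ⟨a, ha, c1, c2⟩ := h.fix x hx _ (h.cj y (h.sub y hy) x hx) hc ne y (h.sub y hy) (h.sq hy) rfl
  have t := h.tt a ha
  refine tt_not_commute_cj t (a := x) (b := y) ⟨hx, c1⟩ hn ?_
  rw [tt_cj_comm t ⟨hx, c1⟩ ⟨hy, c2⟩ hn]
  exact hc

/-- A member of `D` commuting with a product of two commuting members commutes with the factors. -/
theorem two (hx : x ∈ D) (hy : y ∈ D) (c : Commute x y) (ne : x ≠ y) {a : G} (ha : a ∈ D)
    (hc : Commute a (x * y)) : Commute x a ∧ Commute y a := by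
  have c1 : Commute x a := h.four hx ha (by
    rcases h.pu x hx y hy c ne a (h.sub a ha) hc with e | e <;> rw [e]
    exact c)
  refine ⟨c1, ?_⟩
  have := c1.symm.inv_right.mul_right hc
  rw [inv_mul_cancel_left] at this
  exact this.symm

variable [Finite G]

theorem even (hx : x ∈ D) (hy : y ∈ D) (he : Even (orderOf (x * y))) :
    ∃ m, (x * y) ^ (2 * m + 1) * (x * y) ^ (2 * m + 1) = 1 ∧ (x * y) ^ (2 * m + 1) ≠ 1 := by
  obtain ⟨m, hm⟩ := he
  have pos := orderOf_pos (x * y)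
  have ne : (x * y) ^ m ≠ 1 := pow_ne_one_of_lt_orderOf (by omega) (by omega)
  have sq : (x * y) ^ m * (x * y) ^ m = 1 := by rw [← pow_add, ← hm, pow_orderOf_eq_one]
  have hk : ∀ k : ℕ, ((x * y) ^ k)⁻¹ ∈ K := fun k => inv_mem (pow_mem (mul_mem (h.sub x hx) (h.sub y hy)) k)
  rcases Nat.even_or_odd' m with ⟨j, rfl | rfl⟩
  · exfalso
    have c : x * (x * y) ^ j ∈ D := by
      rcases Nat.even_or_odd' j with ⟨k, rfl | rfl⟩
      · rw [← dih_even (h.sq hx) (h.sq hy)]; exact h.cj _ (hk k) _ hx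
      · rw [← dih_odd (h.sq hx) (h.sq hy)]; exact h.cj _ (hk k) _ hy
    have e1 : x * (x * (x * y) ^ j) = (x * y) ^ j := by rw [← mul_assoc, h.sq hx, one_mul]
    have := h.four hx c (commute_of_sq_eq_one (h.sq hx) (h.sq (h.cj _ (h.sub _ c) _ hx)) (by
      rw [inv_eq_self_of_sq (h.sq c), mul_assoc (x * (x * y) ^ j), ← mul_assoc x, e1, ← pow_add, ← two_mul, pow_two, sq]))
    have := sq_eq_one_of_commute (h.sq hx) (h.sq c) this
    rw [e1, ← pow_mul, mul_comm] at this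
    exact ne this
  · exact ⟨j, sq, ne⟩

theorem odd (hx : x ∈ D) (hy : y ∈ D) (hc : ¬ Commute x y) :
    ∃ m : ℕ, ((x * y) ^ m)⁻¹ * y * ((x * y) ^ m)⁻¹⁻¹ = x := by
  rcases Nat.even_or_odd (orderOf (x * y)) with ho | ho
  · obtain ⟨m, w1, w0⟩ := h.even hx hy ho
    obtain ⟨w2, w3⟩ := dih_commute (h.sq hx) (h.sq hy) w1
    have y1 := h.cj _ (inv_mem (pow_mem (mul_mem (h.sub x hx) (h.sub y hy)) m)) _ hy
    rw [dih_odd (h.sq hx) (h.sq hy)] at y1
    exact absurd (h.two hx y1 ((Commute.refl _).mul_right w2) (fun a => w0 (left_eq_mul.1 a)) hy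
      (by rwa [← mul_assoc, h.sq hx, one_mul])).1 hc
  · exact dih_conj_of_odd (h.sq hx) (h.sq hy) ho (pow_orderOf_eq_one _)

/-- The commuting graph is connected. -/
theorem conn {Γ : Set G} (hΓ : ∀ x ∈ Γ, ∀ y ∈ D, Commute x y → y ∈ Γ) (hx : x ∈ D) (h0 : x ∈ Γ) {b : G}
    (hb : b ∈ D) : b ∈ Γ := by
  obtain ⟨y, hy, c, ne⟩ := h.ex x hx
  have hj : x * y * (x * y) = 1 := by rw [← pow_two]; exact sq_eq_one_of_commute (h.sq hx) (h.sq hy) c
  have jK := mul_mem (h.sub x hx) (h.sub y hy)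
  have bK := h.sub b hb
  obtain ⟨m, u2, u1⟩ := dih_exists_of_even (dih_even_of_not_isConj (h.sq hb) hj (h.nj x hx y hy c ne b hb))
  obtain ⟨c1, c2⟩ := dih_commute (h.sq hb) hj u2
  have uK := pow_mem (mul_mem bK jK) m
  rcases Nat.even_or_odd' m with ⟨k, rfl | rfl⟩
  · have b1 := h.cj _ (inv_mem (pow_mem (mul_mem bK jK) k)) _ hb
    rw [dih_even (h.sq hb) hj] at b1
    generalize (b * (x * y)) ^ (2 * k) = u at *
    obtain ⟨a, ha, a1, a2⟩ : ∃ a ∈ D, Commute a x ∧ Commute a u := by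
      rcases h.pu x hx y hy c ne u uK c2.symm with e | e
      · exact ⟨x, hx, Commute.refl x, (mul_inv_eq_iff_eq_mul.1 e).symm⟩
      · exact h.fix x hx y hy c ne u uK u2 e
    exact hΓ a (hΓ x h0 a ha a1.symm) b hb (h.two hb b1 ((Commute.refl _).mul_right c1)
      (fun e => u1 (left_eq_mul.1 e)) ha (by rwa [← mul_assoc, h.sq hb, one_mul])).1.symm
  · have b1 := h.cj _ (inv_mem (pow_mem (mul_mem jK bK) k)) _ hb
    have j1 : IsConj (x * y) (b * (b * (x * y)) ^ (2 * k + 1)) := by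
      rw [← dih_odd (h.sq hb) hj]; exact isConj_iff.2 ⟨_, rfl⟩
    rw [dih_odd hj (h.sq hb), show x * y * b = (b * (x * y))⁻¹ by
      rw [mul_inv_rev, inv_eq_self_of_sq hj, inv_eq_self_of_sq (h.sq hb)], inv_pow, inv_eq_self_of_sq u2] at b1
    generalize (b * (x * y)) ^ (2 * k + 1) = u at *
    obtain ⟨d1, d2⟩ := h.two hx hy c ne b1 ((Commute.refl _).mul_left c2.symm)
    have e0 : x * y * (x * y * u) = u := by rw [← mul_assoc, hj, one_mul]
    have hy0 := hΓ x h0 y hy c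
    by_cases e1 : x = x * y * u
    · rw [← e1, mul_assoc, ← c.eq, ← mul_assoc, h.sq hx, one_mul] at e0
      exact hΓ y hy0 b hb (e0 ▸ c1.symm)
    by_cases e2 : y = x * y * u
    · rw [← e2, mul_assoc, h.sq hy, mul_one] at e0
      exact hΓ x h0 b hb (e0 ▸ c1.symm)
    obtain ⟨a, ha, a1, a2, a3, a4⟩ := h.typ x hx y hy _ b1 c d1 d2 ne e1 e2
    have au : Commute a u := e0 ▸ (a1.mul_right a2).mul_right a3
    by_contra hn
    obtain ⟨n, e⟩ := h.odd ha hb fun e => hn (hΓ a (hΓ x h0 a ha a1.symm) b hb e)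
    refine a4 (j1.trans (isConj_iff.2 ⟨((a * b) ^ n)⁻¹, ?_⟩))
    have := ((au.mul_left c1).pow_left n).inv_left
    rw [e0, c1.eq, ← mul_assoc, this.eq, mul_assoc u, mul_assoc u, e]

/-- The global 3-transposition property. -/
theorem glob (dm : ∀ x ∈ D, ∀ b ∈ D, ¬ Commute x b → ∀ m ∈ D, Commute m x → Commute m b → ∀ w ∈ D, Commute x w →
    ∃ n ∈ D, Commute n b ∧ Commute n w) (hx : x ∈ D) (hy : y ∈ D) : ∃ m ∈ D, Commute m x ∧ Commute m y :=
  (h.conn (Γ := {y | y ∈ D ∧ ∃ m ∈ D, Commute m x ∧ Commute m y}) (fun y ⟨hy, m, hm, c1, c2⟩ w hw c => ⟨hw, by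
    by_cases e : Commute y x
    · exact ⟨y, hy, e, c⟩
    · exact dm y hy x hx e m hm c2 c1 w hw c⟩) hx ⟨hx, x, hx, Commute.refl x, Commute.refl x⟩ hy).2

theorem three (dm : ∀ x ∈ D, ∀ b ∈ D, ¬ Commute x b → ∀ m ∈ D, Commute m x → Commute m b → ∀ w ∈ D, Commute x w →
    ∃ n ∈ D, Commute n b ∧ Commute n w) : IsThreeTranspositionSet D :=
  ⟨fun x hx => (h.tt x hx).1 x ⟨hx, Commute.refl x⟩, fun x hx y hy =>
    let ⟨m, hm, c1, c2⟩ := h.glob dm hx hy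
    (h.tt m hm).2 x ⟨hx, c1⟩ y ⟨hy, c2⟩⟩

end L3

end CA.U6
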