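/-
A local characterisation of the 3-transpositions of `Fi₂₄`.
-/
import Cfsg.Agent.U6.Dih
import Cfsg.Agent.Th.Fi
import Cfsg.Agent.Fi3.Fix
import Cfsg.Agent.Fi3.Lv
import Cfsg.Agent.Fi.Main23
import Cfsg.Agent.Fi.Extra

set_option autoImplicit false

namespace CA.U6

open Cfsg Subgroup CA.Fi CA.TC

/-- triality images of products of two reflections as products of eight reflections -/
def W24 : List (ℕ × List ℕ) := [(2, [1856, 5348, 775, 7468, 1924, 11143, 16591, 4898]),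
  (3, [8010, 9726, 3550, 536, 7834, 998, 4905, 4875]), (4, [5, 6535, 9006, 9796, 13915, 3911, 5579, 6281]),
  (5, [612, 4, 60, 3727, 4415, 342, 122, 158]), (6, [397, 5261, 1233, 13773, 7446, 9707, 2330, 6136]),
  (7, [4124, 7657, 3527, 14190, 1938, 1056, 6445, 5351]), (8, [3589, 7381, 11856, 4110, 90, 6202, 4112, 1324]),
  (695, [14348, 11128, 5527, 3535, 3794, 3739, 6547, 3726])]

theorem W24_chk : (∀ t ∈ W24, t.2.length = 8 ∧ t.1 < 31671 ∧ t.1 ≠ 0 ∧ X23.op 0 t.1 = t.1 ∧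
    (∀ p ∈ t.2, p < 31671 ∧ (wBlab p = 1 ∨ wBlab p = 2)) ∧
    ∀ g < 12, X23.mv (8645 :: 0 :: t.1 :: 8645 :: t.2) (X23.pt g) = X23.pt g) ∧
    (∀ p ∈ [2, 3, 4, 5, 6, 7, 8, 695, 0], p = 0 ∨ ∃ t ∈ W24, t.1 = p) ∧ wBR 1 = 2 ∧ X23.op 0 3511 = 3513 ∧
    (∀ g ∈ [0, 1, 2, 3, 5, 6, 7, 8, 9], g < 12 ∧ X23.act g 0 = 0 ∧ X23.act g 3511 = 3511) ∧
    (∀ p ∈ [2, 3, 4, 5, 6, 7, 8, 695, 0, 3511, 8645], p < 31671 ∧ pat X23 X24 p = true) ∧
    ∀ l < 5, 2 ≤ l → wBR l < 31671 ∧ ∃ q ∈ [2, 3, 4, 5, 6, 7, 8, 695, 0, 3511, 8645], X23.op q (wBR l) = wBR l := by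
  decide +kernel

theorem pin_chk : rng (fun p => bor (anyL [0, 1, 2, 3, 5, 6, 7, 8, 9] fun g => TC.bne (X23.act g p) p)
    (bor (Nat.beq p 0) (bor (Nat.beq p 3511) (Nat.beq p 3513)))) 0 31671 9 = true := by decide +kernel

variable {X : Type*} [Group X] {G0 : Subgroup X} {D : Set X}

theorem mv_conj {T : Tab} {e : ℕ → X} (h : QReal T e) {l : List ℕ} (hl : ∀ u ∈ l, u < T.n) {q : ℕ} (hq : q < T.n) :
    (wd e l)⁻¹ * e q * wd e l = e (T.mv l q) := by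
  induction l generalizing q with
  | nil => simp
  | cons u l ih =>
    have hu := hl u (by simp)
    rw [Tab.mv_cons, ← ih (fun v hv => hl v (by simp [hv])) (h.ok.op_lt hu hq), ← h.op hu hq, wd_cons, mul_inv_rev,
      h.inv_eq hu]
    group

theorem wd_even (hi : G0.index = 2) {e : ℕ → X} {l : List ℕ} (hl : ∀ u ∈ l, e u ∉ G0) : wd e l ∈ G0 ↔ Even l.length := by
  induction l with
  | nil => simp
  | cons u l ih =>
    rw [wd_cons, mul_mem_iff_of_index_two hi, ih fun v hv => hl v (by simp [hv]), List.length_cons, Nat.even_add_one]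
    have := hl u (by simp)
    tauto

/-- The local data. -/
structure P24 (G0 : Subgroup X) (D : Set X) : Prop extends L3 ⊤ D where
  loc : ∀ d ∈ D, ∃ e, Real X23 (nb D d) e
  idx : G0.index = 2
  out : ∀ d ∈ D, d ∉ G0
  ev : ∀ d ∈ D, ∀ g ∈ G0, Commute g d → (∀ a ∈ nb D d, Commute g a) → g = 1

namespace P24

variable (h : P24 G0 D)
include h

theorem patt {d b m : X} (hd : d ∈ D) (hb : b ∈ D) (n : ¬ Commute d b) (hm : m ∈ D) (c1 : Commute m d)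
    (c2 : Commute m b) : ∃ e, Real X23 (nb D d) e ∧ ∀ p < 31671, Commute b (e p) ↔ pat X23 X24 p = true := by
  obtain ⟨e, h1⟩ := h.loc d hd
  have hG := good23_of hd hb n ⟨m, ⟨hm, fun a => n (a ▸ c2), c1.symm⟩, c2.symm⟩ fun x hx _ => h.loc x hx.1
  obtain ⟨e, he, hp | ⟨hp, -⟩⟩ := h1.cls23 hG
  · exact ⟨e, he, hp⟩
  refine ⟨e, he, (Th.type23C he hG hp).resolve_right fun ⟨_, n2⟩ => n2 ?_⟩
  obtain ⟨k1, k2, k3, k4, k5, -⟩ := W24_chk
  have hn : X23.n = 31671 := X23_n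
  have l0 : 0 < X23.n := by omega
  have lw : 8645 < X23.n := by omega
  have hO := fun p (hp : p < X23.n) => rng_spec wB_O p (Nat.zero_le _) hp
  have orb : ∀ y, (∀ p ∈ [2, 3, 4, 5, 6, 7, 8, 695, 0], Commute y (e p)) → ∀ p < X23.n, wBlab p ≠ 0 →
      (Commute y (e p) ↔ Commute y (e (wBR (wBlab p)))) := fun y hy p => he.toQReal.comm_orb (fun j hj =>
    ⟨(by decide : ∀ p ∈ [2, 3, 4, 5, 6, 7, 8, 695, 0], p < 31671) _ (wB_U j hj), hy _ (wB_U j hj)⟩) hO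
  have hp' : ∀ p ∈ [2, 3, 4, 5, 6, 7, 8, 695, 0], Commute b (e p) := fun p a => hp p (by revert p; decide)
  have mw := he.mem _ lw
  have m0 := he.mem _ l0
  have hx := h.cj _ (mem_top (e 8645)) b hb
  have key : ∀ t ∈ W24, Commute (e 0) (e 8645 * b * (e 8645)⁻¹) ∧ Commute (e t.1) (e 8645 * b * (e 8645)⁻¹) := by
    intro t ht
    obtain ⟨a1, a2, a3, a4, a5, a6⟩ := k1 t ht
    have lt : ∀ u ∈ 8645 :: 0 :: t.1 :: 8645 :: t.2, u < X23.n := by
      simp only [List.forall_mem_cons]; exact ⟨lw, l0, a2, lw, fun p a => (a5 p a).1⟩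
    have e1 := h.ev d hd _ ((wd_even h.idx fun u hu => h.out _ (he.mem u (lt u hu)).1).2 (by simp [a1]; decide))
      (mem_cent_iff.1 (wd_mem fun u hu => mem_cent_iff.2 (he.mem u (lt u hu)).2.2.symm)) fun a ha =>
        he.commute_of_gens (fun g hg => by
          have := mv_conj he.toQReal lt (he.ok.pt_lt g hg)
          rw [a6 g hg, mul_assoc, inv_mul_eq_iff_eq_mul] at this
          exact this.symm) (subset_closure ha)
    have e2 : Commute b (wd e t.2) := (mem_cent_iff.1 (wd_mem fun u hu => mem_cent_iff.2 (by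
      rcases (a5 u hu).2 with a | a <;> refine ((orb b hp' u (a5 u hu).1 (by omega)).2 ?_).symm <;> rw [a]
      · exact hp' _ wB_R.1
      · exact wB_R.2 ▸ hp _ (by simp)))).symm
    refine h.two m0.1 (he.mem _ a2).1 (he.toQReal.commute_of_op l0 a2 a4) (fun a => a3 (he.inj _ l0 _ a2 a).symm) hx ?_
    rw [show e 0 * e t.1 = e 8645 * (wd e t.2)⁻¹ * (e 8645)⁻¹ by
      simp only [wd_cons] at e1
      calc _ = (e 8645)⁻¹ * (e 8645 * (e 0 * (e t.1 * (e 8645 * wd e t.2)))) * (wd e t.2)⁻¹ * (e 8645)⁻¹ := by group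
        _ = _ := by rw [e1, mul_one, he.toQReal.inv_eq lw]]
    exact commute_cj.2 e2.inv_right
  have cx : ∀ p ∈ [2, 3, 4, 5, 6, 7, 8, 695, 0], Commute (e 8645 * b * (e 8645)⁻¹) (e p) := fun p a => by
    rcases k2 p a with rfl | ⟨t, ht, rfl⟩
    · exact (key _ (List.mem_cons_self ..)).1.symm
    · exact (key t ht).2.symm
  have near := he.near_of_count (d := 9) l0 (fun p hp => rng_spec wB_L p (Nat.zero_le _) hp) (b := b)
    (fun p a e => (orb b hp' p a (by omega)).2 (e ▸ hp' _ wB_R.1)) (by omega)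
    (by rw [he.count23U hG m0 (hp' 0 (by simp))]; exact wB_c.symm)
  have ne : ∀ y, Commute d y → e 8645 * b * (e 8645)⁻¹ ≠ y := fun y c a => n (by
    rw [← commute_cj (g := e 8645), cj_eq_iff.2 mw.2.2.symm]; exact (congrArg _ a).mpr c)
  obtain ⟨g, hg⟩ := h.loc _ m0.1
  obtain ⟨g, hg, rfl, rfl⟩ := hg.exists_base_nc nest23 trans23 (d := d) (c := b) ⟨hd, m0.2.1.symm, m0.2.2.symm⟩
    ⟨hb, fun a => n (a ▸ m0.2.2), (hp' 0 (by simp)).symm⟩ n
  obtain ⟨p, lp, ep⟩ := hg.surj _ ⟨hx, ne _ m0.2.2, (cx 0 (by simp)).symm⟩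
  have := rng_spec pin_chk p (Nat.zero_le _) lp
  rw [bor_iff, bor_iff, bor_iff, beq_iff, beq_iff, beq_iff] at this
  rcases this with a | rfl | rfl | rfl
  · obtain ⟨k, hk, a⟩ := anyL_spec a
    obtain ⟨b1, b2, b3⟩ := k5 k hk
    have my := hg.mem _ (hg.ok.pt_lt k b1)
    have c := (hg.commute_gen_iff b1 (q := 3511) (by omega)).2 b3
    obtain ⟨q, lq, eq⟩ := he.surj (X23.gen g k) ⟨my.1, fun a => n (a ▸ c), ((hg.commute_gen_iff b1 l0).2 b2).symm⟩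
    refine (bne_iff.1 a ((hg.commute_gen_iff b1 lp).1 ?_)).elim
    have := near q lq (fun a => my.2.1 (eq.symm.trans (congrArg e a))) ((he.commute_iff l0 lq).1 (eq ▸ my.2.2))
      (eq ▸ c.symm)
    rw [ep, ← eq]
    exact ((orb _ cx q lq (by omega)).2 (this ▸ cx _ wB_R.1)).symm
  · exact absurd ep.symm (ne _ (Commute.refl _))
  · exact (conj_eq_iff_commute.1 ep.symm).symm
  · refine (n (h.two hd mw.1 mw.2.2 mw.2.1.symm hb (conj_eq_iff_commute.1 ?_).symm).1).elim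
    rw [← k4, ← hg.toQReal.op l0 (by omega)] at ep
    rw [show g 0 * e 8645 * g (X22.n + 1) * (g 0 * e 8645)⁻¹ = g 0 * (e 8645 * g (X22.n + 1) * (e 8645)⁻¹) * (g 0)⁻¹ by group,
      ← ep, show g 0 * (g 0 * g 3511 * (g 0)⁻¹) * (g 0)⁻¹ = g 0 * g 0 * g 3511 * (g 0 * g 0)⁻¹ by group, h.sq hd, one_mul, inv_one, mul_one]
    rfl

theorem dm (x : X) (hx : x ∈ D) (b : X) (hb : b ∈ D) (n : ¬ Commute x b) (m : X) (hm : m ∈ D) (c1 : Commute m x)
    (c2 : Commute m b) (w : X) (hw : w ∈ D) (c : Commute x w) : ∃ n ∈ D, Commute n b ∧ Commute n w := by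
  by_cases a : w = x
  · exact ⟨m, hm, c2, a ▸ c1⟩
  obtain ⟨e, he, hp⟩ := h.patt hx hb n hm c1 c2
  obtain ⟨p, lp, rfl⟩ := he.surj w ⟨hw, a, c⟩
  obtain ⟨-, -, -, -, -, k1, k2⟩ := W24_chk
  have cb : ∀ q ∈ [2, 3, 4, 5, 6, 7, 8, 695, 0, 3511, 8645], Commute b (e q) := fun q a => (hp q (k1 q a).1).2 (k1 q a).2
  have l0 := (k1 0 (by simp)).1
  by_cases a0 : X23.op 0 p = p
  · exact ⟨e 0, (he.mem 0 l0).1, (cb 0 (by simp)).symm, he.toQReal.commute_of_op l0 lp a0⟩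
  have hL := rng_spec wB_L p (Nat.zero_le _) lp
  rw [chkLab, Bool.eq_false_iff.2 (mt beq_iff.1 a0)] at hL
  obtain ⟨a1, a2⟩ := band_iff.1 hL
  replace a1 : 2 ≤ wBlab p := ble_iff.1 a1
  have hU : ∀ j < 9, wBU j ∈ [2, 3, 4, 5, 6, 7, 8, 695, 0, 3511, 8645] := fun j hj =>
    (by decide : ∀ p ∈ [2, 3, 4, 5, 6, 7, 8, 695, 0], p ∈ [2, 3, 4, 5, 6, 7, 8, 695, 0, 3511, 8645]) _ (wB_U j hj)
  refine orb_ind ok23 (fun j hj => (k1 _ (hU j hj)).1) (fun p hp => rng_spec wB_O p (Nat.zero_le _) hp)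
    (P := fun q => ∃ n ∈ D, Commute n b ∧ Commute n (e q)) (fun j hj q hq ⟨y, hy, d1, d2⟩ => ?_) p lp (by omega) ?_
  · rw [← he.toQReal.op (k1 _ (hU j hj)).1 hq] at d2
    refine ⟨_, h.cj _ (mem_top (e (wBU j))⁻¹) y hy, ?_, ?_⟩
    · rw [← conj_eq_iff_commute.2 (cb _ (hU j hj)).symm.inv_left]; exact commute_cj.2 d1
    · have := (commute_cj (g := (e (wBU j))⁻¹)).2 d2
      rwa [show Fi.cj (e (wBU j))⁻¹ (e (wBU j) * e q * (e (wBU j))⁻¹) = e q from cj_inv_cj ..] at this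
  · obtain ⟨b1, q, hq, b2⟩ := k2 _ (blt_iff.1 a2) a1
    exact ⟨e q, (he.mem q (k1 q hq).1).1, (cb q hq).symm, he.toQReal.commute_of_op (k1 q hq).1 b1 b2⟩

theorem real [Finite X] {f : X} (hf : f ∈ D) : IsThreeTranspositionSet D ∧ ∃ e, Real X24 D e := by
  have tt := h.three h.dm
  obtain ⟨g, hg⟩ := h.loc f hf
  have l0 : 0 < X23.n := by decide
  have m0 := hg.mem _ l0
  have m1 := hg.mem _ nest23.n_lt
  have n : ¬ Commute (g 0) (g (X22.n + 1)) := by rw [hg.commute_zero_iff nest23 nest23.n_lt]; omega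
  obtain ⟨e, he, hp⟩ := h.patt m0.1 m1.1 n hf m0.2.2 m1.2.2
  obtain ⟨f, hf, _⟩ := level_step nest24 trans24 tt (fun g => h.cj g (mem_top g)) m0.1 m1.1 n he hp st24_B st24_D
    (fun p hp => rng_spec st24_D' p (Nat.zero_le _) hp) st24_Q (fun s hs hq => qreal24 s (fun g _ => hs g) hq)
    (g := 1) (by rw [X23_ng]; omega) st24_g.1 (k := 3) (by decide) st24_X (by decide) (by rw [X24_n]; decide)
  exact ⟨tt, f, hf⟩

end P24

theorem move24 {f : X} {e : ℕ → X} (h : Real X23 (nb (conjugatesOf f) f) e) {x : X} {l l' : List X}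
    (h1 : Fi3.CL (conjugatesOf f) (x :: l)) (h2 : Fi3.CL (conjugatesOf f) (f :: l')) (hl : l.length = l'.length)
    (h4 : l.length ≤ 4) : ∃ g, Fi.cj g x = f ∧ l.map (Fi.cj g) = l' := by
  obtain ⟨g, rfl⟩ := isConj_iff.1 (IsConj.symm (h1.2.1 x (by simp)))
  have c1 := h1.map_cj (E := conjugatesOf _) g fun a ha => (h1.2.1 a ha).trans (isConj_iff.2 ⟨g, rfl⟩)
  obtain ⟨u, hu, e⟩ := Fi3.tr23 h _ l' (Fi3.cl_cons.1 c1).2 (Fi3.cl_cons.1 h2).2 (by simpa using hl) (by simpa using h4)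
  refine ⟨u * g, ?_, by rw [← e, List.map_map]; simp [Function.comp_def, cj_mul]⟩
  rw [cj_mul]
  exact cj_eq_iff.2 (commute_of_mem_closure_nb hu)

theorem p24_of [Finite X] {f a b c : X} {e : ℕ → X} (h : Real X23 (nb (conjugatesOf f) f) e) (o : orderOf f = 2)
    (idx : G0.index = 2) (out : f ∉ G0) (cl : Fi3.CL (conjugatesOf f) [f, a, b, c])
    (pu : ∀ g, Commute g (f * a) → g * f * g⁻¹ = f ∨ g * f * g⁻¹ = a) (typ : ¬ IsConj (f * a) (f * a * b * c))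
    (ev : ∀ g ∈ G0, Commute g f → (∀ a ∈ nb (conjugatesOf f) f, Commute g a) → g = 1) : P24 G0 (conjugatesOf f) := by
  haveI := normal_of_index_eq_two idx
  have hc : ∀ g, ∀ x ∈ conjugatesOf f, g * x * g⁻¹ ∈ conjugatesOf f := fun g x hx => hx.trans (isConj_iff.2 ⟨g, rfl⟩)
  have nbc : ∀ g x y, y ∈ nb (conjugatesOf f) x → Fi.cj g y ∈ nb (conjugatesOf f) (Fi.cj g x) := fun g x y hy =>
    ⟨hc g y hy.1, fun a => hy.2.1 (cj_inj a), commute_cj.2 hy.2.2⟩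
  have loc : ∀ d ∈ conjugatesOf f, ∃ e, Real X23 (nb (conjugatesOf f) d) e := fun d hd => by
    obtain ⟨g, rfl⟩ := isConj_iff.1 hd
    have := h.map (MulAut.conj g).toMonoidHom (MulAut.conj g).injective.injOn
    suffices a : (MulAut.conj g).toMonoidHom '' nb (conjugatesOf f) f = nb (conjugatesOf f) (Fi.cj g f) from ⟨_, a ▸ this⟩
    refine Set.ext fun y => ⟨by rintro ⟨y, hy, rfl⟩; exact nbc g f y hy, fun hy => ⟨Fi.cj g⁻¹ y, ?_, by simp [Fi.cj, mul_assoc]⟩⟩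
    simpa only [cj_inv_cj] using nbc g⁻¹ _ y hy
  have out' : ∀ d ∈ conjugatesOf f, d ∉ G0 := fun d hd a => by
    obtain ⟨g, rfl⟩ := isConj_iff.1 (IsConj.symm hd)
    exact out (Normal.conj_mem inferInstance _ a g)
  have o' : ∀ d ∈ conjugatesOf f, orderOf d = 2 := fun d hd => by
    obtain ⟨g, rfl⟩ := isConj_iff.1 hd
    exact ((MulAut.conj g).orderOf_eq f).trans o
  have sq : ∀ d ∈ conjugatesOf f, d * d = 1 := fun d hd => by rw [← pow_two, ← o' d hd, pow_orderOf_eq_one]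
  have pu' : ∀ x ∈ conjugatesOf f, ∀ y ∈ conjugatesOf f, Commute x y → x ≠ y → ∀ g, Commute g (x * y) →
      g * x * g⁻¹ = x ∨ g * x * g⁻¹ = y := fun x hx y hy c n g cg => by
    obtain ⟨u, e1, e2⟩ := move24 h (Fi3.cl_two.2 ⟨hx, hy, n, c⟩) (cl.sub (by simp) : Fi3.CL _ [f, a]) rfl (by simp)
    obtain rfl : Fi.cj u y = a := by simpa using e2
    have := pu (Fi.cj u g) (by rw [← e1, cj_mul_cj]; exact commute_cj.2 cg)
    rw [← e1] at this
    exact this.imp (fun a => cj_inj (g := u) (by rw [← a]; simp [Fi.cj, mul_assoc])) fun a =>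
      cj_inj (g := u) (by rw [← a]; simp [Fi.cj, mul_assoc])
  refine ⟨⟨fun _ _ => mem_top _, fun g _ => hc g, fun k hk => ⟨fun y hy => o' y hy.1, fun x hx y hy => ?_⟩,
    fun x hx y hy c n g _ => pu' x hx y hy c n g, fun x hx y hy c n u _ u2 e => ?_, fun x hx y hy _ _ b hb e => ?_,
    fun x hx y hy w hw c1 c2 c3 n1 n2 n3 => ?_, fun x hx => ?_⟩, loc, idx, out', fun d hd g hg c k => ?_⟩
  · obtain ⟨e, r⟩ := loc k hk
    have s2 := fun c => Or.inl (b := (x * y) ^ 3 = 1) (sq_eq_one_of_commute (sq x hx.1) (sq y hy.1) c)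
    by_cases e1 : x = k
    · exact s2 (e1 ▸ hy.2)
    by_cases e2 : y = k
    · exact s2 (e2 ▸ hx.2.symm)
    exact r.tt23.2 x ⟨hx.1, e1, hx.2⟩ y ⟨hy.1, e2, hy.2⟩
  · obtain ⟨g, r⟩ := loc x hx
    obtain ⟨g, r, rfl⟩ := r.exists_base trans23 (by decide) (d := y) ⟨hy, n.symm, c⟩
    have sw : ∀ k, Commute k (x * g 0) → ∀ d ∈ conjugatesOf f, (Commute x d ∧ Commute (g 0) d) ∧ d ≠ x ∧ d ≠ g 0 →
        (Commute x (Fi.cj k d) ∧ Commute (g 0) (Fi.cj k d)) ∧ Fi.cj k d ≠ x ∧ Fi.cj k d ≠ g 0 := fun k ck d _ ⟨⟨d1, d2⟩, d3, d4⟩ => by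
      have e1 : Fi.cj k x * Fi.cj k (g 0) = x * g 0 := (cj_mul_cj ..).trans (cj_eq_iff.2 ck)
      rcases pu' x hx _ hy c n k ck with a | a
      · have a' : Fi.cj k (g 0) = g 0 := mul_left_cancel ((congrArg (· * _) a).symm.trans e1)
        exact ⟨⟨a ▸ commute_cj.2 d1, a' ▸ commute_cj.2 d2⟩, fun b => d3 (cj_inj (b.trans a.symm)),
          fun b => d4 (cj_inj (b.trans a'.symm))⟩
      · have a' : Fi.cj k (g 0) = x := mul_left_cancel ((congrArg (· * Fi.cj k (g 0)) a).symm.trans (e1.trans c.eq))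
        exact ⟨⟨a' ▸ commute_cj.2 d2, a ▸ commute_cj.2 d1⟩, fun b => d4 (cj_inj (b.trans a'.symm)),
          fun b => d3 (cj_inj (b.trans a.symm))⟩
    obtain ⟨d, hd, cd⟩ := Fi3.fix22 (r.lower nest23) (K := centralizer {x * g 0}) (fun k hk d hd =>
      let ⟨⟨a1, a2⟩, a3, a4⟩ := sw k (mem_cent_iff.1 hk) d hd.1.1 ⟨⟨hd.1.2.2, hd.2.2⟩, hd.1.2.1, hd.2.1⟩
      ⟨⟨hc k d hd.1.1, a3, a1⟩, a4, a2⟩) (fun d hd => mem_cent_iff.2 (hd.1.2.2.symm.mul_right hd.2.2.symm))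
      (mem_cent_iff.2 (conj_eq_iff_commute.1 (by
        rw [← conj_mul, e, c.eq, ← e, show u * (u * x * u⁻¹) * u⁻¹ = u * u * x * (u * u)⁻¹ by group, u2]; simp))) u2
    exact ⟨d, hd.1.1, hd.1.2.2.symm, cd.symm⟩
  · obtain ⟨g, e⟩ := isConj_iff.1 e.symm
    exact out' b hb (e ▸ Normal.conj_mem inferInstance _
      ((mul_mem_iff_of_index_two idx).2 (iff_of_false (out' x hx) (out' y hy))) g)
  · obtain ⟨u, e1, e2⟩ := move24 h (Fi3.cl_three.2 ⟨hx, hy, hw, n1, n2, n3, c1, c2, c3⟩)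
      (cl.sub (by simp) : Fi3.CL _ [f, a, b]) rfl (by simp)
    obtain ⟨rfl, rfl⟩ : Fi.cj u y = a ∧ Fi.cj u w = b := by simpa using e2
    have cm : ∀ v, Fi.cj u v ∈ [f, Fi.cj u y, Fi.cj u w, c] → Commute (Fi.cj u⁻¹ c) v := fun v hv => by
      simpa only [cj_inv_cj] using (commute_cj (g := u⁻¹)).2 (cl.2.2 c (by simp) _ hv)
    refine ⟨_, hc u⁻¹ c (cl.2.1 c (by simp)), cm x (by simp [e1]), cm y (by simp), cm w (by simp), fun a => typ ?_⟩
    rw [← e1, cj_mul_cj, cj_mul_cj]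
    exact ((isConj_iff.2 ⟨u, rfl⟩).symm.trans a).trans (isConj_iff.2 ⟨u, by simp [Fi.cj, mul_assoc]⟩)
  · obtain ⟨g, r⟩ := loc x hx
    have := r.mem 0 (by decide)
    exact ⟨_, this.1, this.2.2, this.2.1.symm⟩
  · obtain ⟨u, rfl⟩ := isConj_iff.1 (IsConj.symm hd)
    refine cj_inj (g := u) ((ev _ (Normal.conj_mem inferInstance g hg u) (commute_cj.2 c) fun a ha => ?_).trans (by simp [Fi.cj]))
    have := nbc u⁻¹ (Fi.cj u d) a ha
    rw [cj_inv_cj] at this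
    exact cj_cj_inv u a ▸ (commute_cj (g := u)).2 (k _ this)

theorem realizeEqns_U6F24 : True := by
  have := @CA.U6.W24.eq_1
  have := @CA.U6.W24.eq_def
  have := @CA.U6.W24.congr_simp
  trivial

end CA.U6
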