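/-
Groups of large Fischer type: the four-group `E` and the neighbourhood of `z` in its centralizer.
-/
import Cfsg.Agent.U6.Wv
import Cfsg.Agent.U6.Mat
import Cfsg.Agent.M24.Chain

set_option autoImplicit false

namespace CA.U6

open Cfsg Cfsg.Agent Cfsg.Agent.Unit CA.M24 Subgroup CA.FG CA.Fi
open scoped Pointwise symmDiff

theorem hh_FV63 {u w : V} (h : hh u (vec 63) = 0) (hw : w ∈ FV (vec 63)) : hh u w = 0 := by
  obtain ⟨c, rfl⟩ := hw
  rw [hh.smul_right, h, mul_zero]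

theorem smul_FV {v w : V} (c : F4) (hw : w ∈ FV v) : c • w ∈ FV v := by
  obtain ⟨a, rfl⟩ := hw
  exact ⟨c * a, mul_smul ..⟩

theorem hh_FV_FV {u w : V} (hu : u ∈ FV (vec 63)) (hw : w ∈ FV (vec 63)) : hh u w = 0 :=
  hh_FV63 (Herm.eq_zero_comm (hh_FV63 hh63 hu)) hw

/-- the number of a duad -/
def dx (p q : ℕ) : ℕ := sg (Nat.xor (Nat.shiftLeft 1 p) (Nat.shiftLeft 1 q))

theorem dx_lt (p q : ℕ) : dx p q < 2048 := sg_lt _

theorem dx_val : dx 0 1 = 7 ∧ dx 0 2 = 56 ∧ dx 1 2 = 63 ∧ Nat.xor (dx 0 1) (dx 2 3) = 64 := by decide +kernel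

theorem xlt {m n : ℕ} (hm : m < 2048) (hn : n < 2048) : Nat.xor m n < 2048 := Nat.xor_lt_two_pow (n := 11) hm hn

/-- the cocycle of an element of order three -/
def dlt {H : Type*} [Group H] (π : H → V) (x y : H) : V := π (y * x * y⁻¹ * x⁻¹)

namespace SS

variable {H : Type*} [Group H] {Q : Subgroup H} {z : H} {π : H → V} {ρ : H →* L2} {x : H} {s : V → H}
  (h : SS Q z π ρ x s)
include h

theorem cq {y : H} (hy : ρ y ∈ KK) : y * x * y⁻¹ * x⁻¹ ∈ Q := by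
  rw [h.mem_iff, map_mul, map_mul, map_inv, map_inv, mul_inv_eq_one, mul_inv_eq_iff_eq_mul, map_mul]
  exact LinearEquiv.ext fun v => by rw [LinearEquiv.mul_apply, LinearEquiv.mul_apply, h.ρx, h.ρx, KK_lin hy]

theorem dlt_mul {a b : H} (ha : ρ a ∈ KK) (hb : ρ b ∈ KK) : dlt π x (a * b) = ρ a (dlt π x b) + dlt π x a := by
  rw [dlt, dlt, dlt, ← h.act a (h.cq hb), ← h.mul (h.conj_mem a (h.cq hb)) (h.cq ha)]
  congr 1; group

theorem dlt_Q {q : H} (hq : q ∈ Q) : dlt π x q = π q + om4 • π q := by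
  rw [dlt, show q * x * q⁻¹ * x⁻¹ = q * (x * q⁻¹ * x⁻¹) by group, h.mul hq (h.conj_mem x (inv_mem hq)),
    h.act x (inv_mem hq), h.ρx, h.inv hq]

theorem dlt_comm {c : H} (hc : Commute c x) : dlt π x c = 0 := by
  rw [dlt, hc.eq, mul_inv_cancel_right, mul_inv_cancel, h.one]

theorem KK_Q {q : H} (hq : q ∈ Q) : ρ q ∈ KK := h.mem_iff.1 hq ▸ one_mem _

theorem eq_or' {a b : H} (hb : ρ b ∈ KK) (e : ρ a = ρ b) (e' : dlt π x a = dlt π x b) : a = b ∨ a = b * z := by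
  have hq : a * b⁻¹ ∈ Q := by rw [h.mem_iff, map_mul, map_inv, e, mul_inv_cancel]
  have := h.dlt_mul (h.KK_Q hq) hb
  rw [inv_mul_cancel_right, e', h.mem_iff.1 hq, LinearEquiv.coe_one, id, left_eq_add, h.dlt_Q hq, add_comm, ← om_add,
    smul_eq_zero, smul_eq_zero] at this
  rcases (h.ker hq).1 ((this.resolve_left (by decide)).resolve_left (by decide)) with a | a
  · exact .inl (mul_inv_eq_one.1 a)
  · exact .inr ((mul_inv_eq_iff_eq_mul.1 a).trans (h.cen b).eq.symm)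

theorem dlt_conj {a y : H} (ha : ρ a ∈ KK) (hy : ρ y ∈ KK) :
    dlt π x (a * y * a⁻¹) = ρ a (dlt π x y) + (dlt π x a + ρ (a * y * a⁻¹) (dlt π x a)) := by
  have k : ρ (a * y * a⁻¹) ∈ KK := by rw [map_mul, map_mul, map_inv]; exact mul_mem (mul_mem ha hy) (inv_mem ha)
  have := h.dlt_mul k ha
  rw [inv_mul_cancel_right, h.dlt_mul ha hy] at this
  rw [← add_assoc, this, add_comm, ← add_assoc, V_add_self, zero_add]

/-- the four-group -/
def EH : Subgroup H where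
  carrier := s '' FV (vec 63)
  one_mem' := ⟨0, zero_mem _, h.zero⟩
  mul_mem' := by
    rintro _ _ ⟨u, hu, rfl⟩ ⟨v, hv, rfl⟩
    exact ⟨u + v, add_mem hu hv, by rw [h.s_mul, bb, hh_FV_FV hu (smul_FV _ hv)]; exact (mul_one _).symm⟩
  inv_mem' := by
    rintro _ ⟨u, hu, rfl⟩
    exact ⟨u, hu, by rw [h.s_inv, bb, hh_FV_FV hu (smul_FV _ hu)]; exact (mul_one _).symm⟩

/-- its centralizer -/
abbrev CE : Subgroup H := centralizer h.EH

theorem s_EH (c : F4) : s (c • vec 63) ∈ h.EH := ⟨_, ⟨c, rfl⟩, rfl⟩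

theorem map_CE {c : H} (hc : c ∈ h.CE) : ρ c ∈ SW := by
  have h1 : ∀ a : F4, ρ c (a • vec 63) = a • vec 63 := fun a => by
    simpa only [h.πs] using h.fix_of_comm (h.sQ _) (mem_cent_subgroup_iff.1 hc _ (h.s_EH a))
  have h2 : ρ c (vec 63) = vec 63 := by simpa only [one_smul] using h1 1
  refine ⟨h.mem_KK' ((h.lin_or c).resolve_right fun H => ?_), h2⟩
  exact absurd ((h1 _).symm.trans ((H _).trans (by rw [h2]))) (by decide)

theorem lift_CE {g : L2} (hg : g ∈ SW) : ∃ c ∈ h.CE, Commute c x ∧ ρ c = g := by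
  obtain ⟨c, hc, rfl⟩ := h.exists_cent hg.1
  refine ⟨c, mem_cent_subgroup_iff.2 ?_, hc, rfl⟩
  rintro _ ⟨u, hu, rfl⟩
  rw [← conj_eq_iff_commute, h.conj_s hc, SW_FV hg hu]

theorem mem_CE_iff {q : H} (hq : q ∈ Q) : q ∈ h.CE ↔ hh (π q) (vec 63) = 0 := by
  rw [mem_cent_subgroup_iff]
  refine ⟨fun H => Herm.eq_zero_comm (hh_eq_zero.2 ⟨?_, ?_⟩), ?_⟩
  · simpa only [h.πs, one_smul] using (h.commute_iff (h.sQ _) hq).1 (H _ (h.s_EH 1)).symm
  · simpa only [h.πs] using (h.commute_iff (h.sQ _) hq).1 (H _ (h.s_EH om4)).symm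
  · rintro H _ ⟨u, hu, rfl⟩
    exact (h.commute_iff hq (h.sQ u)).2 (by rw [bb, h.πs, hh_FV63 H hu]; rfl)

theorem z_CE : z ∈ h.CE := mem_cent_subgroup_iff.2 fun y _ => (h.cen y).symm

theorem dlt_CE {c : H} (hc : c ∈ h.CE) : hh (dlt π x c) (vec 63) = 0 := by
  obtain ⟨d, hd, cx, e⟩ := h.lift_CE (h.map_CE hc)
  have hq : c * d⁻¹ ∈ Q := by rw [h.mem_iff, map_mul, map_inv, e, mul_inv_cancel]
  have := h.dlt_mul (h.KK_Q hq) (h.map_CE hd).1
  rw [inv_mul_cancel_right, h.dlt_comm cx, map_zero, zero_add, h.dlt_Q hq] at this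
  simp [this, (h.mem_CE_iff hq).1 (mul_mem hc (inv_mem hd))]

theorem card_CE : Nat.card h.CE = 2 ^ 11 * 25920 := by
  have e := h.card_map h.CE
  rw [show h.CE.map ρ = SW from le_antisymm (by rintro _ ⟨c, hc, rfl⟩; exact h.map_CE hc) fun g hg => by
    obtain ⟨c, hc, -, e⟩ := h.lift_CE hg
    exact ⟨c, hc, e⟩, card_SW] at e
  let S : AddSubgroup V :=
    { carrier := {v | hh v (vec 63) = 0}
      zero_mem' := by simp
      add_mem' := fun a b => by simp_all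
      neg_mem' := fun a => by simp_all }
  have e1 : Nat.card S = 1024 := (ncard_eq (S : Set V) (fun n => Nat.beq (hN n 63) 0) fun n _ =>
    (hh_vec_eq_zero ..).trans beq_iff.symm).trans (by decide +kernel)
  rw [show Q ⊓ h.CE = h.pre S from Subgroup.ext fun q => and_congr_right fun hq => h.mem_CE_iff hq, h.card_pre, e1] at e
  omega

theorem card_EH : Nat.card h.EH = 4 :=
  (Set.ncard_image_of_injective _ (Function.LeftInverse.injective h.πs)).trans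
    ((ncard_eq (FV (vec 63) : Set V) _ fun _ => vec_mem_FV).trans (by decide +kernel))

end SS

namespace GX

variable {H G : Type*} [Group H] [Group G] [Finite G] {i : H →* G} {Q : Subgroup H} {z : H} {π : H → V} {ρ : H →* L2}
  {x : H} {s : V → H} {τ : ℕ → H} (h : GX i Q z π ρ x s τ)
include h

/-- numeric cocode coordinates -/
def φ (_ : GX i Q z π ρ x s τ) (n : ℕ) : H := en z s τ (tw 2 n)

theorem φ_mul {m n : ℕ} (hm : m < 2048) (hn : n < 2048) : h.φ (Nat.xor m n) = h.φ m * h.φ n :=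
  h.en_mul (by norm_num) h.τ_eps hm hn

omit [Finite G] in
theorem φ_mem {n : ℕ} (hn : n < 2048) : h.φ n ∈ h.AA := h.en_mem (tw_lt (by norm_num) hn)

omit [Finite G] in
theorem φ_Q {n : ℕ} (hn : n < 128) : h.φ n = s (vec (dv (n % 64))) * zp z (bt n 6) := by
  rw [φ, show tw 2 n = n by revert n; decide +kernel, en, e3, show n / 128 = 0 by omega, h.τ0, mul_one]

omit [Finite G] in
theorem φ_z : h.φ 64 = z := by rw [h.φ_Q (by norm_num), show vec (dv (64 % 64)) = 0 by decide, h.zero, one_mul]; rfl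

omit [Finite G] in
theorem φ_E : h.φ 7 = s ((1 : F4) • vec 63) ∧ h.φ 56 = s (om4 • vec 63) ∧ h.φ 63 = s ((om4 * om4) • vec 63) := by
  refine ⟨?_, ?_, ?_⟩ <;> rw [h.φ_Q (by norm_num)] <;> exact (mul_one _).trans (congrArg s (by decide))

theorem z_iff' {n : ℕ} (hn : n < 2048) : IsConj (i z) (i (en z s τ n)) ↔ tb 106 (cn n) = true := by
  have c := h.classes
  rw [h.zq_iff (b0 := false) (b1 := true) (b2 := true) (by simp only [c.1]; decide) (by simp only [c.2.1])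
    (by simp only [c.2.2]) hn, zq, force_eq]
  have : cn n < 8 := Nat.lt_succ_of_le (Nat.and_le_right)
  generalize cn n = c at this
  revert c; decide

theorem z_iff {n : ℕ} (hn : n < 2048) : IsConj (i z) (i (h.φ n)) ↔ zc n = true := h.z_iff' (tw_lt (by norm_num) hn)

/-- the duads -/
def du (p q : ℕ) : G := i (h.φ (dx p q))

theorem du_mul (p q r t : ℕ) : h.du p q * h.du r t = i (h.φ (Nat.xor (dx p q) (dx r t))) := by
  rw [h.φ_mul (dx_lt ..) (dx_lt ..), map_mul]; rfl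

theorem z_du : i z = h.du 0 1 * h.du 2 3 := by rw [h.du_mul, dx_val.2.2.2, h.φ_z]

theorem move5 {a b : Fin 5 → ℕ} (ha : (∀ j, a j < 24) ∧ Function.Injective a) (hb : (∀ j, b j < 24) ∧ Function.Injective b) :
    ∃ m ∈ normalizer (h.A : Set G), ∀ j k, m * h.du (a j) (a k) * m⁻¹ = h.du (b j) (b k) := by
  obtain ⟨θ, h1, -, h3⟩ := h.exists_θ
  obtain ⟨g, hg, e⟩ := five_transitive ⟨fun j => pt (a j), fun j k e => ha.2 (pt_inj (ha.1 j) (ha.1 k) e)⟩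
    ⟨fun j => pt (b j), fun j k e => hb.2 (pt_inj (hb.1 j) (hb.1 k) e)⟩
  obtain ⟨m, hm⟩ := h1 ⟨g, hg⟩
  have d : ∀ p < 24, ∀ q < 24, h.du p q = h.ψ ({pt p} ∆ {pt q}) := fun p hp q hq => by
    rw [ψ, mask_symmDiff, mask_singleton, mask_singleton, idx_pt hp, idx_pt hq]; rfl
  refine ⟨m, m.2, fun j k => ?_⟩
  rw [d _ (ha.1 j) _ (ha.1 k), d _ (hb.1 j) _ (hb.1 k), h3 m _ (by
    have := card_symmDiff_add {pt (a j)} {pt (a k)}
    rw [Finset.card_singleton, Finset.card_singleton] at this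
    exact Nat.even_iff.2 (by omega)), Finset.smul_finset_symmDiff, Finset.smul_finset_singleton, Finset.smul_finset_singleton, hm]
  exact congrArg₂ (fun u v => h.ψ ({u} ∆ {v})) (e j) (e k)

omit [Finite G] in
theorem exists_e3 {y : H} {a : ℕ} (ha : a < 16) (e : ρ y = el a) : ∃ u δ, y = e3 z s τ u δ a ∧
    (y * y = 1 → el a u = u ∧ hh u u = 0) := by
  have hq : y * (τ a)⁻¹ ∈ Q := by rw [h.mem_iff, map_mul, map_inv, e, h.ρτ a ha, mul_inv_cancel]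
  obtain ⟨δ, e1⟩ := h.exists_s hq
  generalize π (y * (τ a)⁻¹) = u at e1
  have e2 : y = s u * τ a * zp z δ := by rw [mul_assoc, (h.zp_comm _ δ).eq, ← mul_assoc, ← e1, inv_mul_cancel_right]
  refine ⟨u, δ, e2, fun h2 => ?_⟩
  rw [e2, h.sq_zp, show s u * τ a * (s u * τ a) = s u * (τ a * s u * (τ a)⁻¹) * (τ a * τ a) by group, h.τ_sq ha,
    mul_one, h.conj_s (h.τx a), h.ρτ a ha] at h2
  have e3 := congrArg π h2
  rw [h.mul (h.sQ _) (h.sQ _), h.πs, h.πs, h.one, ← V_add_self u, add_right_inj] at e3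
  rw [e3, h.sq (h.sQ u), h.πs] at h2
  exact ⟨e3, h2⟩

theorem inv_z {y : H} {a : ℕ} (ha : a < 16) (h0 : a ≠ 0) (e : ρ y = el a) (h2 : y * y = 1) (hy : y ∉ h.AA) :
    IsConj (i z) (i y) := by
  obtain ⟨u, δ, rfl, e1⟩ := h.exists_e3 ha e
  obtain ⟨g, hg, c1, k, hk, c2, c3⟩ := CW_spec ha h0 (e1 h2).1 (e1 h2).2 fun a => hy (h.e3_mem a δ ha)
  obtain ⟨c, cx, rfl⟩ := h.exists_cent hg
  obtain ⟨β, e2⟩ := h.eq_or (a := c * τ a * c⁻¹) ((cx.mul_left (h.τx a)).mul_left cx.inv_left) (h.τx a)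
    (by rw [map_mul, map_mul, map_inv, h.ρτ a ha, c1, mul_inv_cancel_right])
  obtain ⟨d, hd, e4⟩ := (by decide : ∀ γ : ZMod 2, ∃ d < 2, bt d 0 = γ) (β + δ)
  have hn : k + 64 * d + 128 * a < 2048 := by omega
  refine ((h.z_iff' hn).2 (by rw [c3 d hd]; rfl)).trans (i.map_isConj (isConj_iff.2 ⟨c, ?_⟩)).symm
  rw [en, show (k + 64 * d + 128 * a) % 64 = k by omega, show (k + 64 * d + 128 * a) / 128 = a by omega,
    show bt (k + 64 * d + 128 * a) 6 = bt d 0 by clear * - hk hd ha; revert k d a; decide +kernel, e4, e3, e3, ← c2,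
    ← h.conj_s cx, h.zp_add, mul_assoc _ (τ a) (_ * _), ← mul_assoc (τ a), ← e2, mul_assoc _ c⁻¹, mul_assoc _ c⁻¹,
    (h.zp_comm c⁻¹ δ).eq]
  group

/-- the four-group -/
abbrev EG : Subgroup G := h.EH.map i

/-- its centralizer -/
abbrev KG : Subgroup G := centralizer h.EG

/-- the class of `z` -/
def DG : Set G := {y | ∃ k ∈ h.KG, k * i z * k⁻¹ = y}

omit [Finite G] in
theorem mem_KG {c : H} : i c ∈ h.KG ↔ c ∈ h.CE := by
  rw [mem_cent_subgroup_iff, mem_cent_subgroup_iff]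
  exact ⟨fun H y hy => h.gs.comm_iff.1 (H _ (mem_map_of_mem i hy)), by
    rintro H _ ⟨y, hy, rfl⟩; exact (H y hy).map i⟩

omit [Finite G] in
theorem z_DG : i z ∈ h.DG := ⟨1, one_mem _, by simp⟩

omit [Finite G] in
theorem DG_conj {g y : G} (hg : g ∈ h.KG) (hy : y ∈ h.DG) : g * y * g⁻¹ ∈ h.DG := by
  obtain ⟨k, hk, rfl⟩ := hy
  exact ⟨g * k, mul_mem hg hk, by group⟩

omit [Finite G] in
theorem DG_sub {y : G} (hy : y ∈ h.DG) : y ∈ h.KG := by
  obtain ⟨k, hk, rfl⟩ := hy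
  exact mul_mem (mul_mem hk (h.mem_KG.2 h.z_CE)) (inv_mem hk)

omit [Finite G] in
theorem DG_sq {y : G} (hy : y ∈ h.DG) : y * y = 1 := by
  obtain ⟨k, hk, rfl⟩ := hy
  rw [conj_mul, ← map_mul, h.es.z_sq, map_one]; group

theorem DG_cls {y : G} (hy : y ∈ h.DG) : IsConj (i z) y ∧ ∀ c : F4, c ≠ 0 → ¬ IsConj (i z) (y * i (s (c • vec 63))) := by
  obtain ⟨k, hk, rfl⟩ := hy
  refine ⟨isConj_iff.2 ⟨k, rfl⟩, fun c hc a => ?_⟩
  have m := smul_mem_cs (m := 5) hc |>.2 vec63_mem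
  have q := mul_mem h.es.z_mem (h.sQ (c • vec 63))
  have e : π (z * s (c • vec 63)) = c • vec 63 := by rw [h.mul h.es.z_mem (h.sQ _), h.z0, h.πs, zero_add]
  refine (mem_cs26.1 ((h.gs.conj_iff q fun a => ?_).1 (a.trans (isConj_iff.2 ⟨k⁻¹, ?_⟩)))).2 (by rwa [e])
  · exact (mem_cs31.1 (cs_subset (by norm_num) m)).1 (by rw [← e, a, h.z0])
  · rw [map_mul, ← conj_mul, (mem_cent_subgroup_iff.1 (inv_mem hk) _ (mem_map_of_mem i (h.s_EH c))).eq]; group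

omit [Finite G] in
theorem s_AA (c : F4) : s (c • vec 63) ∈ h.AA :=
  h.pre_le ⟨h.sQ _, by rw [h.πs]; exact smul_mem_HX c (vec_mem_HX.2 (by decide))⟩

omit [Finite G] in
theorem AA_comm {a b : H} (ha : a ∈ h.AA) (hb : b ∈ h.AA) : Commute a b :=
  commute_of_sq (h.AA_sq ha) (h.AA_sq hb) (h.AA_sq (mul_mem ha hb))

omit [Finite G] in
theorem AA_CE : h.AA ≤ h.CE := fun a ha => mem_cent_subgroup_iff.2 (by
  rintro _ ⟨_, ⟨c, rfl⟩, rfl⟩
  exact h.AA_comm ha (h.s_AA c))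

omit [Finite G] in
theorem A_le : h.A ≤ h.KG := by
  rintro _ ⟨a, ha, rfl⟩
  exact h.mem_KG.2 (h.AA_CE ha)

theorem mem_KG_iff {g : G} : g ∈ h.KG ↔ Commute g (h.du 0 1) ∧ Commute g (h.du 0 2) := by
  rw [du, du, dx_val.1, dx_val.2.1, mem_cent_subgroup_iff, h.φ_E.1, h.φ_E.2.1]
  refine ⟨fun H => ⟨H _ (mem_map_of_mem i (h.s_EH _)), H _ (mem_map_of_mem i (h.s_EH _))⟩, ?_⟩
  rintro ⟨a, b⟩ _ ⟨_, ⟨_, ⟨c, rfl⟩, rfl⟩, rfl⟩
  rcases F4_cases c with rfl | rfl | rfl | rfl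
  · rw [zero_smul, h.zero, map_one]; exact Commute.one_right g
  · exact a
  · exact b
  · rw [← h.φ_E.2.2, show 63 = Nat.xor 7 56 from rfl, h.φ_mul (by norm_num) (by norm_num), map_mul, h.φ_E.1, h.φ_E.2.1]
    exact a.mul_right b

theorem loc0 {y : H} (hy : i y ∈ h.DG) : ∃ a ∈ h.CE, a * y * a⁻¹ ∈ h.AA := by
  have sq : ∀ {y}, i y ∈ h.DG → y * y = 1 := fun hy => h.gs.inj (by rw [map_mul, h.DG_sq hy, map_one])
  obtain ⟨k, hk, a, ha, e⟩ := SW_inv (h.map_CE (h.mem_KG.1 (h.DG_sub hy))) (by rw [← map_mul, sq hy, map_one])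
  obtain ⟨c, hc, -, rfl⟩ := h.lift_CE hk
  refine ⟨c, hc, by_contra fun hn => ?_⟩
  rw [← map_inv, ← map_mul, ← map_mul] at e
  have m : i (c * y * c⁻¹) ∈ h.DG := by rw [map_mul, map_mul, map_inv]; exact h.DG_conj (h.mem_KG.2 hc) hy
  generalize c * y * c⁻¹ = y at e m hn
  have cl := h.DG_cls m
  have ce := h.mem_KG.1 (h.DG_sub m)
  by_cases h0 : a = 0
  · rw [h0, el_zero, ← h.mem_iff] at e
    obtain ⟨n, hn', e1⟩ := exists_vec (π y)
    have c := allP_zero Q0_chk n hn'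
    simp only [bimp_eq_true, band_eq_true, beq_iff, anyL_eq_true] at c
    obtain ⟨l, hl, c⟩ := c ⟨(vec_mem_cs hn').1 (e1 ▸ (h.gs.conj_iff e fun a => hn (a ▸ h.z_mem)).1 cl.1),
      (hh_vec_eq_zero ..).1 (e1 ▸ (h.mem_CE_iff e).1 ce)⟩
    obtain ⟨l1, b, b0, l2⟩ := (by decide : ∀ l ∈ [63, 4032, 4095], l < 4096 ∧ ∃ b : F4, b ≠ 0 ∧ vec l = b • vec 63) l hl
    have e2 := h.mul e (h.sQ (b • vec 63))
    rw [h.πs, ← e1, ← l2, ← vec_xor, l2] at e2
    have c' := (vec_mem_cs (xor_lt hn' l1)).2 c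
    refine cl.2 b b0 (map_mul i _ _ ▸ (h.gs.conj_iff (mul_mem e (h.sQ _)) fun a => ?_).2 (e2 ▸ c'))
    exact (mem_cs31.1 (mem_cs26.1 c').1).1 (by rw [← e2, a, h.z0])
  · have m1 := h.s_AA 1
    refine cl.2 1 one_ne_zero (map_mul i _ _ ▸ h.inv_z ha h0 (by rw [map_mul, e, h.mem_iff.1 (h.sQ _), mul_one])
      ?_ fun a => hn ((mul_mem_cancel_right m1).1 a))
    exact (pow_two _).symm.trans (sq_eq_one_of_commute (sq m) (h.AA_sq m1) (mem_cent_subgroup_iff.1 ce _ (h.s_EH 1)))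

theorem DG_A {y : H} (hy : i y ∈ h.DG) (ha : y ∈ h.AA) : ∃ n < 2048, dq n = true ∧ h.φ n = y := by
  obtain ⟨n, hn, e⟩ := h.exists_tw (mem_map_of_mem i ha)
  obtain rfl : h.φ n = y := h.gs.inj e
  have cl := h.DG_cls hy
  have x := fun m (hm : m < 2048) => h.z_iff (xlt hn hm)
  refine ⟨n, hn, ?_, rfl⟩
  simp only [dq, band_eq_true, bnot_eq_true, ← Bool.not_eq_true]
  refine ⟨(h.z_iff hn).1 cl.1, mt (x 7 (by norm_num)).2 ?_, mt (x 56 (by norm_num)).2 ?_⟩ <;>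
    rw [h.φ_mul hn (by norm_num), map_mul]
  · rw [h.φ_E.1]; exact cl.2 _ (by decide)
  · rw [h.φ_E.2.1]; exact cl.2 _ (by decide)

theorem bs_mem {p : ℕ} (hp : p < 20) : i (h.φ (bs p)) ∈ h.DG := by
  obtain ⟨g, hg, e, e'⟩ := (by decide +kernel : ∀ p < 20, ∃ g < 24, Nat.xor (dx 0 1) (dx 2 g) = bs p ∧
    (∀ j, ![0, 1, 2, g, if g = 4 then 5 else 4] j < 24) ∧ Function.Injective ![0, 1, 2, g, if g = 4 then 5 else 4]) p hp
  obtain ⟨m, -, hm⟩ := h.move5 (a := ![0, 1, 2, 3, 4]) (by decide) e'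
  refine ⟨m, h.mem_KG_iff.2 ⟨conj_eq_iff_commute.1 (hm 0 1), conj_eq_iff_commute.1 (hm 0 2)⟩, ?_⟩
  rw [← e, ← h.du_mul, h.z_du, ← conj_mul]
  exact congrArg₂ _ (hm 0 1) (hm 2 3)

/-- a point with given image and cocycle -/
structure IsPt (g : L2) (d : V) (y : H) : Prop where
  mem : i y ∈ h.DG
  rho : ρ y = g
  dl : dlt π x y = d
  nz : ¬ IsConj (i z) (i (y * z))

omit h in
theorem IsPt.ce {h : GX i Q z π ρ x s τ} {g : L2} {d : V} {y : H} (p : h.IsPt g d y) : y ∈ h.CE :=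
  h.mem_KG.1 (h.DG_sub p.mem)

omit h in
theorem IsPt.uniq {h : GX i Q z π ρ x s τ} {g : L2} {d : V} {y y' : H} (p : h.IsPt g d y) (p' : h.IsPt g d y') :
    y' = y :=
  (h.eq_or' (h.map_CE p.ce).1 (p'.rho.trans p.rho.symm) (p'.dl.trans p.dl.symm)).resolve_right fun e =>
    p.nz (e ▸ (h.DG_cls p'.mem).1)

omit h in
theorem IsPt.conj {h : GX i Q z π ρ x s τ} {w : V} {l : F4} {y a : H} (hw : w ∈ WS) (p : h.IsPt (TW w) (l • w) y)
    (ha : a ∈ h.CE) : h.IsPt (TW (ρ a w)) (l • ρ a w + hh (dlt π x a) (ρ a w) • ρ a w) (a * y * a⁻¹) := by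
  have k := h.map_CE ha
  have e : ρ (a * y * a⁻¹) = TW (ρ a w) := by rw [map_mul, map_mul, map_inv, p.rho, TW_conj k]
  refine ⟨by rw [map_mul, map_mul, map_inv]; exact h.DG_conj (h.mem_KG.2 ha) p.mem, e, ?_, fun c => p.nz ?_⟩
  · rw [h.dlt_conj k.1 (h.map_CE p.ce).1, e, TW_apply (WS_map k hw) (h.dlt_CE ha), p.dl, KK_lin k.1, ← add_assoc _ _ (_ • _),
      V_add_self, zero_add]
  · exact c.trans (i.map_isConj (isConj_iff.2 ⟨a, by rw [← conj_mul, h.conj_z]⟩)).symm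

theorem bs_pt {p : ℕ} (hp : p < 20) : h.IsPt (TW (vec (wp p))) (f4 (p % 4) • vec (wp p)) (h.φ (bs p)) := by
  obtain ⟨c0, c1, c2, c3, -⟩ := bs_chk p hp
  have t := tw_lt (j := 2) (by norm_num) c0
  have w := wp_chk p (by omega)
  have a : tw 2 (bs p) / 128 < 16 := by omega
  refine ⟨h.bs_mem hp, ?_, ?_, ?_⟩
  · rw [φ, en, h.ρ_e3 _ _ a]
    exact (rep_el (by omega)).eq (c1 ▸ rep_TW w.1 (wp_mem (by omega)).1)
  · have k := (el_spec (show tw 2 (bs p) / 128 < 256 by omega)).2.2.1 (by omega)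
    rw [← h.ρτ _ a] at k
    rw [φ, en, e3, mul_assoc, h.dlt_mul (h.KK_Q (h.sQ _)) (by rw [map_mul, h.ρ_zp, mul_one]; exact k),
      h.dlt_comm ((h.τx _).mul_left (h.zp_comm x _).symm), map_zero, zero_add, h.dlt_Q (h.sQ _), h.πs,
      ← vec_om (dv_lt _), ← vec_xor, c2, (sm_spec (Nat.mod_lt _ (by norm_num)) w.1).2]
  · have := h.φ_mul c0 (show 64 < 2048 by norm_num)
    rw [h.φ_z] at this
    rw [← this, h.z_iff (xlt c0 (by norm_num)), c3]
    decide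

theorem exists_pt {w : V} (hw : w ∈ WS) (l : F4) : ∃ y, h.IsPt (TW w) (l • w) y := by
  obtain ⟨g, hg, e⟩ := WS_trans hw
  obtain ⟨c, hc, cx, e'⟩ := h.lift_CE (inv_mem hg)
  obtain ⟨a, ha, rfl⟩ := (by decide : ∀ c : F4, ∃ a < 4, f4 a = c) l
  have := (h.bs_pt (show a < 20 by omega)).conj (wp_mem (by omega)) hc
  rw [show wp a = 1014 by clear * - ha; revert a; decide +kernel, ← e, e', ← LinearEquiv.mul_apply, inv_mul_cancel,
    h.dlt_comm cx, Nat.mod_eq_of_lt ha] at this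
  exact ⟨_, by simpa using this⟩

open Classical in
/-- the points -/
noncomputable def ee (p : ℕ) : H := if hp : p < 180 then (h.exists_pt (wp_mem hp) (f4 (p % 4))).choose else 1

theorem ee_pt {p : ℕ} (hp : p < 180) : h.IsPt (TW (vec (wp p))) (f4 (p % 4) • vec (wp p)) (h.ee p) := by
  rw [ee, dif_pos hp]; exact Exists.choose_spec (h.exists_pt (wp_mem hp) (f4 (p % 4)))

theorem ee_bs {p : ℕ} (hp : p < 20) : h.ee p = h.φ (bs p) := (h.bs_pt hp).uniq (h.ee_pt (by omega))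

theorem real_Q : TC.Real XQ (TC.nb h.DG (i z)) fun p => i (h.ee p) := by
  refine ⟨⟨okQ, fun g hg => h.DG_sq (h.ee_pt (okQ.pt_lt g hg)).mem, fun g hg p hp => ?_⟩,
    fun p hp => ⟨(h.ee_pt hp).mem, fun e => TW_ne (wp_mem hp) ?_, ((h.cen _).map i).symm⟩, fun p hp q hq e => ?_,
    fun d hd => ?_⟩
  · have a := okQ.pt_lt g hg
    have b := okQ.act_lt g hg p hp
    obtain ⟨⟨c, c1, c2, c3⟩, c4⟩ := act_Q g hg p hp
    have t : tq (XQ.pt g) (wp p) < 4096 := c3 ▸ (sm_spec c1 (wp_chk _ b).1).1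
    have m := fun n => Nat.mod_lt n (show 0 < 4 by norm_num)
    have := (h.ee_pt hp).conj (wp_mem hp) (h.ee_pt a).ce
    rw [(h.ee_pt a).rho, (h.ee_pt a).dl, ← tq_spec a (wp_mem hp), ← (sm_spec (m _) (wp_chk _ a).1).2, hh_vec,
      ← (sm_spec (m _) t).2, ← (sm_spec (hN_lt ..) t).2, ← vec_xor, c4, (sm_spec (m _) (wp_chk _ b).1).2, ← c3,
      (sm_spec c1 (wp_chk _ b).1).2, TW_smul (mt (f4_eq_zero c1).1 c2)] at this
    simp only [TC.Tab.gen, ← map_inv, ← map_mul]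
    exact congrArg i ((h.ee_pt b).uniq this)
  · rw [← (h.ee_pt hp).rho, h.gs.inj e, ← h.mem_iff]; exact h.es.z_mem
  · replace e := h.gs.inj e
    have e1 := (h.ee_pt hp).rho.symm.trans (e ▸ (h.ee_pt hq).rho)
    have e2 := (h.ee_pt hp).dl.symm.trans (e ▸ (h.ee_pt hq).dl)
    obtain ⟨c, -, e3⟩ := tvV_inj (cs_subset (by norm_num) (wp_mem hp).1) (cs_subset (by norm_num) (wp_mem hq).1)
      (mul_left_cancel (io_injective e1))
    obtain ⟨a, ha, rfl⟩ := (by decide : ∀ c : F4, ∃ a < 4, f4 a = c) c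
    have s1 := sm_spec ha (wp_chk q hq).1
    have e4 := (wp_chk p hp).2.2 q hq a ha (vec_inj s1.1 (wp_chk p hp).1 (s1.2.trans e3.symm))
    rw [show wp q = wp p by rw [wp, wp, e4]] at e2
    have := f4_inj _ (Nat.mod_lt _ (by norm_num)) _ (Nat.mod_lt _ (by norm_num)) (smul_left_injective _
      (mem_cs31.1 (cs_subset (by norm_num) (wp_mem hp).1)).1 e2)
    omega
  · obtain ⟨y, rfl⟩ := h.gs.range d hd.2.2.symm
    obtain ⟨a, ha, e⟩ := h.loc0 hd.1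
    obtain ⟨n, hn, e1, e2⟩ := h.DG_A (by rw [map_mul, map_mul, map_inv]; exact h.DG_conj (h.mem_KG.2 ha) hd.1) e
    have c := allP_zero (band_eq_true.1 dq_chk).2 n hn
    simp only [bimp_eq_true, bor_eq_true, beq_iff, anyR_eq_true] at c
    rcases c e1 with rfl | ⟨p, hp, rfl⟩
    · rw [h.φ_z, ← h.conj_z a, mul_left_inj, mul_right_inj] at e2
      exact (hd.2.1 (by rw [e2])).elim
    have := (h.bs_pt hp).conj (wp_mem (by omega)) (inv_mem ha)
    rw [← add_smul, e2] at this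
    obtain ⟨q, hq, e3, e4⟩ := exists_wp (WS_map (h.map_CE (inv_mem ha)) (wp_mem (show p < 180 by omega))) _
    rw [← e3, ← e4] at this
    exact ⟨q, hq, congrArg i ((this.uniq (h.ee_pt hq)).trans (by group))⟩

theorem wd_bs {l : List ℕ} (hl : ∀ p ∈ l, p < 20) :
    TC.wd (fun p => i (h.ee p)) l = i (h.φ (l.foldr (fun p n => Nat.xor (bs p) n) 0)) ∧
      l.foldr (fun p n => Nat.xor (bs p) n) 0 < 2048 := by
  induction l with
  | nil => exact ⟨Eq.symm (by simpa using congrArg i (h.φ_mul (m := 0) (n := 0) (by norm_num) (by norm_num))), by norm_num⟩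
  | cons p l ih =>
    rw [List.forall_mem_cons] at hl
    have b := (bs_chk p hl.1).1
    exact ⟨by rw [TC.wd_cons, (ih hl.2).1, List.foldr_cons, h.φ_mul b (ih hl.2).2, map_mul, h.ee_bs hl.1],
      xlt b (ih hl.2).2⟩

theorem wd_z {l : List ℕ} (hl : ∀ p ∈ l, p < 20) :
    i z * TC.wd (fun p => i (h.ee p)) l = i (h.φ (Nat.xor 64 (l.foldr (fun p n => Nat.xor (bs p) n) 0))) := by
  rw [(h.wd_bs hl).1, h.φ_mul (by norm_num) (h.wd_bs hl).2, h.φ_z, map_mul]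

theorem rq : RQ h.DG (i z) (h.du 0 1) fun p => i (h.ee p) :=
  ⟨h.real_Q, (h.wd_bs (by decide)).1.trans (congrArg i ((congrArg h.φ (by decide +kernel)).trans h.φ_z)),
    (h.wd_bs (by decide)).1.trans ((congrArg (fun n => i (h.φ n)) (by decide +kernel)).trans
      (h.wd_bs (l := []) (by decide)).1.symm),
    (h.wd_z (by decide)).trans (congrArg (fun n => i (h.φ n)) (by decide +kernel))⟩

end GX

theorem realizeEqns_U6Pt : True := by
  have := @CA.U6.GX.du.eq_1.{0,0}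
  have := @CA.U6.GX.du.eq_def.{0,0}
  have := @CA.U6.GX.du.congr_simp.{0,0}
  have := @CA.U6.GX.EG.eq_1.{0,0}
  have := @CA.U6.GX.EG.eq_def.{0,0}
  have := @CA.U6.GX.EG.congr_simp.{0,0}
  have := @CA.U6.SS.CE.eq_1.{0}
  have := @CA.U6.SS.CE.eq_def.{0}
  have := @CA.U6.SS.CE.congr_simp.{0}
  have := @CA.U6.dx.eq_1
  have := @CA.U6.dx.eq_def
  have := @CA.U6.dx.congr_simp
  have := @CA.U6.SS.EH.eq_1.{0}
  have := @CA.U6.SS.EH.eq_def.{0}
  have := @CA.U6.SS.EH.congr_simp.{0}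
  have := @CA.U6.GX.KG.eq_1.{0,0}
  have := @CA.U6.GX.KG.eq_def.{0,0}
  have := @CA.U6.GX.KG.congr_simp.{0,0}
  have := @CA.U6.GX.DG.eq_1.{0,0}
  have := @CA.U6.GX.DG.eq_def.{0,0}
  have := @CA.U6.GX.DG.congr_simp.{0,0}
  have := @CA.U6.dlt.eq_1.{0}
  have := @CA.U6.dlt.eq_def.{0}
  have := @CA.U6.dlt.congr_simp.{0}
  have := @CA.U6.GX.ee.eq_1.{0,0}
  have := @CA.U6.GX.ee.eq_def.{0,0}
  have := @CA.U6.GX.ee.congr_simp.{0,0}
  have := @CA.U6.GX.φ.eq_1.{0,0}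
  have := @CA.U6.GX.φ.eq_def.{0,0}
  have := @CA.U6.GX.φ.congr_simp.{0,0}
  trivial

end CA.U6
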