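/-
Groups of large Fischer type: the centralizer of the four-group `E`.
-/
import Cfsg.Agent.U6.Pt
import Cfsg.Agent.Cov.Glob
import Cfsg.Agent.Fi.CardU
import Cfsg.Agent.Fi3.Tow

set_option autoImplicit false

namespace CA.U6

open Cfsg Cfsg.Agent Cfsg.Agent.Unit CA.M24 Subgroup CA.FG CA.Fi

theorem cj_inv {G : Type*} [Group G] {k a b : G} (e : k * a * k⁻¹ = b) : a = k⁻¹ * b * k⁻¹⁻¹ := by rw [← e]; group

theorem cj_inj {G : Type*} [Group G] {k a b : G} (e : k * a * k⁻¹ = k * b * k⁻¹) : a = b :=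
  mul_left_cancel (mul_right_cancel e)

theorem isConj_of {G : Type*} [Group G] {k a b : G} (e : k * a * k⁻¹ = b) : IsConj a b := isConj_iff.2 ⟨k, e⟩

/-- A 2-group acting by conjugation on a set of odd size centralizes a member. -/
theorem fix_odd {G : Type*} [Group G] {P : Subgroup G} (hP : IsPGroup 2 P) {S : Set G} (hS : ¬ 2 ∣ S.ncard)
    (hc : ∀ g ∈ P, ∀ x ∈ S, g * x * g⁻¹ ∈ S) : ∃ a ∈ S, ∀ g ∈ P, Commute a g := by
  let _ : MulAction P S :=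
    { smul := fun n x => ⟨n * x * (n : G)⁻¹, hc n n.2 x x.2⟩
      one_smul := fun x => Subtype.ext (by show (1 : G) * x * 1⁻¹ = x; simp)
      mul_smul := fun n m x => Subtype.ext (by
        show (n * m : G) * x * (n * m : G)⁻¹ = n * (m * x * (m : G)⁻¹) * (n : G)⁻¹; group) }
  obtain ⟨a, ha⟩ := hP.nonempty_fixed_point_of_prime_not_dvd_card S hS
  exact ⟨a, a.2, fun g hg => (conj_eq_iff_commute.1 (congrArg Subtype.val (ha ⟨g, hg⟩))).symm⟩

namespace GX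

variable {H G : Type*} [Group H] [Group G] [Finite G] {i : H →* G} {Q : Subgroup H} {z : H} {π : H → V} {ρ : H →* L2}
  {x : H} {s : V → H} {τ : ℕ → H} (h : GX i Q z π ρ x s τ)
include h

theorem loc {y : G} (hy : y ∈ h.DG) : ∃ e, RQ h.DG y (h.du 0 1) e := by
  obtain ⟨k, hk, rfl⟩ := hy
  exact ⟨_, h.rq.cjg (fun _ hg _ => h.DG_conj hg) (fun _ hg => (h.mem_KG_iff.1 hg).1) hk⟩

theorem three_base {a b c : G} (ha : a ∈ h.DG) (hb : b ∈ h.DG) (hc : c ∈ h.DG) (ab : Commute a b) (ac : Commute a c)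
    (bc : Commute b c) (n1 : a ≠ b) (n2 : a ≠ c) : ∃ k ∈ h.KG, ∃ p < 20, ∃ q < 20, k * a * k⁻¹ = i z ∧
      k * b * k⁻¹ = i (h.φ (bs p)) ∧ k * c * k⁻¹ = i (h.φ (bs q)) := by
  have r := h.real_Q
  have nb : ∀ k ∈ h.KG, k * a * k⁻¹ = i z → ∀ b ∈ h.DG, Commute a b → a ≠ b → ∃ p < 180, i (h.ee p) = k * b * k⁻¹ :=
    fun k hk e b hb ab n => r.surj _ ⟨h.DG_conj hk hb, fun e' => n (by simpa using e.trans e'.symm),
      e ▸ commute_cj.2 ab⟩
  have mv : ∀ k ∈ h.KG, k * a * k⁻¹ = i z → ∀ w, XQ.Val w → ∃ k' ∈ h.KG, k' * a * k'⁻¹ = i z ∧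
      ∀ p < 180, ∀ b, i (h.ee (XQ.actw w p)) = k * b * k⁻¹ → i (h.ee p) = k' * b * k'⁻¹ := fun k hk e w hw => by
    have m := r.wd_mem_closure hw
    refine ⟨_, mul_mem (inv_mem ((closure_le _).2 (fun x hx => h.DG_sub hx.1) m)) hk, ?_, fun p hp b e' => ?_⟩
    · have := (closure_le (centralizer {i z})).2 (fun x hx => mem_cent_iff.2 hx.2.2.symm) m
      rw [← conj_eq_iff_commute.2 (mem_cent_iff.1 (inv_mem this)), ← e]; group
    · rw [cj_inv ((r.toQReal.wd_conj hw hp).trans e')]; group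
  obtain ⟨k, hk, e⟩ := ha
  have e0 := (cj_inv e).symm
  obtain ⟨p, hp, e1⟩ := nb _ (inv_mem hk) e0 b hb ab n1
  obtain ⟨w, hw, rfl⟩ := transQ p hp
  obtain ⟨k, hk, e0, e2⟩ := mv _ (inv_mem hk) e0 w hw
  replace e1 := e2 0 (by norm_num) b e1
  obtain ⟨q, hq, e3⟩ := nb k hk e0 c hc ac n2
  obtain ⟨w, hw, a0, t, ht, rfl⟩ := (by decide +kernel : ∀ q < 180, XQ.op 0 q = q → ∃ w ∈ [[], [3], [2, 3]],
    XQ.actw w 0 = 0 ∧ ∃ t < 20, XQ.actw w t = q) q hq ((r.commute_iff (by decide) hq).1 (by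
      simp only [e1, e3]; exact commute_cj.2 bc))
  obtain ⟨k, hk, e0, e2⟩ := mv k hk e0 w ((by decide : ∀ w ∈ [[], [3], [2, 3]], XQ.Val w) w hw)
  exact ⟨k, hk, 0, by norm_num, t, ht, e0, by rw [← h.ee_bs (by norm_num), e2 0 (by norm_num) b (a0.symm ▸ e1)],
    by rw [← h.ee_bs ht, e2 t (by omega) c e3]⟩

theorem DA_iff {n : ℕ} (hn : n < 2048) : i (h.φ n) ∈ h.DG ↔ dq n = true := by
  refine ⟨fun a => ?_, fun a => ?_⟩
  · obtain ⟨m, hm, e1, e2⟩ := h.DG_A a (h.φ_mem hn)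
    have := congrArg (tw 2) (h.en_inj (tw_lt (by norm_num) hm) (tw_lt (by norm_num) hn) e2)
    rw [(tw_spec (by norm_num) hm).2.2.1, (tw_spec (by norm_num) hn).2.2.1] at this
    exact this ▸ e1
  · have c := allP_zero (band_eq_true.1 dq_chk).2 n hn
    simp only [bimp_eq_true, bor_eq_true, beq_iff, anyR_eq_true] at c
    rcases c a with rfl | ⟨p, hp, rfl⟩
    · rw [h.φ_z]; exact h.z_DG
    · exact h.bs_mem hp

theorem ncard_DA : {y | y ∈ h.DG ∧ y ∈ h.A}.ncard = 21 := by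
  rw [h.ncard_A (f := tw 2) (fun _ a => a.2) (fun n hn => ⟨tw_lt (by norm_num) hn, (tw_spec (by norm_num) hn).2.2.1⟩) dq
    fun n hn => (and_iff_left (mem_map_of_mem i (h.φ_mem hn))).trans (h.DA_iff hn)]
  have := (band_eq_true.1 dq_chk).1
  rwa [beq_iff] at this

theorem fix2 {P : Subgroup G} (hP : IsPGroup 2 P) (hK : P ≤ h.KG) : ∃ a ∈ h.DG, ∀ u ∈ P, Commute a u := by
  obtain ⟨S, hS, hA⟩ := sylow_superset Nat.prime_two (pGrp_of_card_eq_pow Nat.prime_two h.card_A) h.A_le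
  obtain ⟨k, hk, e⟩ := sylow_Jsub Nat.prime_two hS (pGrp_of_isPGroup Nat.prime_two hP) hK
  obtain ⟨a, ha, c⟩ := fix_odd (hS.pGrp.isPGroup Nat.prime_two) (S := {y | y ∈ h.DG ∧ y ∈ h.A})
    (by rw [h.ncard_DA]; decide) fun g hg y hy => ⟨h.DG_conj (hS.le hg) hy.1,
      h.wc S g hS.pGrp hA (by rintro _ ⟨a, ha, rfl⟩; exact mul_mem (mul_mem hg (hA ha)) (inv_mem hg)) ▸
        conj_mem_conjg g hy.2⟩
  exact ⟨_, h.DG_conj (inv_mem hk) ha.1, fun u hu =>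
    cj_inv (rfl : k * u * k⁻¹ = _) ▸ commute_cj.2 (c _ (e (conj_mem_conjg k hu)))⟩

theorem du_comm (p q r t : ℕ) : Commute (h.du p q) (h.du r t) :=
  (h.AA_comm (h.φ_mem (dx_lt ..)) (h.φ_mem (dx_lt ..))).map i

theorem pu0 {g : G} (c1 : Commute g (h.du 0 1)) (c2 : Commute g (h.du 2 3)) (c3 : Commute g (h.du 0 4)) :
    g * (h.du 0 4 * h.du 1 2) * g⁻¹ = h.du 0 4 * h.du 1 2 ∨ g * (h.du 0 4 * h.du 1 2) * g⁻¹ = h.du 0 4 * h.du 1 3 := by
  obtain ⟨c, rfl⟩ := h.gs.range g (h.z_du ▸ c1.mul_right c2)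
  have e1 : h.φ (dx 0 1) = s (vec 63) := by rw [dx_val.1, h.φ_E.1, one_smul]
  have f := h.fix_of_comm (h.sQ _) (e1 ▸ h.gs.comm_iff.1 c1)
  rw [h.πs] at f
  have cl : IsConj (i z) (i c * (h.du 0 4 * h.du 1 2) * (i c)⁻¹) :=
    ((h.du_mul .. ▸ h.z_iff (xlt (dx_lt ..) (dx_lt ..))).2 (by decide +kernel)).trans (isConj_of rfl)
  rw [← conj_mul, conj_eq_iff_commute.2 c3] at cl ⊢
  have q := h.sQ ((om4 * om4) • vec 63)
  have e2 : i c * h.du 1 2 * (i c)⁻¹ = i (c * s ((om4 * om4) • vec 63) * c⁻¹) := by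
    rw [du, dx_val.2.2.1, h.φ_E.2.2, map_mul, map_mul, map_inv]
  have e3 := h.act c q
  rw [h.πs, show ρ c ((om4 * om4) • vec 63) = ρ c (om4 • vec 63) + vec 63 by rw [mul_smul, om_add, map_add, f]] at e3
  have key : ∀ n < 64, π (c * s ((om4 * om4) • vec 63) * c⁻¹) = vec (dv n) →
      i c * h.du 1 2 * (i c)⁻¹ = i (h.φ n) ∨ i c * h.du 1 2 * (i c)⁻¹ = i (h.φ (Nat.xor n 64)) := fun n hn e => by
    rw [e2, h.φ_mul (by omega) (by norm_num), h.φ_z, h.φ_Q (by omega), Nat.mod_eq_of_lt hn, bt_of_lt (k := 6) hn le_rfl,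
      zp_zero, mul_one]
    exact ((h.eq_iff (h.sQ _) (h.conj_mem c q)).1 (by rw [h.πs, e])).imp (congrArg i) (congrArg i)
  have no : ∀ n < 2048, zc (Nat.xor (dx 0 4) n) = false → i c * h.du 1 2 * (i c)⁻¹ ≠ i (h.φ n) := fun n hn a e => by
    rw [e, du, ← map_mul, ← h.φ_mul (dx_lt ..) hn, h.z_iff (xlt (dx_lt ..) hn), a] at cl
    cases cl
  rcases h.lin_or c with a | a <;> rw [a, f] at e3
  · exact .inl (by rw [(key 63 (by norm_num) (e3.trans (by decide))).resolve_right (no _ (by decide) (by decide +kernel)),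
      ← dx_val.2.2.1]; rfl)
  · exact .inr (by rw [(key 56 (by norm_num) (e3.trans (by decide))).resolve_left (no _ (by decide) (by decide +kernel)),
      show Nat.xor 56 64 = dx 1 3 by decide +kernel]; rfl)

theorem bs_du {p : ℕ} (hp : p < 20) : ∃ g < 24, 4 ≤ g ∧ i (h.φ (bs p)) = h.du 0 1 * h.du 2 g := by
  obtain ⟨g, hg, a, e⟩ := (by decide +kernel : ∀ p < 20, ∃ g < 24, 4 ≤ g ∧ Nat.xor (dx 0 1) (dx 2 g) = bs p) p hp
  exact ⟨g, hg, a, by rw [h.du_mul, e]⟩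

theorem z_bs {p : ℕ} (hp : p < 20) : ¬ IsConj (i z) (i z * i (h.φ (bs p))) := by
  rw [← ((h.cen _).map i).eq, ← map_mul]; exact (h.bs_pt hp).nz

theorem l3 : L3 h.KG h.DG := by
  have o : ∀ y ∈ h.DG, orderOf y = 2 := fun y hy => orderOf_two_of (h.DG_sq hy) fun e =>
    h.es.z_ne (h.gs.inj (by simpa [e] using (h.DG_cls hy).1))
  refine ⟨fun _ => h.DG_sub, fun _ hg _ => h.DG_conj hg, fun k hk => ⟨fun y hy => o y hy.1, fun a ha b hb => ?_⟩,
    fun a ha b hb c n g hg cg => ?_, fun a ha b hb c n u hu u2 e => ?_, fun a ha b hb c n d hd e => ?_,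
    fun a ha b hb w hw c1 c2 c3 n1 n2 n3 => ?_, fun a ha => ?_⟩
  · obtain ⟨e, r⟩ := h.loc hk
    have s2 := fun c => Or.inl (b := (a * b) ^ 3 = 1) (sq_eq_one_of_commute (h.DG_sq ha.1) (h.DG_sq hb.1) c)
    by_cases e1 : a = k
    · exact s2 (e1 ▸ hb.2)
    by_cases e2 : b = k
    · exact s2 (e2 ▸ ha.2.symm)
    exact (Cov.tt_of_real r.toReal transQ (by decide) kQ_3).2 a ⟨ha.1, e1, ha.2⟩ b ⟨hb.1, e2, hb.2⟩
  · obtain ⟨k, hk, p, hp, -, -, e1, e2, -⟩ := h.three_base ha hb hb c c (Commute.refl b) n n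
    obtain ⟨r, r1, r2, e3⟩ := h.bs_du hp
    obtain ⟨m, -, hm⟩ := h.move5 (a := ![0, 1, 3, r, 2]) (b := ![0, 1, 2, 3, 4])
      (by clear * - r1 r2; revert r; decide +kernel) (by decide)
    have c' := h.mem_KG_iff.1 (mul_mem (mul_mem hk hg) (inv_mem hk))
    have e4 : k * (a * b) * k⁻¹ = h.du 3 r := by
      rw [← conj_mul, e1, e2, e3, h.z_du, h.du_mul, h.du_mul, ← map_mul, ← h.φ_mul (xlt (dx_lt ..) (dx_lt ..))
        (xlt (dx_lt ..) (dx_lt ..)), du]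
      congr 2; clear * - r1; revert r; decide +kernel
    have e5 : m * (k * a * k⁻¹) * m⁻¹ = h.du 0 4 * h.du 1 2 := by
      rw [e1, show i z = h.du 0 2 * h.du 1 3 by rw [h.z_du, h.du_mul, h.du_mul]; congr 2, ← conj_mul]
      exact congrArg₂ _ (hm 0 4) (hm 1 2)
    have e6 : m * (k * b * k⁻¹) * m⁻¹ = h.du 0 4 * h.du 1 3 := by
      rw [e2, e3, show h.du 0 1 * h.du 2 r = h.du 0 2 * h.du 1 r by
        rw [h.du_mul, h.du_mul]; congr 2; clear * - r1; revert r; decide +kernel, ← conj_mul]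
      exact congrArg₂ _ (hm 0 4) (hm 1 3)
    have := h.pu0 (g := m * (k * g * k⁻¹) * m⁻¹) ((hm 0 1 : _ = h.du 0 1) ▸ commute_cj.2 c'.1)
      ((hm 2 3 : _ = h.du 2 3) ▸ commute_cj.2 (e4 ▸ commute_cj.2 cg)) ((hm 0 4 : _ = h.du 0 4) ▸ commute_cj.2 c'.2)
    rw [← e6, ← e5] at this
    rw [conj_inv, conj_inv, conj_mul, conj_mul, conj_mul, conj_mul] at this
    exact this.imp (fun e => cj_inj (cj_inj e)) fun e => cj_inj (cj_inj e)
  · obtain ⟨P, hP, h1, h2, -⟩ := Cov.pg3 u2 (h.DG_sq ha) (h.DG_sq hb) c (by rw [e]; exact mem_sup_right (mem_zpowers b))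
      (by rw [← e, show u * (u * a * u⁻¹) * u⁻¹ = u * u * a * (u * u)⁻¹ by group, u2, one_mul, inv_one, mul_one]
          exact mem_sup_left (mem_zpowers a))
    obtain ⟨d, hd, e⟩ := h.fix2 (hP.to_inf_left (K := h.KG)) inf_le_right
    exact ⟨d, hd, e a ⟨h2, h.DG_sub ha⟩, e u ⟨h1, hu⟩⟩
  · obtain ⟨k, hk, p, hp, -, -, e1, e2, -⟩ := h.three_base ha hb hb c c (Commute.refl b) n n
    exact h.z_bs hp (((h.DG_cls hd).1.trans e).trans (isConj_of (by rw [← conj_mul, e1, e2])))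
  · obtain ⟨k, hk, p, hp, q, hq, e1, e2, e3⟩ := h.three_base ha hb hw c1 c2 c3 n1 n2
    obtain ⟨c0, -, -, -, -, c⟩ := bs_chk p hp
    obtain ⟨r, hr, c⟩ := c q hq fun e => n3 (cj_inj (e2.trans (e ▸ e3.symm)))
    have l := fun p hp => (bs_chk p hp).1
    have cm : ∀ y ∈ h.AA, ∀ a, k * a * k⁻¹ = i y → Commute (k⁻¹ * i (h.φ (bs r)) * k⁻¹⁻¹) a := fun y hy a e =>
      cj_inv e ▸ commute_cj.2 ((h.AA_comm (h.φ_mem (l r hr)) hy).map i)
    refine ⟨_, h.DG_conj (inv_mem hk) (h.bs_mem hr), cm _ h.z_mem _ e1, cm _ (h.φ_mem c0) _ e2,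
      cm _ (h.φ_mem (l q hq)) _ e3, fun e => h.z_bs hp ?_⟩
    have := (h.z_iff (xlt (xlt (xlt (by norm_num) c0) (l q hq)) (l r hr))).2 c
    rw [h.φ_mul (xlt (xlt (by norm_num) c0) (l q hq)) (l r hr), h.φ_mul (xlt (by norm_num) c0) (l q hq),
      h.φ_mul (by norm_num) c0, h.φ_z, map_mul, map_mul, map_mul] at this
    exact (this.trans ((isConj_of (k := k) (by rw [← e1, ← e2, ← e3]; group)).symm.trans e.symm)).trans
      (isConj_of (by rw [← conj_mul, e1, e2]))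
  · obtain ⟨e, r⟩ := h.loc ha
    have := r.mem 0 (by decide)
    exact ⟨_, this.1, this.2.2, this.2.1.symm⟩

theorem realV : IsThreeTranspositionSet h.DG ∧ ∃ f, TC.Real XV h.DG f :=
  h.l3.realV (fun _ hg => (h.mem_KG_iff.1 hg).1) (fun _ => h.loc) h.z_DG

omit [Finite G] in
theorem card_EG : Nat.card h.EG = 4 := by rw [card_map_of_injective h.gs.inj, h.card_EH]

theorem card_KG : Nat.card h.KG = 4 * 9196830720 := by
  obtain ⟨-, f, r⟩ := h.realV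
  have := ncard_conj_mul h.KG (i z)
  rw [show h.KG ⊓ centralizer {i z} = h.CE.map i from le_antisymm (fun g hg => by
      obtain ⟨c, rfl⟩ := h.gs.range g (mem_cent_iff.1 hg.2)
      exact mem_map_of_mem i (h.mem_KG.1 hg.1)) (by
      rintro _ ⟨c, hc, rfl⟩
      exact ⟨h.mem_KG.2 hc, mem_cent_iff.2 ((h.cen c).map i)⟩), card_map_of_injective h.gs.inj, h.card_CE] at this
  have c : {y | ∃ c ∈ h.KG, c * i z * c⁻¹ = y}.ncard = 693 := r.ncard
  rw [← this, c]; norm_num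

theorem EG_le : h.EG ≤ closure h.DG := by
  have k : ∀ l, (∀ p ∈ l, p < 20) → i z * TC.wd (fun p => i (h.ee p)) l ∈ closure h.DG := fun l hl =>
    mul_mem (subset_closure h.z_DG) (TC.wd_mem fun p hp => subset_closure (h.ee_pt (by have := hl p hp; omega)).mem)
  have a := k [1, 13, 7, 8, 16] (by decide)
  have b := k [0, 4, 9, 14, 18] (by decide)
  rw [h.wd_z (by decide), show Nat.xor _ _ = 7 by decide +kernel, h.φ_E.1] at a
  rw [h.wd_z (by decide), show Nat.xor _ _ = 56 by decide +kernel, h.φ_E.2.1] at b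
  rintro _ ⟨_, ⟨_, ⟨c, rfl⟩, rfl⟩, rfl⟩
  rcases F4_cases c with rfl | rfl | rfl | rfl
  · rw [zero_smul, h.zero, map_one]; exact one_mem _
  · exact a
  · exact b
  · rw [← h.φ_E.2.2, show 63 = Nat.xor 7 56 from rfl, h.φ_mul (by norm_num) (by norm_num), map_mul, h.φ_E.1, h.φ_E.2.1]
    exact mul_mem a b

theorem KG_spec : closure h.DG = h.KG ∧ center h.KG = h.EG.subgroupOf h.KG ∧ Group.IsPerfect h.KG ∧
    Nonempty (h.KG ⧸ center h.KG ≃* PSU 6 F4 2) := by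
  obtain ⟨-, f, r⟩ := h.realV
  obtain ⟨e, -⟩ := (realU_of_V r).isoZ rfl real_F4 TC.closure_F4.symm
  replace e := e.trans ((QuotientGroup.quotientMulEquivOfEq (TC.center_eq_bot_of_equiv topEquiv TC.center_F4)).trans
    (QuotientGroup.quotientBot.trans topEquiv))
  have l : closure h.DG ≤ h.KG := (closure_le _).2 fun _ => h.DG_sub
  have c := card_eq_card_quotient_mul_card_subgroup (center (closure h.DG))
  rw [Nat.card_congr e.toEquiv, TC.card_PSU62 card_F4] at c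
  have l1 : h.EG.subgroupOf (closure h.DG) ≤ center _ := fun y hy => mem_center_iff.2 fun g =>
    Subtype.ext (mem_cent_subgroup_iff.1 (l g.2) _ hy)
  have c1 := Nat.card_congr (subgroupOfEquivOfLe h.EG_le).toEquiv
  have c2 := card_le_of_le l1
  have c3 := card_le_of_le l
  rw [h.card_EG] at c1
  rw [h.card_KG] at c3
  have e1 := eq_of_le_of_card_ge l (by rw [h.card_KG]; omega)
  have e2 := eq_of_le_of_card_ge l1 (by omega)
  obtain ⟨t, ht⟩ := Classical.axiomOfChoice fun p : Fin 180 => r.surj _ (h.ee_pt p.2).mem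
  have p := Fi3.perfect_of_odd r transV (s := [t 0, t 4, t 8, t 12, t 16]) (by simp [ht]) (by simp)
    (by simpa [ht] using h.rq.lin)
  rw [← e1]
  exact ⟨rfl, e2.symm, p, ⟨e⟩⟩

end GX

theorem exists_GX' {G : Type*} [Group G] [Finite G] {z : G} {Q : Subgroup (centralizer ({z} : Set G))} [Q.Normal]
    (hF : IsOfLargeFischerTypeAt z Q) : ∃ π ρ x s τ,
      GX (centralizer ({z} : Set G)).subtype Q ⟨z, mem_cent_iff.2 (Commute.refl z)⟩ π ρ x s τ := by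
  obtain ⟨π, ρ, h⟩ := exists_GS hF
  obtain ⟨x, h1, h2⟩ := h.exists_x
  obtain ⟨s, τ, h3⟩ := h.exists_GX h1 h2
  exact ⟨π, ρ, x, s, τ, h3⟩

end CA.U6
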