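/-
Groups of large Fischer type: the centralizer of a non-central involution.
-/
import Cfsg.Agent.U6.Glb
import Cfsg.Agent.M24.Classes
import Cfsg.Agent.Fi.Thompson
import Cfsg.Agent.Cov.G22
import Cfsg.Agent.Loc.PresFi22
import Cfsg.Agent.Fi3.Chain
import Cfsg.Agent.FG.CompLayer

set_option autoImplicit false

namespace CA.U6

open Cfsg Cfsg.Agent Cfsg.Agent.Unit CA.M24 Subgroup CA.FG CA.Fi Equiv CA.FG.Comp
open scoped Pointwise symmDiff

/-- Thompson transfer for an element whose square acts trivially. -/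
theorem transfer' {G : Type*} [Group G] [Finite G] {H : Subgroup G} (hm : ¬ 4 ∣ H.index) (hH : 2 ∣ H.index) {e : G}
    (he : ∀ g, g⁻¹ * (e * e) * g ∈ H) (hf : ∀ g : G, g⁻¹ * e * g ∉ H) : ∃ K : Subgroup G, K.index = 2 := by
  classical
  haveI := Fintype.ofFinite (G ⧸ H)
  obtain ⟨m, hH⟩ := hH
  refine ⟨(Perm.sign.comp (MulAction.toPermHom G (G ⧸ H))).ker, ?_⟩
  have : (Perm.sign.comp (MulAction.toPermHom G (G ⧸ H))) e = -1 := by
    rw [MonoidHom.comp_apply, Perm.sign_of_pow_two_eq_one (by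
      rw [← map_pow, pow_two]
      exact Perm.ext fun c => by
        obtain ⟨g, rfl⟩ := QuotientGroup.mk_surjective c
        exact (smul_coset_eq_iff _ g).2 (he g))]
    have : Fintype.card (Function.fixedPoints (MulAction.toPermHom G (G ⧸ H) e)) = 0 := by
      rw [Fintype.card_eq_zero_iff]
      refine ⟨fun ⟨c, hc⟩ => ?_⟩
      obtain ⟨g, rfl⟩ := QuotientGroup.mk_surjective c
      exact hf g ((smul_coset_eq_iff e g).1 hc)
    rw [this, ← Nat.card_eq_fintype_card, ← index, hH, Nat.sub_zero, Nat.mul_div_cancel_left _ two_pos,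
      (Nat.odd_iff.2 (by omega)).neg_one_pow]
  rw [index_ker, MonoidHom.range_eq_top.2 fun u => (Int.units_eq_one_or u).elim (fun e => ⟨1, by rw [e, map_one]⟩)
    fun e => ⟨_, this.trans e.symm⟩, card_top, Nat.card_eq_fintype_card, Fintype.card_units_int]

theorem m24_four {a b c d a' b' c' d' : Pt} (h : [a, b, c, d].Nodup) (h' : [a', b', c', d'].Nodup) :
    ∃ σ ∈ M24, σ a = a' ∧ σ b = b' ∧ σ c = c' ∧ σ d = d' := by
  simp only [List.nodup_cons, List.mem_cons, not_or, List.not_mem_nil] at h h'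
  obtain ⟨w, hw, -, e⟩ := w4_spec h.1.1 h.1.2.1 h.2.1.1 h.1.2.2.1 h.2.1.2.1 h.2.2.1.1
  obtain ⟨v, hv, -, e'⟩ := w4_spec h'.1.1 h'.1.2.1 h'.2.1.1 h'.1.2.2.1 h'.2.1.2.1 h'.2.2.1.1
  refine ⟨v⁻¹ * w, mul_mem (inv_mem hv) hw, ?_⟩
  simp only [Perm.mul_apply, Perm.inv_eq_iff_eq, e, e', and_self]

theorem m24_three {a b c a' b' c' : Pt} (h : [a, b, c].Nodup) (h' : [a', b', c'].Nodup) :
    ∃ σ ∈ M24, σ a = a' ∧ σ b = b' ∧ σ c = c' := by
  simp only [List.nodup_cons, List.mem_cons, not_or, List.not_mem_nil] at h h'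
  obtain ⟨w, hw, -, e⟩ := w3_spec h.1.1 h.1.2.1 h.2.1.1
  obtain ⟨v, hv, -, e'⟩ := w3_spec h'.1.1 h'.1.2.1 h'.2.1.1
  refine ⟨v⁻¹ * w, mul_mem (inv_mem hv) hw, ?_⟩
  simp only [Perm.mul_apply, Perm.inv_eq_iff_eq, e, e', and_self]

theorem even_pair (a b : Pt) : Even (({a} : Finset Pt) ∆ {b}).card := by
  have := card_symmDiff_add {a} {b}
  rw [Finset.card_singleton, Finset.card_singleton] at this
  exact Nat.even_iff.2 (by omega)

theorem nosq_chk : allR (fun a => force (tc a) fun c => allP (fun u => bimp (Nat.beq (hN u 63) 0)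
    (bne' (Nat.xor u (app c u)) 63)) 12 0) 16 = true := by decide +kernel

theorem equiv_of_ker {A B C : Type*} [Group A] [Group B] [Group C] {f : A →* B} {g : A →* C} (hf : Function.Surjective f)
    (hg : Function.Surjective g) (e : f.ker = g.ker) : Nonempty (B ≃* C) :=
  ⟨(QuotientGroup.quotientKerEquivOfSurjective f hf).symm.trans ((QuotientGroup.quotientMulEquivOfEq e).trans
    (QuotientGroup.quotientKerEquivOfSurjective g hg))⟩

theorem qs_of_ext {A B : Type*} [Group A] [Group B] {p : A →* B} (hp : Function.Surjective p) (h1 : p.ker ≤ center A)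
    (h2 : p.ker ≤ commutator A) [IsSimpleGroup B] (hZ : center B = ⊥) : IsQuasisimple A ∧ center A = p.ker := by
  have e : center A = p.ker := le_antisymm (fun y hy => mem_bot.1 (hZ ▸ mem_center_iff.2 fun b => by
    obtain ⟨a, rfl⟩ := hp b
    rw [← map_mul, mem_center_iff.1 hy, map_mul])) h1
  have := (qs_of_simple inferInstance fun c => (bot_ne_top (α := Subgroup B))
    (hZ.symm.trans (center_eq_top_iff.2 c))).1
  refine ⟨⟨⟨?_⟩, ((QuotientGroup.quotientMulEquivOfEq e).trans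
    (QuotientGroup.quotientKerEquivOfSurjective p hp)).isSimpleGroup⟩, e⟩
  rw [← comap_map_eq_self h2, map_commutator_eq, MonoidHom.range_eq_top.2 hp, ← commutator_def, this.1, comap_top]

namespace GX

variable {H G : Type*} [Group H] [Group G] [Finite G] {i : H →* G} {Q : Subgroup H} {z : H} {π : H → V} {ρ : H →* L2}
  {x : H} {s : V → H} {τ : ℕ → H} (h : GX i Q z π ρ x s τ)
include h

/-- the duads -/
def dd (a b : Pt) : G := h.ψ ({a} ∆ {b})

omit [Finite G] in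
theorem du_dd {p q : ℕ} (hp : p < 24) (hq : q < 24) : h.du p q = h.dd (pt p) (pt q) := by
  rw [dd, ψ, mask_symmDiff, mask_singleton, mask_singleton, idx_pt hp, idx_pt hq]; rfl

theorem dd_mul (a b c : Pt) : h.dd a b * h.dd a c = h.dd b c := by
  rw [dd, dd, ← h.todd.mul, symmDiff_symmDiff_symmDiff_comm, symmDiff_self, bot_symmDiff]; rfl

omit [Finite G] in
theorem dd_symm (a b : Pt) : h.dd a b = h.dd b a := by rw [dd, symmDiff_comm]; rfl

theorem dd_comm (a b c d : Pt) : Commute (h.dd a b) (h.dd c d) := h.todd.comm ..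

theorem dd_sq (a b : Pt) : h.dd a b * h.dd a b = 1 := h.todd.sq _

theorem dd_self (a : Pt) : h.dd a a = 1 := by rw [dd, symmDiff_self]; exact h.todd.empty

omit [Finite G] in
theorem dd_mem (a b : Pt) : h.dd a b ∈ h.A := h.ψ_mem _

theorem dd_cls {a b : Pt} (n : a ≠ b) : h.dd a b ≠ 1 ∧ ¬ IsConj (i z) (h.dd a b) :=
  (h.duad_iff.2 ⟨_, Finset.card_pair n, by rw [dd, pair_eq n]⟩).2

theorem dd_inj {a b c d : Pt} (n : a ≠ b) (e : h.dd c d = h.dd a b) : c = a ∧ d = b ∨ c = b ∧ d = a := by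
  have n' : c ≠ d := fun e' => (h.dd_cls n).1 (by rw [← e, e', h.dd_self])
  rw [dd, dd, pair_eq n, pair_eq n'] at e
  have := h.todd.inj (by rw [Finset.card_pair n, Finset.card_pair n']; decide)
    (by rw [Finset.card_pair n, Finset.card_pair n']; decide) e
  exact Set.pair_eq_pair_iff.1 (by simpa using congrArg (fun T : Finset Pt => (T : Set Pt)) this)

/-- `m` normalizes `A` and induces `σ`. -/
structure TH (m : G) (σ : Perm Pt) : Prop where
  nrm : m ∈ normalizer (h.A : Set G)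
  mem : σ ∈ M24
  act : ∀ T : Finset Pt, Even T.card → m * h.ψ T * m⁻¹ = h.ψ (σ • T)

theorem exists_TH {m : G} (hm : m ∈ normalizer (h.A : Set G)) : ∃ σ, h.TH m σ := by
  obtain ⟨θ, -, -, h3⟩ := h.exists_θ
  exact ⟨_, hm, (θ ⟨m, hm⟩).2, h3 ⟨m, hm⟩⟩

theorem TH_surj {σ : Perm Pt} (hσ : σ ∈ M24) : ∃ m, h.TH m σ := by
  obtain ⟨θ, h1, -, h3⟩ := h.exists_θ
  obtain ⟨m, e⟩ := h1 ⟨σ, hσ⟩
  exact ⟨m, m.2, hσ, fun T hT => by rw [h3 m T hT, e]⟩

theorem TH_one {m : G} : h.TH m 1 ↔ m ∈ h.A :=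
  ⟨fun a => h.mem_A fun b hb => by
    obtain ⟨T, hT, rfl⟩ := (h.mem_A_iff b).1 hb
    exact conj_eq_iff_commute.1 (by rw [a.act T hT, one_smul]),
  fun a => ⟨le_normalizer a, one_mem _, fun T _ => by
    rw [one_smul, conj_eq_iff_commute]
    exact commute_of_sq (h.A_sq _ a) (h.todd.sq T) (h.A_sq _ (mul_mem a (h.ψ_mem T)))⟩⟩

section
variable {h} {m n : G} {σ σ' : Perm Pt}

omit [Finite G] in
theorem TH.dd (a : h.TH m σ) (p q : Pt) : m * h.dd p q * m⁻¹ = h.dd (σ p) (σ q) := by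
  rw [GX.dd, a.act _ (even_pair p q), Finset.smul_finset_symmDiff, Finset.smul_finset_singleton,
    Finset.smul_finset_singleton]; rfl

omit [Finite G] in
theorem TH.mul (a : h.TH m σ) (b : h.TH n σ') : h.TH (m * n) (σ * σ') :=
  ⟨mul_mem a.nrm b.nrm, mul_mem a.mem b.mem, fun T hT => by
    rw [mul_smul, ← a.act _ (by rwa [Finset.card_smul_finset]), ← b.act T hT]; group⟩

omit [Finite G] in
theorem TH.inv (a : h.TH m σ) : h.TH m⁻¹ σ⁻¹ :=
  ⟨inv_mem a.nrm, inv_mem a.mem, fun T hT => (cj_inv (by rw [a.act _ (by rwa [Finset.card_smul_finset]), smul_inv_smul])).symm⟩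

theorem TH.uniq (a : h.TH m σ) (b : h.TH m σ') : σ = σ' :=
  h.todd.perm_ext fun T hT => (a.act T (by rw [hT]; decide)).symm.trans (b.act T (by rw [hT]; decide))

theorem TH.comm (a : h.TH m σ) {p q : Pt} (n : p ≠ q) :
    Commute m (h.dd p q) ↔ σ p = p ∧ σ q = q ∨ σ p = q ∧ σ q = p := by
  rw [← conj_eq_iff_commute, a.dd]
  exact ⟨h.dd_inj n, by rintro (⟨e, e'⟩ | ⟨e, e'⟩) <;> rw [e, e']; exact h.dd_symm ..⟩

end

/-- the involution `t` -/
abbrev t1 : G := h.dd (pt 0) (pt 1)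

/-- the involution `t'` -/
abbrev t2 : G := h.dd (pt 0) (pt 2)

theorem mem_KG' {g : G} : g ∈ h.KG ↔ Commute g h.t1 ∧ Commute g h.t2 := by
  rw [h.mem_KG_iff, h.du_dd (by norm_num) (by norm_num), h.du_dd (by norm_num) (by norm_num)]

omit [Finite G] in
theorem t1_eq : h.t1 = i (s (vec 63)) := by
  rw [t1, ← h.du_dd (by norm_num) (by norm_num), du, dx_val.1, h.φ_E.1, one_smul]

theorem mem_EG {g : G} : g ∈ h.EG ↔ (g = 1 ∨ g = h.t1) ∨ g = h.t2 ∨ g = h.t1 * h.t2 := by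
  have e1 : h.t1 = i (s ((1 : F4) • vec 63)) := by rw [h.t1_eq, one_smul]
  have e2 : h.t2 = i (s (om4 • vec 63)) := by rw [t2, ← h.du_dd (by norm_num) (by norm_num), du, dx_val.2.1, h.φ_E.2.1]
  refine ⟨?_, ?_⟩
  · rintro ⟨_, ⟨_, ⟨c, rfl⟩, rfl⟩, rfl⟩
    rcases F4_cases c with rfl | rfl | rfl | rfl
    · exact .inl (.inl (by rw [zero_smul, h.zero, map_one]))
    · exact .inl (.inr e1.symm)
    · exact .inr (.inl e2.symm)
    · exact .inr (.inr (by rw [← h.φ_E.2.2, show 63 = Nat.xor 7 56 from rfl, h.φ_mul (by norm_num) (by norm_num),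
        map_mul, h.φ_E.1, h.φ_E.2.1, e1, e2]))
  · have m := fun c => mem_map_of_mem i (h.s_EH c)
    rintro ((rfl | rfl) | rfl | rfl)
    exacts [one_mem _, e1 ▸ m _, e2 ▸ m _, mul_mem (e1 ▸ m _) (e2 ▸ m _)]

/-- the stabilizer of two points -/
def M0 : Subgroup G where
  carrier := {m | ∃ σ, h.TH m σ ∧ σ (pt 0) = pt 0 ∧ σ (pt 1) = pt 1}
  one_mem' := ⟨1, h.TH_one.2 (one_mem _), rfl, rfl⟩
  mul_mem' := fun ⟨_, a, a0, a1⟩ ⟨_, b, b0, b1⟩ => ⟨_, a.mul b, by rw [Perm.mul_apply, b0, a0], by rw [Perm.mul_apply, b1, a1]⟩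
  inv_mem' := fun ⟨_, a, a0, a1⟩ => ⟨_, a.inv, Perm.inv_eq_iff_eq.2 a0.symm, Perm.inv_eq_iff_eq.2 a1.symm⟩

theorem odd_index : ¬ 2 ∣ (normalizer (h.A : Set G) ⊓ centralizer {h.t1}).relIndex (centralizer {h.t1}) := by
  obtain ⟨S, hS, hA⟩ := sylow_superset Nat.prime_two (pGrp_of_card_eq_pow Nat.prime_two h.card_A)
    (M := centralizer {h.t1}) fun a ha => mem_cent_iff.2 (h.mem_KG'.1 (h.A_le ha)).1
  refine fun a => hS.not_dvd_index Nat.prime_two (a.trans (relIndex_dvd_of_le_left _ (le_inf (fun g hg => ?_) hS.le)))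
  exact conjg_eq_self_iff.1 (h.wc S g hS.pGrp hA
    (by rintro _ ⟨a, ha, rfl⟩; exact mul_mem (mul_mem hg (hA ha)) (inv_mem hg)))

theorem nosq0 {w : G} (hw : w ∈ h.KG) : w * w ≠ h.t1 := fun e => by
  obtain ⟨_, ⟨k, hk, rfl⟩, c⟩ := h.fix2 (P := zpowers w) (Cov.pg_sup (K := ⊥) IsPGroup.of_bot (r := 2) (by
    rw [show 2 ^ 2 = 2 * 2 from rfl, pow_mul, pow_two w, e, pow_two, h.dd_sq]) (mem_normalizer_fintype (by simp))
      |>.to_le le_sup_left) (zpowers_le.2 hw)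
  obtain ⟨c, e1⟩ := h.gs.range (k⁻¹ * w * k⁻¹⁻¹)
    (cj_inv (rfl : k * i z * k⁻¹ = _) ▸ commute_cj.2 (c w (mem_zpowers w)).symm)
  have ce := h.mem_KG.1 (e1 ▸ mul_mem (mul_mem (inv_mem hk) hw) (inv_mem (inv_mem hk)))
  have e2 : c * c = s (vec 63) := h.gs.inj (by
    rw [map_mul, e1, conj_mul, e, conj_eq_iff_commute.2 (h.mem_KG'.1 (inv_mem hk)).1, h.t1_eq])
  obtain ⟨_, hg, a, ha, e7⟩ := SW_inv (h.map_CE ce) (by rw [← map_mul, e2, h.mem_iff.1 (h.sQ _)])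
  obtain ⟨d, hd, dx, rfl⟩ := h.lift_CE hg
  rw [← map_inv, ← map_mul, ← map_mul] at e7
  obtain ⟨u, δ, e4, -⟩ := h.exists_e3 ha e7
  have e5 : d * c * d⁻¹ * (d * c * d⁻¹) = s (vec 63) := by rw [conj_mul, e2, h.conj_s dx]; exact congrArg s hg.2
  have m := mul_mem (mul_mem hd ce) (inv_mem hd)
  rw [e4, e3, mul_mem_cancel_right (h.AA_CE (h.pre_le ⟨h.zp_mem δ, h.π_zp δ ▸ zero_mem _⟩)),
    mul_mem_cancel_right (h.AA_CE (h.τ_mem ha)), h.mem_CE_iff (h.sQ u), h.πs] at m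
  rw [e4, e3, h.sq_zp, show s u * τ a * (s u * τ a) = s u * (τ a * s u * (τ a)⁻¹) * (τ a * τ a) by group, h.τ_sq ha,
    mul_one, h.conj_s (h.τx a), h.ρτ a ha] at e5
  have e6 := congrArg π e5
  obtain ⟨n, hn, rfl⟩ := exists_vec u
  rw [h.mul (h.sQ _) (h.sQ _), h.πs, h.πs, h.πs, rep_el (by omega) n hn, ← vec_xor] at e6
  have c := allR_eq_true.1 nosq_chk a ha
  rw [force_eq] at c
  exact bne'_eq_true.1 (bimp_eq_true.1 (allP_zero c n hn) (beq_iff.2 ((hh_vec_eq_zero ..).1 m)))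
    (vec_inj (xor_lt hn (app_lt ..)) (by norm_num) e6)

theorem nosq {w : G} (hw : w ∈ h.M0) : w * w ≠ h.t1 := fun e => by
  obtain ⟨σ, a, a0, a1⟩ := hw
  have e1 := (a.mul a).uniq (h.TH_one.2 (by rw [e]; exact h.dd_mem ..))
  by_cases e2 : σ = 1
  · exact (h.dd_cls (by decide)).1 (e.symm.trans (h.A_sq w (h.TH_one.1 (e2 ▸ a))))
  have c := ((card_fix_two a.mem (orderOf_two_of e1 e2)).resolve_right fun c =>
    card_fixS_eq_zero.1 c _ a0).2
  obtain ⟨p, hp, n⟩ := Finset.exists_mem_notMem_of_card_lt_card (s := {pt 0, pt 1}) (t := fixS σ)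
    (by rw [c]; decide)
  obtain ⟨σ', b, b0, b1, b2⟩ := m24_three (a := pt 0) (b := pt 1) (c := p) (a' := pt 0) (b' := pt 1) (c' := pt 2)
    (by simp at n; simp [eq_comm, n]; decide) (by decide)
  obtain ⟨m, b⟩ := h.TH_surj b
  refine h.nosq0 (w := m * w * m⁻¹) (h.mem_KG'.2 ⟨?_, ?_⟩) (by rw [conj_mul, e, b.dd, b0, b1])
  · rw [t1, ← b0, ← b1, ← b.dd]; exact commute_cj.2 (conj_eq_iff_commute.1 (by rw [a.dd, a0, a1]))
  · rw [t2, ← b0, ← b2, ← b.dd]; exact commute_cj.2 (conj_eq_iff_commute.1 (by rw [a.dd, a0, mem_fixS.1 hp]))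

omit [Finite G] in
theorem exists_u : ∃ u, u * u = h.t1 := by
  refine ⟨i (s (vec 19) * τ 1), ?_⟩
  rw [← map_mul, show s (vec 19) * τ 1 * (s (vec 19) * τ 1) = s (vec 19) * (τ 1 * s (vec 19) * (τ 1)⁻¹) * (τ 1 * τ 1) by
    group, h.τ_sq (by norm_num), mul_one, h.conj_s (h.τx 1), h.ρτ 1 (by norm_num), rep_el (by norm_num) 19 (by norm_num),
    h.s_mul, ← vec_xor, ← vec_om (app_lt ..), bb_vec, h.t1_eq, show Nat.xor 19 (app (tc 1) 19) = 63 by decide +kernel,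
    show bt (hN 19 (om (app (tc 1) 19))) 1 = 0 by decide +kernel, zp_zero, mul_one]

theorem exists_swap : ∃ m σ, h.TH m σ ∧ σ (pt 0) = pt 1 ∧ σ (pt 1) = pt 0 ∧ σ (pt 2) = pt 2 := by
  obtain ⟨σ, b, e⟩ := m24_three (a := pt 0) (b := pt 1) (c := pt 2) (a' := pt 1) (b' := pt 0) (c' := pt 2)
    (by decide) (by decide)
  obtain ⟨m, b⟩ := h.TH_surj b
  exact ⟨m, σ, b, e⟩

theorem M0_index : h.M0.relIndex (normalizer (h.A : Set G) ⊓ centralizer {h.t1}) = 2 := by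
  obtain ⟨m, σ, a, a0, a1, -⟩ := h.exists_swap
  refine index_eq_two_iff.2 ⟨⟨m, a.nrm, mem_cent_iff.2 ((a.comm (by decide)).2 (.inr ⟨a0, a1⟩))⟩, fun b => ?_⟩
  obtain ⟨σ', c⟩ := h.exists_TH b.2.1
  have n : pt 0 ≠ pt 1 := by decide
  rcases (c.comm n).1 (mem_cent_iff.1 b.2.2) with ⟨e0, e1⟩ | ⟨e0, e1⟩
  · refine .inr ⟨⟨_, c, e0, e1⟩, fun ⟨_, d, d0, _⟩ => n ?_⟩
    rw [← d0, d.uniq (c.mul a), Perm.mul_apply, a0, e1]
  · refine .inl ⟨⟨_, c.mul a, by rw [Perm.mul_apply, a0, e1], by rw [Perm.mul_apply, a1, e0]⟩, fun ⟨_, d, d0, _⟩ => n ?_⟩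
    rw [← d0, d.uniq c, e0]

theorem M0_le : h.M0 ≤ normalizer (h.A : Set G) ⊓ centralizer {h.t1} := fun _ ⟨_, a, e⟩ =>
  ⟨a.nrm, mem_cent_iff.2 ((a.comm (by decide)).2 (.inl e))⟩

theorem exists_K : ∃ K : Subgroup (centralizer ({h.t1} : Set G)), K.index = 2 := by
  obtain ⟨u, hu⟩ := h.exists_u
  have e := relIndex_mul_relIndex _ _ _ h.M0_le inf_le_right
  have o := h.odd_index
  rw [h.M0_index] at e
  have c : ∀ g : centralizer ({h.t1} : Set G), (g : G)⁻¹ * h.t1 * g = h.t1 := fun g => by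
    rw [mul_assoc, ← (mem_cent_iff.1 g.2).eq, inv_mul_cancel_left]
  refine transfer' (H := h.M0.subgroupOf _) (by change ¬ 4 ∣ relIndex _ _; omega) ⟨_, e.symm⟩
    (e := ⟨u, mem_cent_iff.2 (hu ▸ (Commute.refl u).mul_right (Commute.refl u))⟩) (fun g => ?_) fun g a => h.nosq a ?_
  · change (g : G)⁻¹ * (u * u) * g ∈ h.M0
    rw [hu, c]
    exact ⟨1, h.TH_one.2 (h.dd_mem ..), rfl, rfl⟩
  · change (g : G)⁻¹ * u * g * ((g : G)⁻¹ * u * g) = _
    refine Eq.trans ?_ (c g)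
    rw [← congrArg (fun y => (g : G)⁻¹ * y * g) hu]; group

/-- a subgroup of index two in the centralizer of `t` -/
structure KS (K : Subgroup G) : Prop where
  le : K ≤ centralizer {h.t1}
  idx : K.relIndex (centralizer {h.t1}) = 2

theorem exists_KS : ∃ K, h.KS K := by
  obtain ⟨K, e⟩ := h.exists_K
  exact ⟨K.map (Subgroup.subtype _), map_subtype_le _, by rwa [relIndex, subgroupOf, comap_map_eq_self_of_injective
    (subtype_injective _)]⟩

theorem t12 : h.t1 * h.t2 = h.dd (pt 1) (pt 2) := h.dd_mul ..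

end GX

namespace GX.KS

variable {H G : Type*} [Group H] [Group G] [Finite G] {i : H →* G} {Q : Subgroup H} {z : H} {π : H → V} {ρ : H →* L2}
  {x : H} {s : V → H} {τ : ℕ → H} {h : GX i Q z π ρ x s τ} {K : Subgroup G} (k : h.KS K)
include k

omit [Finite G] in
theorem mul_iff {a b : G} (ha : Commute a h.t1) (hb : Commute b h.t1) : a * b ∈ K ↔ (a ∈ K ↔ b ∈ K) :=
  mul_mem_iff_of_index_two k.idx (a := ⟨a, mem_cent_iff.2 ha⟩) (b := ⟨b, mem_cent_iff.2 hb⟩)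

omit [Finite G] in
theorem comm {a : G} (ha : a ∈ K) : Commute a h.t1 := mem_cent_iff.1 (k.le ha)

omit [Finite G] in
theorem conj {c a : G} (hc : Commute c h.t1) (ha : a ∈ K) : c * a * c⁻¹ ∈ K := by
  rw [k.mul_iff (hc.mul_left (k.comm ha)) hc.inv_left, mul_mem_cancel_right ha, inv_mem_iff]

theorem KG_le : h.KG ≤ K := by
  rw [← isPerfect_iff.1 h.KG_spec.2.2.1]
  refine commutator_le.2 fun a ha b hb => ?_
  have a1 := (h.mem_KG'.1 ha).1
  have b1 := (h.mem_KG'.1 hb).1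
  change a * b * a⁻¹ * b⁻¹ ∈ K
  rw [k.mul_iff ((a1.mul_left b1).mul_left a1.inv_left) b1.inv_left, k.mul_iff (a1.mul_left b1) a1.inv_left,
    k.mul_iff a1 b1, inv_mem_iff, inv_mem_iff]
  tauto

theorem pt_mem {p : Pt} (n : [pt 0, pt 1, p].Nodup) {g : G} (c1 : Commute g h.t1) (c2 : Commute g (h.dd (pt 0) p)) :
    g ∈ K := by
  obtain ⟨σ, b, b0, b1, b2⟩ := m24_three (a' := pt 0) (b' := pt 1) (c' := pt 2) n (by decide)
  obtain ⟨m, b⟩ := h.TH_surj b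
  have c := (b.comm (by decide)).2 (.inl ⟨b0, b1⟩)
  rw [cj_inv (rfl : m * g * m⁻¹ = _)]
  refine k.conj c.inv_left (k.KG_le (h.mem_KG'.2 ⟨(c.mul_left c1).mul_left c.inv_left, ?_⟩))
  rw [t2, ← b0, ← b2, ← b.dd]; exact commute_cj.2 c2

theorem M0_le : h.M0 ≤ K := by
  rintro m ⟨σ, a, a0, a1⟩
  have f : ∀ m σ p, h.TH m σ → σ (pt 0) = pt 0 → σ (pt 1) = pt 1 → [pt 0, pt 1, p].Nodup → σ p = p → m ∈ K :=
    fun m σ p a a0 a1 n e => k.pt_mem n ((a.comm (by decide)).2 (.inl ⟨a0, a1⟩))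
      (conj_eq_iff_commute.1 (by rw [a.dd, a0, e]))
  have n0 : pt 0 ≠ σ (pt 2) := by rw [← a0]; exact σ.injective.ne (by decide)
  have n1 : pt 1 ≠ σ (pt 2) := by rw [← a1]; exact σ.injective.ne (by decide)
  obtain ⟨q, hq, n, n'⟩ : ∃ q, [pt 0, pt 1, q].Nodup ∧ [pt 0, pt 1, q, σ (pt 2)].Nodup ∧ [pt 0, pt 1, q, pt 2].Nodup := by
    by_cases e : pt 3 = σ (pt 2)
    · exact ⟨pt 4, by decide, by rw [← e]; decide, by decide⟩
    · exact ⟨pt 3, by decide, by simp [n0, n1, e]; decide, by decide⟩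
  obtain ⟨σ', b, b0, b1, b2, b3⟩ := m24_four n n'
  obtain ⟨m', b⟩ := h.TH_surj b
  exact (mul_mem_cancel_left (f _ _ _ b b0 b1 hq b2)).1 (f _ _ (pt 2) (b.mul a) (by rw [Perm.mul_apply, a0, b0])
    (by rw [Perm.mul_apply, a1, b1]) (by decide) b3)

theorem swap {g : G} (c : Commute g h.t1) (e : g * h.t2 * g⁻¹ = h.t1 * h.t2) : g ∉ K := fun hg => by
  obtain ⟨m, σ, a, a0, a1, a2⟩ := h.exists_swap
  have c' := (a.comm (by decide)).2 (.inr ⟨a0, a1⟩)
  have hm : m ∈ K := (inv_mem_iff).1 ((mul_mem_cancel_right hg).1 (k.KG_le (h.mem_KG'.2 ⟨c'.inv_left.mul_left c,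
    conj_eq_iff_commute.1 (by
      rw [show m⁻¹ * g * h.t2 * (m⁻¹ * g)⁻¹ = m⁻¹ * (g * h.t2 * g⁻¹) * m⁻¹⁻¹ by group, e, h.t12]
      exact (cj_inv (by rw [a.dd, a0, a2])).symm)⟩)))
  refine h.odd_index (k.idx ▸ relIndex_dvd_of_le_left _ fun b hb => ?_)
  have := mul_mem_iff_of_index_two h.M0_index (a := ⟨b, hb⟩) (b := ⟨m, a.nrm, mem_cent_iff.2 c'⟩)
  by_cases e : b ∈ h.M0
  · exact k.M0_le e
  · refine (mul_mem_cancel_right hm).1 (k.M0_le (this.2 (iff_of_false e fun ⟨_, d, d0, _⟩ => ?_)))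
    rw [d.uniq a, a0] at d0
    exact absurd d0 (by decide)

theorem quot {K' Kb : Type*} [Group K'] [Group Kb] {j : K' →* G} (hj : Function.Injective j) (hr : j.range = K)
    {p : K' →* Kb} (hp : Function.Surjective p) (hk : ∀ y, p y = 1 ↔ j y = 1 ∨ j y = h.t1) :
    ∃ d : Kb, orderOf d = 2 ∧ IsQuasisimple (centralizer ({d} : Set Kb)) ∧
      (∃ _ : ((zpowers d).subgroupOf (centralizer ({d} : Set Kb))).Normal,
        Nonempty (centralizer ({d} : Set Kb) ⧸ (zpowers d).subgroupOf (centralizer ({d} : Set Kb)) ≃* PSU 6 F4 2)) ∧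
      (∃ g, g * d * g⁻¹ ∈ centralizer ({d} : Set Kb) ∧ g * d * g⁻¹ ≠ d) ∧ (∃ e, Loc.RG TC.X22 (conjugatesOf d) e) ∧
      IsThreeTranspositionClass (conjugatesOf d) ∧ IsQuasisimple K' ∧ center K' = p.ker := by
  haveI := Finite.of_injective j hj
  haveI := Finite.of_surjective p hp
  obtain ⟨-, eZ, pf, ⟨f⟩⟩ := h.KG_spec
  let r : h.KG →* K' := (MonoidHom.ofInjective hj).symm.toMonoidHom.comp (inclusion (hr ▸ k.KG_le))
  have jr : ∀ g, j (r g) = g := fun g => MonoidHom.apply_ofInjective_symm hj _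
  have m1 : h.t1 ∈ h.KG := h.A_le (h.dd_mem ..)
  have m2 : h.t2 ∈ h.KG := h.A_le (h.dd_mem ..)
  have pe : ∀ a b, p a = p b ↔ j a = j b ∨ j a = h.t1 * j b := fun a b => by
    rw [← mul_inv_eq_one, ← map_inv, ← map_mul, hk, map_mul, map_inv, mul_inv_eq_one, mul_inv_eq_iff_eq_mul]
  have jK : ∀ a, j a ∈ K := fun a => hr ▸ ⟨a, rfl⟩
  let d := p (r ⟨_, m2⟩)
  have o : orderOf d = 2 := orderOf_two_of (by rw [← map_mul, hk, map_mul, jr, h.dd_sq]; exact .inl rfl) fun e =>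
    ((hk _).1 e).elim (fun e => (h.dd_cls (by decide)).1 ((jr _).symm.trans e)) fun e =>
      absurd (h.dd_inj (by decide) ((jr _).symm.trans e)) (by decide)
  let q : h.KG →* centralizer ({d} : Set Kb) := (p.comp r).codRestrict _ fun g => mem_cent_iff.2
    (((show Commute g ⟨_, m2⟩ from Subtype.ext (h.mem_KG'.1 g.2).2).map r).map p)
  have hq : Function.Surjective q := fun y => by
    obtain ⟨a, e⟩ := hp y
    have := conj_eq_iff_commute.2 (mem_cent_iff.1 y.2)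
    rw [← e, ← map_inv, ← map_mul, ← map_mul, pe, map_mul, map_mul, map_inv, jr] at this
    have m := h.mem_KG'.2 ⟨k.comm (jK a), conj_eq_iff_commute.1
      (this.resolve_right fun e => k.swap (k.comm (jK a)) e (jK a))⟩
    exact ⟨⟨_, m⟩, Subtype.ext ((congrArg p (hj (jr _))).trans e)⟩
  have hn : ((zpowers d).subgroupOf (centralizer ({d} : Set Kb))).Normal := ⟨fun y hy g => by
    have : Commute (g : Kb) y := by
      obtain ⟨n, e⟩ := mem_zpowers_iff.1 hy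
      exact (show d ^ n = (y : Kb) from e) ▸ Commute.zpow_right (mem_cent_iff.1 g.2) n
    change (g : Kb) * y * (g : Kb)⁻¹ ∈ zpowers d
    rwa [conj_eq_iff_commute.2 this]⟩
  have d2 : d * d = 1 := by rw [← pow_two, ← o, pow_orderOf_eq_one]
  obtain ⟨φ⟩ := equiv_of_ker (f := (QuotientGroup.mk' ((zpowers d).subgroupOf _)).comp q)
    (g := f.toMonoidHom.comp (QuotientGroup.mk' _)) ((QuotientGroup.mk'_surjective _).comp hq)
    (f.surjective.comp (QuotientGroup.mk'_surjective _)) (Subgroup.ext fun g => by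
      rw [MonoidHom.mem_ker, MonoidHom.mem_ker]
      simp only [MonoidHom.comp_apply, QuotientGroup.mk'_apply, MulEquiv.coe_toMonoidHom]
      rw [QuotientGroup.eq_one_iff, MulEquiv.map_eq_one_iff, QuotientGroup.eq_one_iff, eZ, mem_subgroupOf,
        mem_subgroupOf, mem_zpowers_iff_of_sq d2, h.mem_EG]
      change p (r g) = 1 ∨ p (r g) = _ ↔ _
      rw [hk, pe, jr, jr])
  have nw : ∃ g, g * d * g⁻¹ ∈ centralizer ({d} : Set Kb) ∧ g * d * g⁻¹ ≠ d := by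
    obtain ⟨σ, b, b0, b1, b2⟩ := m24_three (a := pt 0) (b := pt 1) (c := pt 2) (a' := pt 0) (b' := pt 1) (c' := pt 3)
      (by decide) (by decide)
    obtain ⟨m, b⟩ := h.TH_surj b
    obtain ⟨a, rfl⟩ := hr.ge (k.M0_le ⟨σ, b, b0, b1⟩)
    have e : j (a * r ⟨_, m2⟩ * a⁻¹) = h.dd (pt 0) (pt 3) := by rw [map_mul, map_mul, map_inv, jr, b.dd, b0, b2]
    refine ⟨p a, ?_, ?_⟩ <;> rw [← map_inv, ← map_mul, ← map_mul]
    · exact mem_cent_iff.2 (Commute.map (hj (by rw [map_mul, map_mul j _ (_ * _), e, jr]; exact h.dd_comm ..)) p)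
    · rw [Ne, pe, e, jr, h.t12]
      rintro (e | e) <;> exact absurd (h.dd_inj (by decide) e) (by decide)
  haveI := TC.simple_PSU62 card_F4
  have qs := qs_of_surjective ⟨pf, f.isSimpleGroup⟩ q hq
    ⟨⟨⟨d, mem_cent_iff.2 (Commute.refl d)⟩, 1, fun e => by simp [show d = 1 from congrArg Subtype.val e] at o⟩⟩
  obtain ⟨e, h1, h2, h3⟩ := Cov.real_of_cent22 o qs card_F4 φ nw
  haveI := h1.simple22 h2.2.2 h3
  refine ⟨d, o, qs, ⟨hn, ⟨φ⟩⟩, nw, ⟨e, h1, h2.2.2, h3⟩, h2, qs_of_ext hp (fun y hy => mem_center_iff.2 fun g => hj ?_)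
    (fun y hy => ?_) h3⟩
  · rcases (hk y).1 hy with e | e <;> rw [map_mul, map_mul, e]
    · rw [mul_one, one_mul]
    · exact k.comm (jK g)
  · rcases (hk y).1 hy with e | e
    · rw [hj (e.trans (map_one j).symm)]; exact one_mem _
    · rw [hj (e.trans (jr ⟨_, m1⟩).symm)]
      exact commutator_mono le_top le_top (map_commutator_eq _ r ▸ mem_map_of_mem r Group.IsPerfect.mem_commutator)

end GX.KS

theorem realizeEqns_U6Ct : True := by
  have := @CA.U6.GX.t2.eq_1.{0,0}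
  have := @CA.U6.GX.t2.eq_def.{0,0}
  have := @CA.U6.GX.t2.congr_simp.{0,0}
  have := @CA.U6.GX.M0.eq_1.{0,0}
  have := @CA.U6.GX.M0.eq_def.{0,0}
  have := @CA.U6.GX.M0.congr_simp.{0,0}
  have := @CA.U6.GX.t1.eq_1.{0,0}
  have := @CA.U6.GX.t1.eq_def.{0,0}
  have := @CA.U6.GX.t1.congr_simp.{0,0}
  have := @CA.U6.GX.dd.eq_1.{0,0}
  have := @CA.U6.GX.dd.eq_def.{0,0}
  have := @CA.U6.GX.dd.congr_simp.{0,0}
  trivial

end CA.U6
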