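/-
Groups of large Fischer type: the action on the component `2 Fi₂₂`.
-/
import Cfsg.Agent.U6.Ct
import Cfsg.Agent.Fi3.Tow
import Cfsg.Agent.Fi.ICent22

set_option autoImplicit false

namespace CA.U6

open Cfsg Cfsg.Agent Cfsg.Agent.Unit CA.M24 Subgroup CA.FG CA.Fi Equiv CA.FG.Comp

namespace GX

variable {H G : Type*} [Group H] [Group G] {i : H →* G} {Q : Subgroup H} {z : H} {π : H → V} {ρ : H →* L2}
  {x : H} {s : V → H} {τ : ℕ → H} (h : GX i Q z π ρ x s τ)
include h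

theorem conjG (k : G) : GX ((MulAut.conj k).toMonoidHom.comp i) Q z π ρ x s τ :=
  ⟨h.toXS, h.gs.conjG k, fun a c => by
    have e : ∀ y, IsConj (i y) (((MulAut.conj k).toMonoidHom.comp i) y) := fun y => isConj_of (k := k) rfl
    exact (e z).symm.trans ((h.nτ a ((e z).trans (c.trans (e _).symm))).trans (e _))⟩

variable [Finite G]

theorem conj_t {q : H} (hq : q ∈ Q) (h2 : q * q = 1) (h1 : q ≠ 1) (n : ¬ IsConj (i z) (i q)) :
    ∃ k, i k * h.t1 * (i k)⁻¹ = i q := by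
  have nz : q ≠ z := fun e => n (e ▸ IsConj.refl _)
  obtain ⟨k, e⟩ := h.exists_conj5 (h.sQ (vec 63)) hq (by rw [h.πs]; exact vec63_mem) (by
    by_contra a
    exact n ((h.gs.conj_iff hq nz).2 (mem_cs26.2 ⟨(h.mem_cs31 hq).2 ⟨h2, h1, nz⟩, a⟩)))
  exact ⟨k, by rw [h.t1_eq, ← map_inv, ← map_mul, ← map_mul, e]⟩

end GX

namespace GX.KS

variable {H G : Type*} [Group H] [Group G] [Finite G] {i : H →* G} {Q : Subgroup H} {z : H} {π : H → V} {ρ : H →* L2}
  {x : H} {s : V → H} {τ : ℕ → H} {h : GX i Q z π ρ x s τ} {K : Subgroup G} (k : h.KS K)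
include k

theorem t1_mem : h.t1 ∈ K := k.KG_le (h.A_le (h.dd_mem ..))

theorem t2_mem : h.t2 ∈ K := k.KG_le (h.A_le (h.dd_mem ..))

theorem spec : IsQuasisimple K ∧ ∀ g, (∀ a ∈ K, Commute g a) → g = 1 ∨ g = h.t1 := by
  haveI : ((zpowers h.t1).subgroupOf K).Normal := ⟨fun y hy g => by
    change (g : G) * y * (g : G)⁻¹ ∈ zpowers h.t1
    obtain ⟨n, e⟩ := mem_zpowers_iff.1 hy
    rwa [conj_eq_iff_commute.2 ((show h.t1 ^ n = (y : G) from e) ▸ (k.comm g.2).zpow_right n)]⟩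
  have e : ∀ y : K, QuotientGroup.mk' ((zpowers h.t1).subgroupOf K) y = 1 ↔ K.subtype y = 1 ∨ K.subtype y = h.t1 :=
    fun y => (QuotientGroup.eq_one_iff y).trans (mem_zpowers_iff_of_sq (h.dd_sq ..))
  obtain ⟨-, -, -, -, -, -, -, qs, hZ⟩ := k.quot (subtype_injective _) (range_subtype _)
    (QuotientGroup.mk'_surjective _) e
  refine ⟨qs, fun g c => (e ⟨g, k.KG_le (h.mem_KG'.2 ⟨c _ k.t1_mem, c _ k.t2_mem⟩)⟩).1 ?_⟩
  exact hZ.le (mem_center_iff.2 fun a => Subtype.ext (c a a.2).symm)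

theorem aut {X : Type*} [Group X] {j : G →* X} (hj : Function.Injective j) {t : X} (ht : j h.t1 = t)
    [hn : ((zpowers t).subgroupOf (centralizer ({t} : Set X))).Normal]
    (hN : ∀ g, Commute g t → ∀ a ∈ K, ∃ b ∈ K, g * j a * g⁻¹ = j b) :
    ∃ α : centralizer ({t} : Set X) ⧸ (zpowers t).subgroupOf (centralizer ({t} : Set X)) →* MulAut Spor.Fi22,
      Finite (MulAut Spor.Fi22) ∧ Nat.card (MulAut Spor.Fi22) ≤ Nat.card K ∧
        ∀ g : centralizer ({t} : Set X), α g = 1 → ∀ a ∈ K, Commute g.1 (j a) := by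
  have t2 : t * t = 1 := by rw [← ht, ← map_mul, h.dd_sq, map_one]
  let r : K →* centralizer ({t} : Set X) :=
    (j.comp K.subtype).codRestrict _ fun a => mem_cent_iff.2 (ht ▸ (k.comm a.2).map j)
  let p := (QuotientGroup.mk' ((zpowers t).subgroupOf (centralizer ({t} : Set X)))).comp r
  haveI : p.range.Normal := ⟨by
    rintro _ ⟨a, rfl⟩ g
    obtain ⟨g, rfl⟩ := QuotientGroup.mk'_surjective _ g
    obtain ⟨b, hb, e⟩ := hN g (mem_cent_iff.1 g.2) a a.2
    exact ⟨⟨b, hb⟩, by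
      rw [MonoidHom.comp_apply, MonoidHom.comp_apply, ← map_inv, ← map_mul, ← map_mul]
      exact congrArg _ (Subtype.ext e.symm)⟩⟩
  have e : ∀ y : K, p.rangeRestrict y = 1 ↔ K.subtype y = 1 ∨ K.subtype y = h.t1 := fun y => by
    rw [Subtype.ext_iff, ← hj.eq_iff, ← hj.eq_iff (b := h.t1), map_one, ht]
    exact (QuotientGroup.eq_one_iff (r y)).trans (mem_zpowers_iff_of_sq t2)
  obtain ⟨d, -, -, -, -, ⟨e', hR⟩, -, qs, -⟩ := k.quot (subtype_injective _) (range_subtype _)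
    p.rangeRestrict_surjective e
  obtain ⟨φ, -⟩ := DC.pres22 hR
  haveI := Finite.of_surjective _ p.rangeRestrict_surjective
  haveI := Fi3.finite_aut (G := p.range)
  refine ⟨(MulAut.congr φ.symm).toMonoidHom.comp MulAut.conjNormal, Finite.of_equiv _ (MulAut.congr φ.symm).toEquiv,
    ?_, fun g hg a ha => ?_⟩
  · rw [Nat.card_congr (MulAut.congr φ).toEquiv, ← p.rangeRestrict.ker.card_mul_index, index_ker,
      MonoidHom.range_eq_top.2 p.rangeRestrict_surjective, card_top, TC.card22 hR.toReal hR.gen hR.ctr,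
      show p.rangeRestrict.ker = zpowers ⟨_, k.t1_mem⟩ from Subgroup.ext fun y => (e y).trans (by
        rw [mem_zpowers_iff_of_sq (Subtype.ext (h.dd_sq ..)), Subtype.ext_iff, Subtype.ext_iff]; rfl),
      Nat.card_zpowers, orderOf_two_of (Subtype.ext (h.dd_sq ..)) fun a =>
        (h.dd_cls (by decide)).1 (congrArg Subtype.val a)]
    exact (Fi3.card_aut22 hR).trans (by norm_num)
  · let N := (((MulAut.conjNormal (H := p.range)).comp (QuotientGroup.mk' _)).ker).map (Subgroup.subtype _)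
    have := commutator_eq_bot_of_perfect (X := N) (L := K.map j) (by
      rw [← map_commutator, isPerfect_iff.1 qs.1]) (commutator_eq_bot_iff_le_centralizer.2
        ((commutator_le.2 ?_ : _ ≤ zpowers t).trans (zpowers_le.2 (mem_cent_subgroup_iff.2 ?_))))
    · exact mem_cent_subgroup_iff.1 (commutator_eq_bot_iff_le_centralizer.1 this
        ⟨g, (MulAut.congr φ.symm).map_eq_one_iff.1 hg, rfl⟩) _ (mem_map_of_mem j ha)
    · rintro _ ⟨g, hg, rfl⟩ _ ⟨a, ha, rfl⟩
      have := congrArg (fun f : MulAut p.range => (f (p.rangeRestrict ⟨a, ha⟩)).1) hg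
      exact (QuotientGroup.eq_one_iff (g * r ⟨a, ha⟩ * g⁻¹ * (r ⟨a, ha⟩)⁻¹)).1 (mul_inv_eq_one.2 this)
    · rintro _ ⟨a, ha, rfl⟩
      exact ht ▸ ((k.comm ha).map j).symm

theorem main [hn : ((zpowers h.t1).subgroupOf (centralizer ({h.t1} : Set G))).Normal] :
    generalizedFittingSubgroup (centralizer ({h.t1} : Set G)) = K.subgroupOf _ ∧
      Nonempty (centralizer ({h.t1} : Set G) ⧸ (zpowers h.t1).subgroupOf (centralizer ({h.t1} : Set G)) ≃*
        MulAut Spor.Fi22) := by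
  obtain ⟨α, _, h1, h2⟩ := k.aut (j := MonoidHom.id G) Function.injective_id (t := h.t1) rfl fun g c a ha => ⟨_, k.conj c ha, rfl⟩
  haveI := normal_of_index_eq_two k.idx
  refine ⟨Fi3.Fstar_eq (qs_of_equiv k.spec.1 (subgroupOfEquivOfLe k.le).symm) fun g hg => ?_,
    ⟨MulEquiv.ofBijective α (((injective_iff_map_eq_one α).2 fun g hg => ?_).bijective_of_nat_card_le
      (h1.trans_eq ?_))⟩⟩
  · rcases k.spec.2 g fun a ha => congrArg Subtype.val (mem_cent_subgroup_iff.1 hg ⟨a, k.le ha⟩ ha) with e | e <;>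
      rw [mem_subgroupOf, e]
    exacts [one_mem _, k.t1_mem]
  · obtain ⟨g, rfl⟩ := QuotientGroup.mk_surjective g
    exact (QuotientGroup.eq_one_iff g).2 ((mem_zpowers_iff_of_sq (h.dd_sq ..)).2 (k.spec.2 g (h2 g hg)))
  · have e1 := (K.subgroupOf (centralizer ({h.t1} : Set G))).card_mul_index
    have e2 := ((zpowers h.t1).subgroupOf (centralizer ({h.t1} : Set G))).card_mul_index
    rw [Nat.card_congr (subgroupOfEquivOfLe k.le).toEquiv, show index _ = 2 from k.idx] at e1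
    rw [Nat.card_congr (subgroupOfEquivOfLe (zpowers_le.2 (k.le k.t1_mem))).toEquiv, Nat.card_zpowers,
      orderOf_two_of (h.dd_sq ..) (h.dd_cls (by decide)).1, index] at e2
    omega

end GX.KS

end CA.U6
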