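/-
Extensions of degree two of groups of large Fischer type: the transposition.
-/
import Cfsg.Agent.U6.C2

set_option autoImplicit false

namespace CA.U6

open Cfsg Cfsg.Agent Cfsg.Agent.Unit CA.M24 Subgroup CA.FG CA.Fi Equiv CA.FG.Comp

theorem V_eq {u w : V} (h : u + w = 0) : u = w := add_right_cancel (h.trans (V_add_self w).symm)

theorem bb_perp {u w : V} (h : ∀ v, bb w v = 0 → bb u v = 0) : u = 0 ∨ u = w := by
  by_cases a : ∀ v, bb u v = 0
  · exact .inl (bb_nondeg a)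
  obtain ⟨v0, a⟩ := not_forall.1 a
  have a0 := (zmod_cases _).resolve_left a
  have a1 := (zmod_cases _).resolve_left (mt (h v0) a)
  refine .inr (V_eq (bb_nondeg fun v => ?_))
  rw [bb_add_left]
  rcases zmod_cases (bb w v) with e | e
  · rw [e, h v e, add_zero]
  · have := h (v + v0) (by rw [bb_add_right, e, a1]; rfl)
    rw [bb_add_right, a0] at this
    rw [e, this]

theorem GX.KS.perf_le {H G : Type*} [Group H] [Group G] {i : H →* G} {Q : Subgroup H} {z : H} {π : H → V} {ρ : H →* L2}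
    {x : H} {s : V → H} {τ : ℕ → H} {h : GX i Q z π ρ x s τ} {K : Subgroup G} (k : h.KS K) {L : Subgroup G}
    (hL : ⁅L, L⁆ = L) (c : ∀ a ∈ L, Commute a h.t1) : L ≤ K := by
  rw [← hL]
  refine commutator_le.2 fun a ha b hb => ?_
  have a1 := c a ha
  have b1 := c b hb
  change a * b * a⁻¹ * b⁻¹ ∈ K
  rw [k.mul_iff ((a1.mul_left b1).mul_left a1.inv_left) b1.inv_left, k.mul_iff (a1.mul_left b1) a1.inv_left,
    k.mul_iff a1 b1, inv_mem_iff, inv_mem_iff]
  tauto

/-- An extension of degree two. -/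
structure XX {H G X : Type*} [Group H] [Group G] [Group X] (i : H →* G) (Q : Subgroup H) (z : H) (j : G →* X) : Prop where
  inj : Function.Injective j
  idx : j.range.index = 2
  nq : ∀ a : G ≃* G, a (i z) = i z → ∀ q ∈ Q, ∃ q' ∈ Q, a (i q) = i q'
  cq : ∀ g, (∀ q ∈ Q, Commute g (j (i q))) → g ∈ j.range

namespace XX

variable {H G X : Type*} [Group H] [Group G] [Group X] {i : H →* G} {Q : Subgroup H} {z : H} {j : G →* X}
  (w : XX i Q z j)
include w

theorem au (g : X) : ∃ a : G ≃* G, ∀ y, j (a y) = g * j y * g⁻¹ :=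
  haveI := normal_of_index_eq_two w.idx
  ⟨(MonoidHom.ofInjective w.inj).trans ((MulAut.conjNormal g).trans (MonoidHom.ofInjective w.inj).symm),
    fun _ => MonoidHom.apply_ofInjective_symm w.inj _⟩

theorem rel {a b : X} (ha : a ∉ j.range) (hb : b ∉ j.range) : ∃ g, b = a * j g := by
  obtain ⟨g, e⟩ := (mul_mem_iff_of_index_two w.idx (a := a⁻¹) (b := b)).2 (iff_of_false (by rwa [inv_mem_iff]) hb)
  exact ⟨g, by rw [e, mul_inv_cancel_left]⟩

theorem comm {a b : G} : Commute (j a) (j b) ↔ Commute a b :=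
  ⟨fun c => w.inj (by rw [map_mul, map_mul]; exact c), fun c => c.map j⟩

omit w in
theorem out_mul {a : X} (ha : a ∉ j.range) (g : G) : a * j g ∉ j.range := 
  mt (mul_mem_cancel_right (MonoidHom.mem_range.2 ⟨g, rfl⟩)).1 ha

omit w in
theorem mul_out {a : X} (ha : a ∉ j.range) (g : G) : j g * a ∉ j.range := 
  mt (mul_mem_cancel_left (MonoidHom.mem_range.2 ⟨g, rfl⟩)).1 ha

theorem cj_out {a : X} (ha : a ∉ j.range) (g : X) : g * a * g⁻¹ ∉ j.range := fun e =>
  ha (cj_inv (rfl : g * a * g⁻¹ = _) ▸ (normal_of_index_eq_two w.idx).conj_mem _ e g⁻¹)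

theorem cent {f : X} {g a : G} (c : Commute f (j a)) : Commute (f * j g) (j a) ↔ Commute g a :=
  ⟨fun e => w.comm.1 (by simpa using c.inv_left.mul_left e), fun e => c.mul_left (e.map j)⟩

variable [Finite G] {π : H → V} {ρ : H →* L2} {x : H} {s : V → H} {τ : ℕ → H} (h : GX i Q z π ρ x s τ)
include h

theorem exists_z : ∃ y ∉ j.range, Commute y (j (i z)) := by
  obtain ⟨y, hy⟩ : ∃ y, y ∉ j.range := not_forall.1 fun a => by
    have := w.idx
    rw [(eq_top_iff' _).2 a, index_top] at this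
    cases this
  obtain ⟨a, e⟩ := w.au y
  obtain ⟨c, -, hc⟩ := sylow_Jsub Nat.prime_two h.syl (h.syl.pGrp.map a.toMonoidHom) le_top
  let b := a.trans (MulAut.conj c)
  have k : ∀ y ∈ Q.map i, Commute (b.symm (i z)) y := by
    rintro _ ⟨q, hq, rfl⟩
    obtain ⟨u, -, e⟩ := hc (conj_mem_conjg c (mem_map_of_mem a.toMonoidHom (mem_map_of_mem i
      (show q ∈ T0.comap ρ by rw [mem_comap, h.mem_iff.1 hq]; exact one_mem _))))
    rw [← b.symm_apply_apply (i q), show b (i q) = i u from e.symm]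
    exact ((h.cen u).symm.map i).map b.symm
  refine ⟨_, mul_out hy c, conj_eq_iff_commute.1 ?_⟩
  rcases h.gs.le.cen _ (h.gs.le.cent _ k) k with e1 | e1
  · exact absurd (b.symm.map_eq_one_iff.1 e1) h.gs.le.z_ne
  · refine Eq.trans ?_ (congrArg j (b.symm_apply_eq.1 e1).symm)
    change _ = j (c * a (i z) * c⁻¹)
    rw [map_mul, map_mul, map_inv, e]; group

theorem exists_t : ∃ y ∉ j.range, Commute y (j h.t1) := by
  obtain ⟨y, hy, c⟩ := w.exists_z h
  obtain ⟨a, e⟩ := w.au y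
  have az : a (i z) = i z := w.inj ((e _).trans (conj_eq_iff_commute.2 c))
  obtain ⟨q, hq, e1⟩ := w.nq a az _ (h.sQ (vec 63))
  rw [← h.t1_eq] at e1
  have cl := h.dd_cls (show pt 0 ≠ pt 1 by decide)
  obtain ⟨k, e2⟩ := h.conj_t hq (h.gs.inj (by rw [map_mul, ← e1, ← map_mul, h.dd_sq, map_one, map_one]))
    (fun a1 => cl.1 (a.map_eq_one_iff.1 (by rw [e1, a1, map_one]))) fun a1 =>
      cl.2 (by simpa [← e1, a.symm_apply_eq.2 az.symm] using a.symm.toMonoidHom.map_isConj a1)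
  refine ⟨_, mul_out hy (i k)⁻¹, conj_eq_iff_commute.1 ?_⟩
  rw [show j (i k)⁻¹ * y * j h.t1 * (j (i k)⁻¹ * y)⁻¹ = j (i k)⁻¹ * (y * j h.t1 * y⁻¹) * (j (i k)⁻¹)⁻¹ by group, ← e, e1,
    ← map_inv j, ← map_mul j, ← map_mul j, ← cj_inv e2]

theorem not_cent {f : X} (hf : f ∉ j.range) : ¬ ∀ g, Commute g h.t1 → Commute f (j g) := fun c => by
  obtain ⟨a, e⟩ := w.au f
  have fx : ∀ g, a g = g ↔ Commute f (j g) := fun g => by rw [← w.inj.eq_iff, e, conj_eq_iff_commute]
  have sq := h.sQ (vec 63)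
  have ct : ∀ r ∈ Q, bb (vec 63) (π r) = 0 → Commute h.t1 (i r) := fun r hr b => by
    rw [h.t1_eq]; exact ((h.commute_iff sq hr).2 (by rwa [h.πs])).map i
  obtain ⟨v, hv⟩ := not_forall.1 (mt bb_nondeg (show vec 63 ≠ 0 by decide))
  obtain ⟨q, hq, rfl⟩ := h.surj v
  have fin : ∀ f' ∉ j.range, Commute f' (j (i q)) → ¬ ∀ r ∈ Q, Commute h.t1 (i r) → Commute f' (j (i r)) :=
    fun f' n c1 c2 => n (w.cq _ fun r hr => (zmod_cases (bb (vec 63) (π r))).elim (fun b => c2 r hr (ct r hr b)) fun b => by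
      have := c1.inv_right.mul_right (c2 _ (mul_mem hq hr) (ct _ (mul_mem hq hr) (by
        rw [h.mul hq hr, bb_add_right, b, (zmod_cases _).resolve_left hv]; rfl)))
      rwa [map_mul, map_mul, inv_mul_cancel_left] at this)
  obtain ⟨q', hq', e1⟩ := w.nq a ((fx _).2 (c _ (h.mem_KG'.1 (h.A_le h.z_mem_A)).1)) q hq
  have e2 : π q' = π q := by
    rcases bb_perp (u := π q + π q') (w := vec 63) (fun v b => by
      obtain ⟨r, hr, rfl⟩ := h.surj v
      have : Commute q' r ↔ Commute q r := by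
        rw [← h.gs.comm_iff, ← h.gs.comm_iff, ← e1, ← (fx _).2 (c _ (ct r hr b).symm)]
        nth_rw 2 [(fx _).2 (c _ (ct r hr b).symm)]
        exact ⟨fun c => a.injective (by rw [map_mul, map_mul]; exact c), fun c => c.map a⟩
      rw [h.commute_iff hq' hr, h.commute_iff hq hr] at this
      rw [bb_add_left]
      revert this
      generalize bb (π q) (π r) = u, bb (π q') (π r) = v
      revert u v; decide) with b | b
    · exact (V_eq b).symm
    · refine (hv ?_).elim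
      rw [bb_comm, ← hh_add_iff, ← b, ← add_assoc, V_add_self, zero_add, b, ← h.sq hq, ← h.sq hq',
        iff_true_intro (iso5 vec63_mem), iff_true, ← h.gs.inj.eq_iff, ← h.gs.inj.eq_iff (a := q * q), map_mul, ← e1,
        ← map_mul, map_one, a.map_eq_one_iff, map_mul]
  rcases (h.eq_iff hq hq').1 e2 with rfl | rfl
  · exact fin f hf ((fx _).1 e1) fun r _ b => c _ b.symm
  · refine fin _ (out_mul hf h.t1) (conj_eq_iff_commute.1 ?_) fun r _ b => (c _ b.symm).mul_left (b.map j)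
    have b := (h.es.comm _ sq q hq).resolve_left fun b => hv (by rw [← h.πs (vec 63)]; exact (h.commute_iff sq hq).1 b)
    have b' : h.t1 * i q * h.t1⁻¹ = i q * i z := by
      rw [h.t1_eq, ← map_inv, ← map_mul, ← map_mul, b, mul_assoc, mul_assoc, ← (h.cen _).eq, mul_inv_cancel_left, map_mul]
    rw [show f * j h.t1 * j (i q) * (f * j h.t1)⁻¹ = f * j (h.t1 * i q * h.t1⁻¹) * f⁻¹ by
      rw [map_mul, map_mul, map_inv]; group, b', ← e, map_mul a, e1, (fx _).2 (c _ (h.mem_KG'.1 (h.A_le h.z_mem_A)).1),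
      ← map_mul, mul_assoc, h.es.z_sq, mul_one]

variable {h} {K : Subgroup G} (k : h.KS K)
include k

theorem normK {g : X} (c : Commute g (j h.t1)) {a : G} (ha : a ∈ K) : ∃ b ∈ K, g * j a * g⁻¹ = j b := by
  obtain ⟨φ, e⟩ := w.au g
  refine ⟨_, k.perf_le (L := K.map φ.toMonoidHom) (by rw [← map_commutator, isPerfect_iff.1 k.spec.1.1]) ?_
    (mem_map_of_mem _ ha), (e a).symm⟩
  rintro _ ⟨b, hb, rfl⟩
  rw [← show φ h.t1 = h.t1 from w.inj ((e _).trans (conj_eq_iff_commute.2 c))]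
  exact (k.comm hb).map φ

theorem exists_f0 : ∃ f ∉ j.range, ∀ a ∈ K, Commute f (j a) := by
  haveI : ((zpowers (j h.t1)).subgroupOf (centralizer ({j h.t1} : Set X))).Normal := ⟨fun y hy g => by
    change (g : X) * y * (g : X)⁻¹ ∈ zpowers (j h.t1)
    obtain ⟨n, e⟩ := mem_zpowers_iff.1 hy
    rwa [conj_eq_iff_commute.2 ((show j h.t1 ^ n = (y : X) from e) ▸ Commute.zpow_right (mem_cent_iff.1 g.2) n)]⟩
  obtain ⟨α, _, h1, h2⟩ := k.aut w.inj rfl fun _ c _ => w.normK k c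
  let r : centralizer ({h.t1} : Set G) →* centralizer ({j h.t1} : Set X) :=
    (j.comp (Subgroup.subtype _)).codRestrict _ fun a => mem_cent_iff.2 (Commute.map (mem_cent_iff.1 a.2) j)
  let γ := α.comp ((QuotientGroup.mk' _).comp r)
  have e1 := (K.subgroupOf (centralizer ({h.t1} : Set G))).card_mul_index
  rw [Nat.card_congr (subgroupOfEquivOfLe k.le).toEquiv, show index _ = 2 from k.idx] at e1
  have e2 := γ.ker.card_mul_index
  have e3 : Nat.card γ.ker ≤ 2 := (card_le_of_le (H := γ.ker) (K := zpowers ⟨h.t1, k.le k.t1_mem⟩) fun g hg =>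
    (mem_zpowers_iff_of_sq (Subtype.ext (h.dd_sq ..))).2 ((k.spec.2 g fun a ha => w.comm.1 (h2 (r g) hg a ha)).imp
      Subtype.ext Subtype.ext)).trans (by
        rw [Nat.card_zpowers]; exact orderOf_le_of_pow_eq_one two_pos (Subtype.ext ((pow_two _).trans (h.dd_sq ..))))
  rw [index_ker] at e2
  obtain ⟨y, hy, c⟩ := w.exists_t h
  obtain ⟨g, e⟩ := (eq_top_of_le_card γ.range (by nlinarith)).ge (mem_top (α (QuotientGroup.mk ⟨y, mem_cent_iff.2 c⟩)))
  exact ⟨(r g⁻¹ * ⟨y, mem_cent_iff.2 c⟩ :), mul_out hy (g⁻¹ :), h2 _ (by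
    rw [QuotientGroup.mk_mul, map_mul, ← e, ← map_one γ, ← inv_mul_cancel g, map_mul]; rfl)⟩

theorem two {f f' : X} (n : f ∉ j.range) (c : ∀ a ∈ K, Commute f (j a)) (n' : f' ∉ j.range)
    (c' : ∀ a ∈ K, Commute f' (j a)) : f' = f ∨ f' = f * j h.t1 := by
  obtain ⟨g, rfl⟩ := w.rel n n'
  exact (k.spec.2 g fun a ha => (w.cent (c a ha)).1 (c' a ha)).imp (fun e => by rw [e, map_one, mul_one])
    fun e => by rw [e]

theorem pu {f g : X} (n : f ∉ j.range) (c : ∀ a ∈ K, Commute f (j a)) (hg : Commute g (j h.t1)) :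
    g * f * g⁻¹ = f ∨ g * f * g⁻¹ = f * j h.t1 :=
  w.two k n c (w.cj_out n g) fun a ha => by
    obtain ⟨b, hb, e⟩ := w.normK k hg.inv_left ha
    rw [cj_inv e, inv_inv]
    exact commute_cj.2 (c b hb)

end XX

/-- The transposition `f` with its conjugates under the normalizer of `A`. -/
structure FX {H G X : Type*} [Group H] [Group G] [Group X] {i : H →* G} {Q : Subgroup H} {z : H} {π : H → V}
    {ρ : H →* L2} {x : H} {s : V → H} {τ : ℕ → H} (h : GX i Q z π ρ x s τ) (K : Subgroup G) (j : G →* X) (f : X) :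
    Prop where
  out : f ∉ j.range
  sq : f * f = 1
  cK : ∀ a ∈ K, Commute f (j a)
  act : ∀ m σ, h.TH m σ → j m * f * (j m)⁻¹ = f * j (h.dd (pt 0) (σ (pt 0)))

theorem XX.exists_FX {H G X : Type*} [Group H] [Group G] [Group X] [Finite G] {i : H →* G} {Q : Subgroup H} {z : H}
    {j : G →* X} (w : XX i Q z j) {π : H → V} {ρ : H →* L2} {x : H} {s : V → H} {τ : ℕ → H} {h : GX i Q z π ρ x s τ}
    {K : Subgroup G} (k : h.KS K) : ∃ f, FX h K j f := by
  obtain ⟨σ, b, b0, b1, b2⟩ := m24_three (a := pt 0) (b := pt 1) (c := pt 2) (a' := pt 0) (b' := pt 2) (c' := pt 1)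
    (by decide) (by decide)
  obtain ⟨m, b⟩ := h.TH_surj b
  have m1 : m * h.t1 * m⁻¹ = h.t2 := by rw [b.dd, b0, b1]
  have m2 : m * h.t2 * m⁻¹ = h.t1 := by rw [b.dd, b0, b2]
  have n12 : h.t1 * h.t2 ≠ 1 := h.t12 ▸ (h.dd_cls (by decide)).1
  obtain ⟨f, n, sq, c, cm⟩ : ∃ f ∉ j.range, f * f = 1 ∧ (∀ a ∈ K, Commute f (j a)) ∧ Commute f (j m) := by
    obtain ⟨f, n, c⟩ := w.exists_f0 k
    obtain ⟨e, e1⟩ := w.rel n (w.cj_out n (j m))
    have ce : ∀ a ∈ h.KG, Commute e a := fun a ha => (w.cent (c a (k.KG_le ha))).1 (by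
      have := h.mem_KG'.1 ha
      rw [← e1, show a = m * (m⁻¹ * a * m⁻¹⁻¹) * m⁻¹ by group, map_mul, map_mul j m, map_inv]
      exact commute_cj.2 (c _ (k.KG_le (h.mem_KG'.2 ⟨cj_inv m1 ▸ commute_cj.2 this.2, cj_inv m2 ▸ commute_cj.2 this.1⟩))))
    have he := h.mem_KG'.2 ⟨ce _ (h.A_le (h.dd_mem ..)), ce _ (h.A_le (h.dd_mem ..))⟩
    have he' := (h.mem_EG (g := e)).1 (h.KG_spec.2.1.le (mem_center_iff.2 fun a => Subtype.ext (ce a a.2).symm : (⟨e, he⟩ : h.KG) ∈ _))
    have fe := c e (k.KG_le he)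
    have e2 : e * (m * e * m⁻¹) = 1 := w.inj (mul_left_cancel (a := f) (by
      have := c _ (k.M0_le ⟨_, b.mul b, by rw [Perm.mul_apply, b0, b0], by rw [Perm.mul_apply, b1, b2]⟩)
      rw [map_one, mul_one, map_mul, map_mul, map_mul, map_inv, ← mul_assoc f, ← e1, conj_mul, ← e1]
      refine Eq.trans ?_ (conj_eq_iff_commute.2 this.symm)
      rw [map_mul]; group))
    have ct : Commute h.t1 h.t2 := h.dd_comm ..
    have sq : f * f = 1 := by
      obtain ⟨g, e3⟩ := (mul_mem_iff_of_index_two w.idx).2 (iff_of_false n n)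
      rcases k.spec.2 g fun a ha => w.comm.1 (e3 ▸ (c a ha).mul_left (c a ha)) with rfl | rfl
      · rw [← e3, map_one]
      · have e4 : e * e = 1 := by
          rcases he' with (e | e) | e | e <;> rw [show _ = _ from e]
          exacts [one_mul _, h.dd_sq .., h.dd_sq .., h.t12 ▸ h.dd_sq ..]
        refine absurd (h.dd_inj (a := pt 0) (b := pt 1) (by decide) (m1.symm.trans (w.inj ?_))) (by decide)
        rw [map_mul, map_mul, map_inv, e3, ← conj_mul, e1, mul_assoc, ← mul_assoc (j e), ← fe.eq, mul_assoc, ← map_mul, e4,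
          map_one, mul_one]
    rcases he' with (e3 | e3) | e3 | e3 <;> obtain rfl : e = _ := e3
    · exact ⟨f, n, sq, c, (conj_eq_iff_commute.1 (by rw [e1, map_one, mul_one])).symm⟩
    · exact absurd (m1 ▸ e2) n12
    · exact absurd (ct.eq.trans (m2 ▸ e2)) n12
    · have ft := c _ k.t1_mem
      refine ⟨_, XX.out_mul n h.t1, by rw [mul_assoc, ← mul_assoc (j _), ← ft.eq, mul_assoc, ← map_mul, h.dd_sq, map_one,
        mul_one, sq], fun a ha => (c a ha).mul_left ((k.comm ha).symm.map j), (conj_eq_iff_commute.1 ?_).symm⟩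
      rw [← conj_mul, e1, ← map_inv, ← map_mul, ← map_mul, m1, mul_assoc, ← map_mul, mul_assoc, h.dd_sq, mul_one]
  have mv : ∀ p, p ≠ pt 0 → ∃ u σ, h.TH u σ ∧ σ (pt 0) = pt 0 ∧ σ (pt 1) = p ∧ Commute f (j u) := fun p hp => by
    by_cases e : p = pt 1
    · exact ⟨1, 1, h.TH_one.2 (one_mem _), rfl, e.symm, by rw [map_one]; exact Commute.one_right f⟩
    obtain ⟨σ', a, a0, a1, a2⟩ := m24_three (a := pt 0) (b := pt 1) (c := pt 2) (a' := pt 0) (b' := pt 1) (c' := p)
      (by decide) (by simp [hp.symm, Ne.symm e]; decide)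
    obtain ⟨u, a⟩ := h.TH_surj a
    exact ⟨_, _, a.mul b, by rw [Perm.mul_apply, b0, a0], by rw [Perm.mul_apply, b1, a2],
      map_mul j _ _ ▸ (c u (k.M0_le ⟨_, a, a0, a1⟩)).mul_right cm⟩
  have fx : ∀ u σ, h.TH u σ → σ (pt 0) = pt 0 → Commute f (j u) := fun u σ a a0 => by
    obtain ⟨u', σ', a', e0, e1, c'⟩ := mv (σ (pt 1)) (by rw [← a0]; exact σ.injective.ne (by decide))
    have := c'.mul_right (c _ (k.M0_le ⟨_, a'.inv.mul a, by rw [Perm.mul_apply, a0, Perm.inv_eq_iff_eq, e0],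
      by rw [Perm.mul_apply, Perm.inv_eq_iff_eq, e1]⟩))
    rwa [← map_mul, mul_inv_cancel_left] at this
  obtain ⟨m', σ', d, d0, d1, d2⟩ := h.exists_swap
  have c' := (d.comm (by decide)).2 (.inr ⟨d0, d1⟩)
  have e := (w.pu k n c (c'.map j)).resolve_left fun e => w.not_cent h n fun g hg => by
    by_cases a : g ∈ K
    · exact c g a
    have := (c _ ((k.mul_iff hg c').2 (iff_of_false a (k.swap c' (by rw [d.dd, d0, d2, h.t12]))))).mul_right
      (conj_eq_iff_commute.1 e).symm.inv_right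
    rwa [map_mul, mul_inv_cancel_right] at this
  refine ⟨f, n, sq, c, fun u σ a => ?_⟩
  by_cases a0 : σ (pt 0) = pt 0
  · rw [a0, h.dd_self, map_one, mul_one, conj_eq_iff_commute.2 (fx u σ a a0).symm]
  obtain ⟨u', σ'', a', e0, e1, c''⟩ := mv _ a0
  have := fx _ _ ((a'.mul d).inv.mul a) (by rw [Perm.mul_apply, Perm.inv_eq_iff_eq, Perm.mul_apply, d0, e1])
  rw [show h.dd (pt 0) (σ (pt 0)) = u' * h.t1 * u'⁻¹ by rw [a'.dd, e0, e1],
    show j u * f * (j u)⁻¹ = j u' * (j m' * (j ((u' * m')⁻¹ * u) * f * (j ((u' * m')⁻¹ * u))⁻¹) * (j m')⁻¹) * (j u')⁻¹ by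
      rw [map_mul, map_inv, map_mul]; group, conj_eq_iff_commute.2 this.symm, e, ← conj_mul,
    conj_eq_iff_commute.2 c''.symm, map_mul, map_mul, map_inv]

end CA.U6
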