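/-
Extensions of degree two of groups of large Fischer type: the centralizer of the transposition.
-/
import Cfsg.Agent.U6.Ext
import Cfsg.Agent.Cov.G23
import Cfsg.Agent.Fi.IType23
import Cfsg.Agent.Fi3.Inv
import Cfsg.Agent.Fi3.Half

set_option autoImplicit false

namespace CA.U6

open Cfsg Cfsg.Agent Cfsg.Agent.Unit CA.M24 Subgroup CA.FG CA.Fi Equiv CA.FG.Comp

theorem normal_zpowers_cent {G : Type*} [Group G] (d : G) :
    ((zpowers d).subgroupOf (centralizer ({d} : Set G))).Normal := ⟨fun y hy g => by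
  change (g : G) * y * (g : G)⁻¹ ∈ zpowers d
  obtain ⟨n, e⟩ := mem_zpowers_iff.1 hy
  rwa [conj_eq_iff_commute.2 ((show d ^ n = (y : G) from e) ▸ Commute.zpow_right (mem_cent_iff.1 g.2) n)]⟩

theorem XX.of_type {G X : Type*} [Group G] [Group X] {z : G} {Q : Subgroup (centralizer ({z} : Set G))}
    (hF : generalizedFittingSubgroup _ = Q) {j : G →* X} (h1 : Function.Injective j) (h2 : j.range.index = 2)
    (h3 : ∀ g, (∀ q ∈ Q, Commute g (j q)) → g ∈ j.range) :
    XX (centralizer ({z} : Set G)).subtype Q ⟨z, mem_cent_iff.2 (Commute.refl z)⟩ j := by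
  refine ⟨h1, h2, fun a e q hq => ?_, h3⟩
  have m : ∀ b : G ≃* G, b z = z → ∀ c : centralizer ({z} : Set G), b c ∈ centralizer ({z} : Set G) := fun b e c =>
    mem_cent_iff.2 (by have := Commute.map (mem_cent_iff.1 c.2) b; rwa [e] at this)
  let b : centralizer ({z} : Set G) ≃* centralizer ({z} : Set G) :=
    ⟨⟨fun c => ⟨_, m a e c⟩, fun c => ⟨_, m a.symm (a.symm_apply_eq.2 e.symm) c⟩, fun c => Subtype.ext (a.symm_apply_apply _),
      fun c => Subtype.ext (a.apply_symm_apply _)⟩, fun _ _ => Subtype.ext (map_mul a _ _)⟩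
  exact ⟨b q, hF ▸ (Fstar_map_equiv b).le (mem_map_of_mem _ (hF ▸ hq)), rfl⟩

theorem XX.of_sub {X : Type*} [Group X] [Finite X] {G₀ : Subgroup X} (hidx : G₀.index = 2) {z : G₀}
    {Q : Subgroup (centralizer ({z} : Set G₀))} (hF : generalizedFittingSubgroup _ = Q) (hz : (⟨z, mem_cent_iff.2 (Commute.refl z)⟩ : centralizer ({z} : Set G₀)) ∈ Q)
    (hFX : (generalizedFittingSubgroup (centralizer ({(z : X)} : Set X))).map (Subgroup.subtype _) =
      (Q.map (Subgroup.subtype _)).map G₀.subtype) :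
    XX (centralizer ({z} : Set G₀)).subtype Q ⟨z, mem_cent_iff.2 (Commute.refl z)⟩ G₀.subtype :=
  XX.of_type hF (subtype_injective _) (by rwa [range_subtype]) fun g c => by
    obtain ⟨y, -, e⟩ := hFX.le (mem_map_of_mem _ (centralizer_Fstar_le (mem_cent_subgroup_iff.2 fun y hy => by
      obtain ⟨_, ⟨q, hq, rfl⟩, e⟩ := hFX.le (mem_map_of_mem _ hy)
      exact Subtype.ext (show Commute g y from (show _ = (y : X) from e) ▸ c q hq) :
        (⟨g, mem_cent_iff.2 (c _ hz)⟩ : centralizer ({(z : X)} : Set X)) ∈ _)))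
    exact ⟨y, e⟩

namespace FX

variable {H G X : Type*} [Group H] [Group G] [Group X] [Finite G] {i : H →* G} {Q : Subgroup H} {z : H} {π : H → V}
  {ρ : H →* L2} {x : H} {s : V → H} {τ : ℕ → H} {h : GX i Q z π ρ x s τ} {K : Subgroup G} {j : G →* X} {f : X}
  (F : FX h K j f) (w : XX i Q z j) (k : h.KS K)
include F

theorem fix {m : G} {σ : Perm Pt} (a : h.TH m σ) (e : σ (pt 0) = pt 0) : Commute f (j m) :=
  (conj_eq_iff_commute.1 (by rw [F.act m σ a, e, h.dd_self, map_one, mul_one])).symm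

theorem cA {a : G} (ha : a ∈ h.A) : Commute f (j a) := F.fix (h.TH_one.2 ha) rfl

theorem mem (p : Pt) : f * j (h.dd (pt 0) p) ∈ conjugatesOf f := by
  obtain ⟨σ, a, e, -⟩ : ∃ σ ∈ M24, σ (pt 0) = p ∧ _ := by
    by_cases e : p = pt 0
    · exact ⟨1, one_mem _, e.symm, trivial⟩
    obtain ⟨q, n⟩ : ∃ q, [p, pt 0, q].Nodup := by
      by_cases e' : p = pt 1
      · exact ⟨pt 2, by rw [e']; decide⟩
      · exact ⟨pt 1, by simp [e, e']; decide⟩
    obtain ⟨σ, a, e, -⟩ := m24_three (a := pt 0) (b := pt 1) (c := pt 2) (by decide) n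
    exact ⟨σ, a, e, trivial⟩
  obtain ⟨m, a⟩ := h.TH_surj a
  exact isConj_of (e ▸ F.act m σ a)

theorem mul (p q : Pt) : f * j (h.dd (pt 0) p) * (f * j (h.dd (pt 0) q)) = j (h.dd p q) := by
  rw [mul_assoc, ← mul_assoc (j _), ← (F.cA (h.dd_mem ..)).eq, mul_assoc, ← mul_assoc f, F.sq, one_mul, ← map_mul, h.dd_mul]

include w

theorem fus {a : G} (ha : a ∈ h.A) (c : IsConj f (f * j a)) : ∃ p, a = h.dd (pt 0) p := by
  obtain ⟨y, e⟩ := isConj_iff.1 c
  obtain ⟨g, e⟩ : ∃ g, j g * f * (j g)⁻¹ = f * j a := by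
    by_cases hy : y ∈ j.range
    · obtain ⟨g, rfl⟩ := hy
      exact ⟨g, e⟩
    · obtain ⟨g, e'⟩ := (mul_mem_iff_of_index_two w.idx).2 (iff_of_false hy F.out)
      exact ⟨g, by rw [e', ← e]; group⟩
  have h2 : IsPGrp 2 h.A := pGrp_of_card_eq_pow Nat.prime_two h.card_A
  obtain ⟨P, hP, e1⟩ := sylow_superset Nat.prime_two h2 (M := (centralizer {f * j a}).comap j) fun b hb =>
    mem_cent_iff.2 ((F.cA hb).mul_left ((commute_of_sq (h.A_sq a ha) (h.A_sq b hb) (h.A_sq _ (mul_mem ha hb))).map j)).symm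
  obtain ⟨c, hc, e2⟩ := sylow_Jsub Nat.prime_two hP (Q := h.A :^ g) (h2.map _) (by
    rintro _ ⟨b, hb, rfl⟩
    refine mem_cent_iff.2 (e ▸ ?_)
    change Commute (j (g * b * g⁻¹)) _
    rw [map_mul, map_mul, map_inv]
    exact commute_cj.2 (F.cA hb).symm)
  rw [← conjg_mul] at e2
  obtain ⟨σ, b⟩ := h.exists_TH (conjg_eq_self_iff.1 (h.wc P _ hP.pGrp e1 e2))
  refine ⟨σ (pt 0), w.inj (mul_left_cancel (a := f) ?_)⟩
  rw [← F.act _ σ b, ← conj_eq_iff_commute.2 (mem_cent_iff.1 hc), ← e, map_mul]; group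

theorem not_tz : ¬ IsConj (j h.t1) (j (i z)) := fun c => by
  obtain ⟨y, e⟩ := isConj_iff.1 c
  obtain ⟨g, e⟩ : ∃ g, j g * j h.t1 * (j g)⁻¹ = j (i z) := by
    by_cases hy : y ∈ j.range
    · obtain ⟨g, rfl⟩ := hy
      exact ⟨g, e⟩
    · obtain ⟨g, e'⟩ := (mul_mem_iff_of_index_two w.idx).2 (iff_of_false hy F.out)
      exact ⟨g, by rw [e', ← e]; nth_rw 2 [← conj_eq_iff_commute.2 (F.cA (h.dd_mem ..))]; group⟩
  exact (h.dd_cls (a := pt 0) (b := pt 1) (by decide)).2
    (isConj_of (k := g) (w.inj (by rw [map_mul, map_mul, map_inv, e]))).symm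

include k

theorem cent_iff {g : G} (c : Commute g h.t1) : Commute f (j g) ↔ g ∈ K := by
  refine ⟨fun e => by_contra fun n => ?_, F.cK g⟩
  obtain ⟨m, σ, d, d0, d1, d2⟩ := h.exists_swap
  have c' := (d.comm (by decide)).2 (.inr ⟨d0, d1⟩)
  have := e.inv_right.mul_right (F.cK _ ((k.mul_iff c c').2 (iff_of_false n (k.swap c' (by rw [d.dd, d0, d2, h.t12])))))
  rw [map_mul, inv_mul_cancel_left] at this
  have e := F.act m σ d
  rw [conj_eq_iff_commute.2 this.symm, d0, left_eq_mul, ← map_one j] at e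
  exact (h.dd_cls (by decide)).1 (w.inj e)

theorem y23 {Y : Type*} [Group Y] {r : Y →* G} (hr : Function.Injective r) (hY : ∀ g, g ∈ r.range ↔ Commute f (j g))
    {t : Y} (ht : r t = h.t1) : orderOf t = 2 ∧ IsQuasisimple (centralizer ({t} : Set Y)) ∧
    (∃ _ : ((zpowers t).subgroupOf (centralizer ({t} : Set Y))).Normal,
      (∃ E : Set (centralizer ({t} : Set Y) ⧸ (zpowers t).subgroupOf (centralizer ({t} : Set Y))),
        IsThreeTranspositionClass E ∧ IsOfTypeM22 _ E) ∧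
      ∃ d : centralizer ({t} : Set Y) ⧸ (zpowers t).subgroupOf (centralizer ({t} : Set Y)), orderOf d = 2 ∧
        IsQuasisimple (centralizer ({d} : Set _)) ∧ (∃ (F : Type) (_ : Field F) (_ : Fintype F), Fintype.card F = 4 ∧
          ∃ _ : ((zpowers d).subgroupOf (centralizer ({d} : Set _))).Normal,
            Nonempty (centralizer ({d} : Set _) ⧸ (zpowers d).subgroupOf (centralizer ({d} : Set _)) ≃* PSU 6 F 2)) ∧
        ∃ g, g * d * g⁻¹ ∈ centralizer ({d} : Set _) ∧ g * d * g⁻¹ ≠ d) ∧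
    (∃ g, g * t * g⁻¹ ∈ centralizer ({t} : Set Y) ∧ g * t * g⁻¹ ≠ t) ∧ IsThreeTranspositionClass (conjugatesOf t) ∧
    ∃ e, Loc.RG TC.X23 (conjugatesOf t) e := by
  haveI := Finite.of_injective r hr
  haveI hn := normal_zpowers_cent t
  have t2 : t * t = 1 := hr (by rw [map_mul, ht, h.dd_sq, map_one])
  have o : orderOf t = 2 := orderOf_two_of t2 fun e => (h.dd_cls (by decide)).1 (ht.symm.trans (by rw [e, map_one]))
  have cm : ∀ a b, Commute (r a) (r b) → Commute a b := fun a b c => hr (by rw [map_mul, map_mul]; exact c)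
  have e1 : (r.comp (centralizer ({t} : Set Y)).subtype).range = K := Subgroup.ext fun g => ⟨by
      rintro ⟨y, rfl⟩
      exact (F.cent_iff w k (by rw [← ht]; exact Commute.map (mem_cent_iff.1 y.2) r)).1 ((hY _).1 ⟨_, rfl⟩), fun hg => by
      obtain ⟨y, rfl⟩ := (hY g).2 (F.cK g hg)
      exact ⟨⟨y, mem_cent_iff.2 (cm _ _ (by rw [ht]; exact k.comm hg))⟩, rfl⟩⟩
  have e2 : ∀ y : centralizer ({t} : Set Y), QuotientGroup.mk' ((zpowers t).subgroupOf _) y = 1 ↔
      (r.comp (centralizer ({t} : Set Y)).subtype) y = 1 ∨ (r.comp (centralizer ({t} : Set Y)).subtype) y = h.t1 := fun y =>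
    (QuotientGroup.eq_one_iff y).trans ((mem_zpowers_iff_of_sq (x := y.1) t2).trans
      (or_congr (map_eq_one_iff r hr).symm (hr.eq_iff' ht).symm))
  obtain ⟨d, o', q', φ, nw', ⟨e, hR⟩, cl, qs, -⟩ := k.quot (j := r.comp (centralizer ({t} : Set Y)).subtype)
    (hr.comp (subtype_injective _)) e1 (QuotientGroup.mk'_surjective _) e2
  have nw : ∃ g, g * t * g⁻¹ ∈ centralizer ({t} : Set Y) ∧ g * t * g⁻¹ ≠ t := by
    obtain ⟨σ, b, b0, b1, -⟩ := m24_three (a := pt 0) (b := pt 1) (c := pt 2) (a' := pt 0) (b' := pt 2) (c' := pt 1)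
      (by decide) (by decide)
    obtain ⟨m, b⟩ := h.TH_surj b
    obtain ⟨y, rfl⟩ := (hY m).2 (F.fix b b0)
    have e : r (y * t * y⁻¹) = h.t2 := by rw [map_mul, map_mul, map_inv, ht, b.dd, b0, b1]
    exact ⟨y, mem_cent_iff.2 (cm _ _ (by rw [e, ht]; exact h.dd_comm ..)), fun a =>
      absurd (h.dd_inj (a := pt 0) (b := pt 1) (by decide) (e.symm.trans (by rw [a, ht]))) (by decide)⟩
  have m := TC.type22_of_real hR.toReal hR.gen hR.ctr
  obtain ⟨e', h1, h2, h3⟩ := Cov.real_of_cent23 o qs ⟨_, cl, m⟩ nw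
  exact ⟨o, qs, ⟨hn, ⟨_, cl, m⟩, d, o', q', ⟨F4, inferInstance, inferInstance, card_F4, φ⟩, nw'⟩, nw, h2, e', h1, h2.2.2, h3⟩

theorem loc : ∃ e, TC.Real TC.X23 (TC.nb (conjugatesOf f) f) e := by
  let Y := (centralizer {f}).comap j
  have hY : ∀ g, g ∈ Y ↔ Commute f (j g) := fun g => mem_cent_iff.trans Commute.symm_iff
  let d : Pt → Y := fun p => ⟨h.dd (pt 0) p, (hY _).2 (F.cA (h.dd_mem ..))⟩
  obtain ⟨-, -, -, -, cl, e, hR⟩ := F.y23 w k (r := Y.subtype) (subtype_injective _)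
    (fun g => by rw [range_subtype, hY]) (t := d (pt 1)) rfl
  let r := j.comp Y.subtype
  have hr : Function.Injective r := w.inj.comp (subtype_injective _)
  have c : ∀ y, Commute f (r y) := fun y => (hY _).1 y.2
  have cj : ∀ y u, r u * (f * r y) * (r u)⁻¹ = f * r (u * y * u⁻¹) := fun y u => by
    rw [← conj_mul, conj_eq_iff_commute.2 (c u).symm, map_mul, map_mul, map_inv]
  have md : ∀ p, p ≠ pt 0 → d p ∈ conjugatesOf (d (pt 1)) := fun p hp => by
    obtain ⟨q, n⟩ : ∃ q, [pt 0, p, q].Nodup := by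
      by_cases e' : p = pt 1
      · exact ⟨pt 2, by rw [e']; decide⟩
      · exact ⟨pt 1, by simp [hp.symm, e']; decide⟩
    obtain ⟨σ, a, e0, e1, -⟩ := m24_three (a := pt 0) (b := pt 1) (c := pt 2) (by decide) n
    obtain ⟨m, a⟩ := h.TH_surj a
    exact isConj_of (k := ⟨m, (hY _).2 (F.fix a e0)⟩) (Subtype.ext (by
      change m * h.dd _ _ * m⁻¹ = h.dd _ _
      rw [a.dd, e0, e1]))
  have := Fi3.real_twist (hR.toReal.map r hr.injOn) (z := f) (by rintro _ ⟨y, -, rfl⟩; exact c y) F.sq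
  suffices e : (· * f) '' (r '' conjugatesOf (d (pt 1))) = TC.nb (conjugatesOf f) f from ⟨_, e ▸ this⟩
  refine Set.ext fun y => ⟨?_, ?_⟩
  · rintro ⟨_, ⟨y, hy, rfl⟩, rfl⟩
    obtain ⟨u, rfl⟩ := isConj_iff.1 hy
    refine ⟨?_, fun a => ?_, (c _).mul_right (Commute.refl f)⟩
    · change IsConj f (_ * f)
      rw [← (c _).eq, ← cj]
      exact IsConj.trans (F.mem (pt 1)) (isConj_of rfl)
    · have := (cl.1.1 _ hy)
      rw [hr ((mul_eq_right.1 a).trans (map_one r).symm), orderOf_one] at this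
      cases this
  · rintro ⟨y1, y2, y3⟩
    obtain ⟨g, rfl⟩ := w.rel F.out (show y ∉ j.range by
      obtain ⟨u, rfl⟩ := isConj_iff.1 y1
      exact w.cj_out F.out u)
    have cg : Commute f (j g) := by simpa using (Commute.refl f).inv_right.mul_right y3
    let u : Y := ⟨g, (hY g).2 cg⟩
    have sq : u * u = 1 := hr (by
      obtain ⟨v, e⟩ := isConj_iff.1 y1
      have := congrArg (fun a => a * a) e
      simp only [conj_mul, F.sq, mul_one, mul_inv_cancel] at this
      rw [mul_assoc, ← mul_assoc (j g), ← cg.eq, mul_assoc, ← mul_assoc, F.sq, one_mul] at this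
      rw [map_mul, map_one]; exact this.symm)
    obtain ⟨m, hm, l, l1, l2, l3, l4, l5⟩ := Fi3.pf23 hR cl.1 sq
    have inj : ∀ p q, d p = d q → p ≠ pt 0 → p = q := fun p q a n =>
      ((h.dd_inj n.symm (congrArg Subtype.val a).symm).resolve_right fun a => n a.1.symm).2.symm
    have cl3 : Fi3.CL (conjugatesOf (d (pt 1))) [d (pt 1), d (pt 2), d (pt 3)] := Fi3.cl_three.2
      ⟨md _ (by decide), md _ (by decide), md _ (by decide), fun a => absurd (inj _ _ a (by decide)) (by decide),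
        fun a => absurd (inj _ _ a (by decide)) (by decide), fun a => absurd (inj _ _ a (by decide)) (by decide),
        Subtype.ext (h.dd_comm ..), Subtype.ext (h.dd_comm ..), Subtype.ext (h.dd_comm ..)⟩
    obtain ⟨v, -, e⟩ := Fi3.tr23 hR.toReal l ([d (pt 1), d (pt 2), d (pt 3)].take m) ⟨l1, l3, l4⟩
      (cl3.sub (List.take_sublist ..)) (by rw [l2, List.length_take]; exact (min_eq_left hm).symm) (by omega)
    have e1 : v * u * v⁻¹ = ([d (pt 1), d (pt 2), d (pt 3)].take m).prod := by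
      rw [← l5, ← e]; exact map_list_prod (MulAut.conj v) l
    have e2 : IsConj f (f * r (v * u * v⁻¹)) := y1.trans (isConj_of (cj u v))
    rw [e1] at e2
    interval_cases m
    · refine absurd ?_ y2
      rw [show j g = r u from rfl, cj_inv e1]; simp
    · exact ⟨_, ⟨u, (isConj_of (e1.trans (mul_one _))).symm, rfl⟩, cg.symm⟩
    · obtain ⟨p, e⟩ := F.fus w (a := h.dd (pt 1) (pt 2)) (h.dd_mem ..) (by
        rw [← h.dd_mul (pt 0), ← mul_one (h.dd (pt 0) (pt 2))]; exact e2)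
      rcases h.dd_inj (by decide) e.symm with a | a <;> exact absurd a.1 (by decide)
    · have e3 : i z = h.dd (pt 0) (pt 1) * (h.dd (pt 0) (pt 2) * h.dd (pt 0) (pt 3)) := by
        rw [h.dd_mul, h.z_du, h.du_dd (by norm_num) (by norm_num), h.du_dd (by norm_num) (by norm_num)]
      obtain ⟨p, e⟩ := F.fus w h.z_mem_A (by rw [e3, ← mul_one (h.dd (pt 0) (pt 3))]; exact e2)
      by_cases a : pt 0 = p
      · exact absurd (e.trans (a ▸ h.dd_self _)) h.gs.le.z_ne
      · exact absurd (e ▸ IsConj.refl _) (h.dd_cls a).2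

end FX

end CA.U6
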