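/-
Extensions of degree two of groups of large Fischer type are of type `M(24)`.
-/
import Cfsg.Agent.U6.Y23
import Cfsg.Agent.U6.F24
import Cfsg.Agent.Fi.IType24

set_option autoImplicit false

namespace CA.U6

open Cfsg Cfsg.Agent Cfsg.Agent.Unit CA.M24 Subgroup CA.FG CA.Fi Equiv CA.FG.Comp

namespace FX

variable {H G X : Type*} [Group H] [Group G] [Group X] [Finite G] {i : H →* G} {Q : Subgroup H} {z : H} {π : H → V}
  {ρ : H →* L2} {x : H} {s : V → H} {τ : ℕ → H} {h : GX i Q z π ρ x s τ} {K : Subgroup G} {j : G →* X} {f : X}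
  (F : FX h K j f) (w : XX i Q z j) (k : h.KS K)
include F w k

theorem rg23 : ∃ (t : (centralizer {f}).comap j) (e : _), t = h.t1 ∧ Loc.RG TC.X23 (conjugatesOf t) e := by
  have hY : ∀ g, g ∈ (centralizer {f}).comap j ↔ Commute f (j g) := fun g => mem_cent_iff.trans Commute.symm_iff
  obtain ⟨-, -, -, -, -, e, hR⟩ := F.y23 w k (r := ((centralizer {f}).comap j).subtype) (subtype_injective _)
    (fun g => by rw [range_subtype, hY]) (t := ⟨_, (hY _).2 (F.cA (h.dd_mem ..))⟩) rfl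
  exact ⟨_, e, rfl, hR⟩

omit k in
theorem ne {p q : Pt} (n : p ≠ q) : f * j (h.dd (pt 0) p) ≠ f * j (h.dd (pt 0) q) := fun e =>
  (h.dd_cls n).1 (w.inj (by rw [← F.mul, e, F.mul, h.dd_self]))

theorem ev {g : X} (hg : g ∈ j.range) (c : Commute g f) (a : ∀ a ∈ TC.nb (conjugatesOf f) f, Commute g a) : g = 1 := by
  obtain ⟨g, rfl⟩ := hg
  obtain ⟨t, e, ht, hR⟩ := F.rg23 w k
  have c' : ∀ y ∈ conjugatesOf t, Commute g y := fun y hy => w.comm.1 (by
    obtain ⟨u, rfl⟩ := isConj_iff.1 hy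
    have cu := mem_cent_iff.1 u.2
    have e : j u * (f * j h.t1) * (j u)⁻¹ = f * j (u * t * u⁻¹ :) := by
      rw [← conj_mul, conj_eq_iff_commute.2 cu, ← map_inv, ← map_mul, ← map_mul, ← ht]; rfl
    have := c.inv_right.mul_right (a _ ⟨IsConj.trans (F.mem (pt 1)) (isConj_of e), fun a =>
      F.ne w (p := pt 1) (q := pt 0) (by decide) ((cj_inj (e.trans (a.trans (conj_eq_iff_commute.2 cu).symm))).trans
        (by rw [h.dd_self, map_one, mul_one])),
      (Commute.refl f).mul_right (Commute.symm (mem_cent_iff.1 (u * t * u⁻¹).2))⟩)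
    rwa [inv_mul_cancel_left] at this)
  have : (⟨g, mem_cent_iff.2 c⟩ : (centralizer {f}).comap j) ∈ center _ := mem_center_iff.2 fun y =>
    Subtype.ext (mem_cent_iff.1 ((closure_le ((centralizer {g}).subgroupOf _)).2
      (fun y hy => mem_cent_iff.2 (c' y hy).symm) (hR.gen.ge (mem_top y))))
  rw [hR.ctr, mem_bot] at this
  rw [show g = 1 from congrArg Subtype.val this, map_one]

theorem p24 [Finite X] : P24 j.range (conjugatesOf f) := by
  obtain ⟨e, r⟩ := F.loc w k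
  have e0 : f = f * j (h.dd (pt 0) (pt 0)) := by rw [h.dd_self, map_one, mul_one]
  have e1 : f * (f * j h.t1) = j h.t1 := by rw [← mul_assoc, F.sq, one_mul]
  have c : ∀ p q, Commute (f * j (h.dd (pt 0) p)) (f * j (h.dd (pt 0) q)) := fun p q =>
    (F.mul p q).trans ((congrArg j (h.dd_symm ..)).trans (F.mul q p).symm)
  refine p24_of r (orderOf_two_of F.sq fun a => F.out (a ▸ one_mem _)) w.idx F.out (a := f * j h.t1) (b := f * j h.t2)
    (c := f * j (h.dd (pt 0) (pt 3))) ?_ (fun g c => w.pu k F.out F.cK (e1 ▸ c)) ?_ fun g => F.ev w k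
  · have : Fi3.CL (conjugatesOf f) ([pt 0, pt 1, pt 2, pt 3].map fun p => f * j (h.dd (pt 0) p)) :=
      ⟨List.Nodup.map (fun p q a => by_contra fun n => F.ne w n a) (by decide), List.forall_mem_map.2 fun p _ => F.mem p,
        List.forall_mem_map.2 fun p _ => List.forall_mem_map.2 fun q _ => c p q⟩
    rwa [List.map_cons, ← e0] at this
  · rw [e1, mul_assoc, F.mul, ← map_mul, GX.t1, ← h.du_dd (by norm_num) (by norm_num), ← h.du_dd (by norm_num) (by norm_num),
      ← h.z_du, h.du_dd (by norm_num) (by norm_num)]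
    exact F.not_tz w

theorem gen : closure (conjugatesOf f) = ⊤ := by
  have hn : (closure (conjugatesOf f)).Normal := by
    have := normalClosure_normal (s := {f})
    rwa [normalClosure, Group.conjugatesOfSet, Set.biUnion_singleton] at this
  have hf : f ∈ closure (conjugatesOf f) := subset_closure (IsConj.refl f)
  set M := (closure (conjugatesOf f)).comap j
  have hM : M.Normal := hn.comap j
  have hY : ∀ g, Commute f (j g) → g ∈ M := fun g c => by
    obtain ⟨t, e, ht, hR⟩ := F.rg23 w k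
    refine (closure_le (M.comap (Subgroup.subtype _))).2 (fun y hy => ?_) (hR.gen.ge (mem_top ⟨g, mem_cent_iff.2 c.symm⟩))
    obtain ⟨u, rfl⟩ := isConj_iff.1 hy
    exact hM.conj_mem t (ht ▸ (mul_mem_cancel_left hf).1 (subset_closure (F.mem (pt 1)))) u
  have tr : ∀ a b c d : Pt, a ≠ b → c ≠ d → ∃ u σ, h.TH u σ ∧ σ a = c ∧ σ b = d := fun a b c d n n' => by
    have t : ∀ a b : Pt, a ≠ b → ∃ c, [a, b, c].Nodup := fun a b n => by
      obtain ⟨c, -, e⟩ := Finset.exists_mem_notMem_of_card_lt_card (s := {a, b}) (t := {pt 0, pt 1, pt 2})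
        (by rw [Finset.card_pair n]; decide)
      exact ⟨c, by simp at e; simp [n, Ne.symm e.1, Ne.symm e.2]⟩
    obtain ⟨p, e⟩ := t a b n
    obtain ⟨q, e'⟩ := t c d n'
    obtain ⟨σ, a, e0, e1, -⟩ := m24_three e e'
    obtain ⟨u, a⟩ := h.TH_surj a
    exact ⟨u, σ, a, e0, e1⟩
  have h1 : ∀ m σ q, h.TH m σ → σ q = q → q ≠ pt 0 → m ∈ M := fun m σ q a e n => by
    obtain ⟨u, σ', b, e0, -⟩ := tr q _ _ _ n (show pt 0 ≠ pt 1 by decide)
    exact (hM.mem_comm_iff (a := u * m)).1 (hY _ (F.fix ((b.mul a).mul b.inv) (by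
      rw [Perm.mul_apply, Perm.mul_apply, Perm.inv_eq_iff_eq.2 e0.symm, e, e0]))) |> fun a => by simpa using a
  have h2 : ∀ m ∈ normalizer (h.A : Set G), m ∈ M := fun m hm => by
    obtain ⟨σ, a⟩ := h.exists_TH hm
    obtain ⟨q, n, n'⟩ : ∃ q, q ≠ pt 0 ∧ σ (pt 0) ≠ q := by
      by_cases e : σ (pt 0) = pt 1
      · exact ⟨pt 2, by decide, by rw [e]; decide⟩
      · exact ⟨pt 1, by decide, e⟩
    obtain ⟨u, σ', b, e0, e1⟩ := tr _ _ _ _ n.symm n'
    exact (mul_mem_cancel_left (inv_mem (h1 u σ' q b e1 n))).1 (hY _ (F.fix (b.inv.mul a) (by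
      rw [Perm.mul_apply, Perm.inv_eq_iff_eq, e0])))
  have h3 : ∀ g, g ∈ M := fun g => by
    have h2' : IsPGrp 2 h.A := pGrp_of_card_eq_pow Nat.prime_two h.card_A
    have hA : h.A ≤ M := fun a ha => h2 a (le_normalizer ha)
    obtain ⟨P, hP, e1⟩ := sylow_superset Nat.prime_two h2' hA
    obtain ⟨c, hc, e2⟩ := sylow_Jsub Nat.prime_two hP (Q := h.A :^ g) (h2'.map _) (by
      rintro _ ⟨b, hb, rfl⟩
      exact hM.conj_mem b (hA hb) g)
    rw [← conjg_mul] at e2
    exact (mul_mem_cancel_left hc).1 (h2 _ (conjg_eq_self_iff.1 (h.wc P _ hP.pGrp e1 e2)))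
  refine (eq_top_iff' _).2 fun y => ?_
  by_cases hy : y ∈ j.range
  · obtain ⟨g, rfl⟩ := hy
    exact h3 g
  · obtain ⟨g, rfl⟩ := w.rel F.out hy
    exact mul_mem hf (h3 g)

end FX

theorem XX.main {G X : Type*} [Group G] [Group X] [Finite X] {z : G} {Q : Subgroup (centralizer ({z} : Set G))}
    [Q.Normal] (hF : IsOfLargeFischerTypeAt z Q) {j : G →* X}
    (w : XX (centralizer ({z} : Set G)).subtype Q ⟨z, mem_cent_iff.2 (Commute.refl z)⟩ j) :
    ∃ (D : Set X) (e : ℕ → X), Loc.RG TC.X24 D e ∧ IsThreeTranspositionClass D := by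
  haveI := Finite.of_injective j w.inj
  obtain ⟨π, ρ, x, s, τ, h⟩ := exists_GX' hF
  obtain ⟨K, k⟩ := h.exists_KS
  obtain ⟨f, F⟩ := w.exists_FX k
  obtain ⟨tt, e, r⟩ := (F.p24 w k).real (IsConj.refl f)
  exact ⟨_, e, ⟨r, F.gen w k, eq_bot_iff.2 fun c hc => F.ev w k (w.cq c fun _ _ => (mem_center_iff.1 hc _).symm)
    (mem_center_iff.1 hc _).symm fun _ _ => (mem_center_iff.1 hc _).symm⟩, tt, ⟨f, IsConj.refl f, rfl⟩, F.gen w k⟩

end CA.U6
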