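import Cfsg.Agent.U6.Setup

/-! Groups of large Fischer type: the conjugates of the central involution inside the extraspecial subgroup. -/

set_option autoImplicit false

namespace CA.U6

open Cfsg Cfsg.Agent Cfsg.Agent.Unit CA.M24 Subgroup Equiv CA.FG CA.Fi

abbrev A6 : Type := alternatingGroup (Fin 6)

theorem A6_pow (a : A6) : a ^ 4 = 1 ∨ a ^ 3 = 1 ∨ a ^ 5 = 1 := by
  have : ∀ π : Perm (Fin 6), Perm.sign π = 1 → π ^ 4 = 1 ∨ π ^ 3 = 1 ∨ π ^ 5 = 1 := by decide +kernel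
  exact (this a a.2).imp Subtype.ext (Or.imp Subtype.ext Subtype.ext)

theorem A6_two {N : Subgroup A6} (hn : N.Normal) (h : IsPGroup 2 N) : N = ⊥ := by
  haveI := alternatingGroup.isSimpleGroup (α := Fin 6) (by simp)
  refine (hn.eq_bot_or_eq_top).resolve_right fun e => ?_
  haveI := Fact.mk Nat.prime_two
  obtain ⟨n, e'⟩ := IsPGroup.iff_card.1 h
  rw [e, card_top, card_A6] at e'
  exact absurd (Nat.prime_three.dvd_of_dvd_pow (e' ▸ (by norm_num : 3 ∣ 360))) (by norm_num)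

theorem A6_quot {Y : Type*} [Group Y] {E X : Subgroup Y} [hn : (E.subgroupOf X).Normal] (h2 : IsPGroup 2 E)
    {α : A6 →* Y} (hα : Function.Injective α) (hX : ∀ a, α a ∈ X) :
    Function.Injective ((QuotientGroup.mk' (E.subgroupOf X)).comp (α.codRestrict X hX)) := by
  rw [← MonoidHom.ker_eq_bot_iff]
  refine A6_two inferInstance ?_
  rw [← MonoidHom.comap_ker, QuotientGroup.ker_mk']
  exact h2.comap_of_injective α hα

/-- the permutation matrices conjugated by a diagonal matrix -/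
def al (c : F4ˣ) : A6 →* L2 := io.comp ((MulAut.conj (dl c)).toMonoidHom.comp (pm.comp (Subgroup.subtype _)))

theorem al_injective (c : F4ˣ) : Function.Injective (al c) :=
  io_injective.comp ((MulAut.conj (dl c)).injective.comp (pm_injective.comp (subtype_injective _)))

theorem al_mem (c : F4ˣ) (a : A6) : al c a ∈ KK := by
  refine mem_map_of_mem io (Mon_alt_le ⟨Pi.mulSingle 0 c * (Pi.mulSingle 0 c)⁻¹ ∘ ⇑a.1⁻¹, ?_, a, a.2, ?_⟩)
  · simp only [Pi.mul_apply, Finset.prod_mul_distrib]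
    rw [show ∏ i, ((Pi.mulSingle 0 c)⁻¹ ∘ ⇑a.1⁻¹) i = _ from Equiv.prod_comp a.1⁻¹ (Pi.mulSingle 0 c)⁻¹]
    simp
  · show dg _ * pm a * (dg _)⁻¹ = _
    rw [← map_inv, mul_assoc, pm_dg, map_mul, mul_assoc]

theorem al_fix (c : F4ˣ) (a : A6) : al c a ((dl c).1 (vec 63)) = (dl c).1 (vec 63) := by
  show (dl c).1 ((pm a).1 ((dl c)⁻¹.1 ((dl c).1 (vec 63)))) = _
  rw [UG.inv_apply_self, show vec 63 = fun _ => 1 by decide]
  rfl

theorem al_fix63 (a : A6) : al 1 a (vec 63) = vec 63 := by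
  have := al_fix 1 a
  rwa [show (dl 1).1 (vec 63) = vec 63 from funext fun i => by rw [dl, dg_apply]; revert i; decide] at this

theorem al_fix126 (a : A6) : al omU a (vec 126) = vec 126 := by
  have := al_fix omU a
  rwa [show (dl omU).1 (vec 63) = vec 126 from funext fun i => by rw [dl, dg_apply]; revert i; decide] at this

theorem vec63_mem : vec 63 ∈ cs 5 := (vec_mem_cs (by norm_num)).2 (by decide +kernel)

theorem vec126_mem : vec 126 ∈ cs 26 := (vec_mem_cs (by norm_num)).2 (by decide +kernel)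

/-! ### Words in transvections -/

def tvW (l : List ℕ) : ℕ :=
  List.rec (motive := fun _ => ℕ) one (fun a _ ih => force ih fun b => mk fun i => force (col b i) (tvN a)) l

def okW (l : List ℕ) : Bool := allL (fun a => band (blt' a (nat_lit 4096)) (tb (nat_lit 5) (clN a))) l

def evn (l : List ℕ) : Bool := List.rec (motive := fun _ => Bool) true (fun _ _ ih => bnot ih) l

theorem mul_mem_K0 {a b : UU} (ha : a ∈ G0) (hb : b ∈ G0) : a * b ∈ K0 ↔ (a ∈ K0 ↔ b ∈ K0) :=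
  mul_mem_iff_of_index_two (H := K0.subgroupOf G0) relIndex_K0 (a := ⟨a, ha⟩) (b := ⟨b, hb⟩)

theorem Rep.basis {g : V → V} {c i : ℕ} (h : Rep g c) (hi : i < 12) : g (vec (2 ^ i)) = vec (col c i) := by
  rw [h _ (Nat.pow_lt_pow_right one_lt_two hi), vec_app, Finset.sum_eq_single ⟨i, hi⟩]
  · simp [bt]
  · intro j _ hj
    rw [bt, Nat.testBit_two_pow_of_ne fun e => hj (Fin.ext e.symm)]
    simp
  · simp

theorem tvW_cons (a : ℕ) (l : List ℕ) : tvW (a :: l) = mk fun i => tvN a (col (tvW l) i) := by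
  rw [show tvW (a :: l) = force (tvW l) fun b => mk fun i => force (col b i) (tvN a) from rfl]
  simp only [force_eq]

theorem tvW_spec {l : List ℕ} (h : okW l = true) : ∃ k ∈ G0, Rep (io k) (tvW l) ∧ (k ∈ K0 ↔ evn l = true) := by
  induction l with
  | nil => exact ⟨1, one_mem _, rep_one, iff_of_true (one_mem _) rfl⟩
  | cons a l ih =>
    simp only [okW, allL_eq_true, List.forall_mem_cons, band_eq_true, blt'_eq_true] at h ih
    obtain ⟨k, hk, r, e⟩ := ih h.2
    have ha := (vec_mem_cs h.1.1).2 h.1.2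
    refine ⟨tvV (vec a) * k, mul_mem (tvV_mem_G0 ha) hk, rep_of_basis fun i hi => ?_, ?_⟩
    · rw [tvW_cons, col_mk (fun j _ => tvN_lt h.1.1 (col_lt ..)) i hi, vec_tvN h.1.1, map_mul,
        LinearEquiv.mul_apply, r.basis hi, io_apply, tvV_apply (mem_cs31.1 (cs_subset (by norm_num) ha)).2]
    · rw [mul_mem_K0 (tvV_mem_G0 ha) hk, e, iff_false_left (tvV_not_mem ha)]
      exact bnot_eq_true.symm

def sigc : ℕ := mk fun i => cj (Nat.shiftLeft (nat_lit 1) i)

theorem rep_sig : Rep sig sigc := rep_mk fun _ h => ⟨cj_lt h, (vec_cj h).symm⟩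

def omc : ℕ := mk fun i => om (Nat.shiftLeft (nat_lit 1) i)

theorem rep_om : Rep (io (sc omU)) omc := rep_mk fun _ h => ⟨om_lt h, (vec_om h).symm⟩

/-- a semilinear reflection -/
noncomputable def yy : L2 := io (tvV (vec 63)) * sig

def wH (l : List ℕ) : ℕ := force (tvW l) fun c => bif' (evn l) c (cmul c sigc)

theorem inH_wH {R : Subgroup L2} (h1 : KK ≤ R) (h2 : yy ∈ R) {l : List ℕ} (h : okW l = true) : InH R (wH l) := by
  obtain ⟨k, hk, r, e⟩ := tvW_spec h
  rw [wH, force_eq]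
  cases hl : evn l
  · rw [bif'_false]
    refine ⟨_, ?_, r.mul rep_sig⟩
    have := mul_mem (h1 (mem_map_of_mem io ((mul_mem_K0 hk (tvV_mem_G0 vec63_mem)).2
      (iff_of_false (by simp [e, hl]) (tvV_not_mem vec63_mem))))) h2
    rwa [yy, ← mul_assoc, ← map_mul, mul_assoc k, tvV_sq, mul_one] at this
  · rw [bif'_true]
    exact ⟨_, h1 (mem_map_of_mem io (e.2 hl)), r⟩

theorem inK_tvW {l : List ℕ} (h : okW l = true) (h' : evn l = true) : InH KK (tvW l) := by
  obtain ⟨k, -, r, e⟩ := tvW_spec h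
  exact ⟨_, mem_map_of_mem io (e.2 h'), r⟩

def itr (c m k : ℕ) : ℕ := Nat.rec (motive := fun _ => ℕ) m (fun _ ih => force ih (app c)) k

theorem Rep.pow_apply {g : L2} {c m : ℕ} (h : Rep g c) (hm : m < 4096) (k : ℕ) :
    itr c m k < 4096 ∧ (g ^ k) (vec m) = vec (itr c m k) := by
  induction k with
  | zero => exact ⟨hm, rfl⟩
  | succ k ih =>
    rw [pow_succ', LinearEquiv.mul_apply, ih.2, h _ ih.1, show itr c m (k + 1) = app c (itr c m k) from force_eq ..]
    exact ⟨app_lt .., rfl⟩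

theorem Rep.pow_ne {g : L2} {c m k : ℕ} (h : Rep g c) (hm : m < 4096) (e : itr c m k ≠ m) : g ^ k ≠ 1 := fun H =>
  e (vec_inj (h.pow_apply hm k).1 hm (by rw [← (h.pow_apply hm k).2, H]; rfl))

/-! ### The intersection of a conjugate of `Q` with the centralizer -/

/-- the part of a conjugate of `Q` inside the centralizer -/
structure PS {H : Type*} [Group H] (Q : Subgroup H) (z s : H) (P : Subgroup H) : Prop where
  s_mem : s ∈ Q
  ne1 : s ≠ 1
  nez : s ≠ z
  ssq : s * s = 1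
  card : Nat.card P = 2 ^ 12
  sP : s ∈ P
  zP : z ∈ P
  comm : ∀ x ∈ P, Commute x s
  cm : ∀ x ∈ P, ∀ y ∈ P, Commute x y ∨ x * y = y * x * s
  sq : ∀ x ∈ P, x * x = 1 ∨ x * x = s
  norm : ∀ c, Commute c s → ∀ x ∈ P, c * x * c⁻¹ ∈ P

theorem commute_of_sq {G : Type*} [Group G] {a b : G} (ha : a * a = 1) (hb : b * b = 1)
    (h : a * b * (a * b) = 1) : Commute a b := by
  rw [Commute, SemiconjBy, ← inv_eq_of_mul_eq_one_left h, mul_inv_rev, inv_eq_of_mul_eq_one_left ha,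
    inv_eq_of_mul_eq_one_left hb]

theorem card_le_of_sq {G : Type*} [Group G] {Q E : Subgroup G} {z : G} [Finite G] (h : ES Q z) (hE : E ≤ Q)
    (hz : z ∈ E) (hs : ∀ e ∈ E, e * e = 1) (hc : Nat.card Q = 2 ^ 13) : Nat.card E ≤ 2 ^ 7 := by
  have h1 := h.card_mul_card_cent hE hz
  have h3 := card_le_of_le (show E ≤ Q ⊓ centralizer (E : Set G) from fun x hx => ⟨hE hx,
    mem_cent_subgroup_iff.2 fun y hy => commute_of_sq (hs x hx) (hs y hy) (hs _ (mul_mem hx hy))⟩)
  rw [hc] at h1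
  nlinarith

namespace FS

variable {H : Type*} [Group H] {Q P : Subgroup H} {z s : H} {π : H → V} {ρ : H →* L2} (h : FS Q z π ρ)
include h

theorem map_cent {x : H} (hx : x ∈ Q) (h0 : π x ≠ 0) :
    (centralizer {x}).map ρ = (MulAction.stabilizer ρ.range (π x)).map ρ.range.subtype := by
  refine le_antisymm ?_ ?_
  · rintro _ ⟨g, hg, rfl⟩
    exact ⟨⟨_, g, rfl⟩, h.fix_of_comm hx (mem_cent_iff.1 hg), rfl⟩
  · rintro _ ⟨⟨_, g, rfl⟩, hg, rfl⟩
    obtain ⟨k, e, c⟩ := h.exists_comm hx h0 hg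
    exact ⟨k, mem_cent_iff.2 c, e⟩

theorem mem_map_cent {x : H} (hx : x ∈ Q) (h0 : π x ≠ 0) {g : L2} (hg : g ∈ ρ.range) (e : g (π x) = π x) :
    g ∈ (centralizer {x}).map ρ := h.map_cent hx h0 ▸ ⟨⟨g, hg⟩, e, rfl⟩

theorem card_stab5 {v : V} (hv : v ∈ cs 5) : Nat.card (MulAction.stabilizer ρ.range v) = 51840 := by
  have := card_orbit_mul ρ.range v
  rw [show MulAction.orbit ρ.range v = cs 5 from Set.Subset.antisymm
    (by rintro _ ⟨⟨_, g, rfl⟩, rfl⟩; exact h.map_cs5 g hv) fun w hw => by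
      obtain ⟨k, hk, e⟩ := exists_K0_5 hv hw
      exact ⟨⟨_, h.exists_lift hk⟩, e⟩, card_cs (by norm_num), h.card_range, show nn 5 = 378 from rfl] at this
  omega

theorem card_stab26 {v : V} (hv : v ∈ cs 26) : Nat.card (MulAction.stabilizer ρ.range v) = 11520 := by
  have := card_orbit_mul ρ.range v
  rw [show MulAction.orbit ρ.range v = cs 26 from Set.Subset.antisymm
    (by rintro _ ⟨⟨_, g, rfl⟩, rfl⟩; exact h.map_cs26 g hv) fun w hw => by
      obtain ⟨k, hk, e⟩ := exists_K0_26 hv hw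
      exact ⟨⟨_, h.exists_lift hk⟩, e⟩, card_cs (by norm_num), h.card_range, show nn 26 = 1701 from rfl] at this
  omega

theorem exists_eq {x : H} (hx : x ∈ Q) {v : V} (h1 : π x ∈ cs 5 ∧ v ∈ cs 5 ∨ π x ∈ cs 26 ∧ v ∈ cs 26) :
    ∃ k, π (k * x * k⁻¹) = v := by
  obtain ⟨y, hy, rfl⟩ := h.surj v
  obtain ⟨k, rfl⟩ := h1.elim (fun a => h.exists_conj5 hx hy a.1 a.2) fun a => h.exists_conj26 hx hy a.1 a.2
  exact ⟨k, rfl⟩

variable (p : PS Q z s P)
include p

theorem ne0 : π s ≠ 0 := fun e => ((h.ker p.s_mem).1 e).elim p.ne1 p.nez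

theorem inf_sq {x : H} (hx : x ∈ Q ⊓ P) : x * x = 1 := by
  rcases h.es.sq hx.1 with e | e
  · exact e
  · exact (p.sq x hx.2).resolve_right fun e' => p.nez (e'.symm.trans e)

theorem E_sq {g : L2} (hg : g ∈ P.map ρ) : g * g = 1 := by
  obtain ⟨x, hx, rfl⟩ := hg
  rcases p.sq x hx with e | e <;> rw [← map_mul, e]
  exacts [map_one ρ, h.mem_iff.1 p.s_mem]

theorem E_two : IsPGroup 2 (P.map ρ) := fun g => ⟨1, Subtype.ext ((pow_two g.1).trans (h.E_sq p g.2))⟩

omit h in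
theorem E_le {Y : Type*} [Group Y] (θ : H →* Y) : P.map θ ≤ (centralizer {s}).map θ :=
  map_mono fun x hx => mem_cent_iff.2 (p.comm x hx)

omit h in
theorem E_conj {Y : Type*} [Group Y] (θ : H →* Y) :
    ∀ x ∈ (centralizer {s}).map θ, ∀ y ∈ P.map θ, x * y * x⁻¹ ∈ P.map θ := by
  rintro _ ⟨c, hc, rfl⟩ _ ⟨x, hx, rfl⟩
  exact ⟨_, p.norm c (mem_cent_iff.1 hc) x hx, by simp⟩

omit h in
theorem E_normal {Y : Type*} [Group Y] (θ : H →* Y) : ((P.map θ).subgroupOf ((centralizer {s}).map θ)).Normal :=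
  ⟨fun y hy x => E_conj p θ _ x.2 _ hy⟩

theorem card_inf_le : Nat.card ↥(Q ⊓ P) ≤ 2 ^ 7 :=
  have := h.finite
  card_le_of_sq h.es inf_le_left ⟨h.es.z_mem, p.zP⟩ (fun _ => h.inf_sq p) h.card_Q

theorem card_E_dvd {c : F4ˣ} (e : ∀ a, al c a (π s) = π s) :
    Nat.card (P.map ρ) * 360 ∣ Nat.card (MulAction.stabilizer ρ.range (π s)) := by
  have := E_normal p ρ
  have h1 := card_dvd_of_injective _ (A6_quot (h.E_two p) (al_injective c)
    fun a => h.mem_map_cent p.s_mem (h.ne0 p) (h.le_range (al_mem c a)) (e a))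
  rw [← card_map_of_injective (subtype_injective _), ← h.map_cent p.s_mem (h.ne0 p),
    card_eq_card_quotient_mul_card_subgroup ((P.map ρ).subgroupOf ((centralizer {s}).map ρ)),
    Nat.card_congr (subgroupOfEquivOfLe (E_le p ρ)).toEquiv, mul_comm, ← card_A6]
  exact Nat.mul_dvd_mul_right h1 _

theorem card_E_ge : 32 ≤ Nat.card (P.map ρ) := by
  have h1 := h.card_map P
  have h2 := h.card_inf_le p
  rw [p.card] at h1
  nlinarith

theorem mem26 : π s ∈ cs 26 := by
  refine mem_cs26.2 ⟨(h.mem_cs31 p.s_mem).2 ⟨p.ssq, p.ne1, p.nez⟩, fun h5 => ?_⟩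
  obtain ⟨k, e⟩ := h.exists_eq p.s_mem (.inl ⟨h5, vec63_mem⟩)
  have h1 := (h.conj k).card_E_dvd p (c := 1) fun a => by rw [e, al_fix63]
  have h2 := (h.conj k).card_E_ge p
  haveI := Fact.mk Nat.prime_two
  obtain ⟨n, h3⟩ := IsPGroup.iff_card.1 ((h.conj k).E_two p)
  rw [(h.conj k).card_stab5 (e ▸ vec63_mem), h3] at h1
  rw [h3] at h2
  have h4 : 2 ^ 5 ∣ 2 ^ n := pow_dvd_pow 2 ((Nat.pow_le_pow_iff_right one_lt_two).1 h2)
  exact absurd ((Nat.mul_dvd_mul_right h4 360).trans h1) (by norm_num)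

theorem card_E (e : π s = vec 126) : Nat.card (P.map ρ) = 32 := by
  have h1 := h.card_E_dvd p (c := omU) fun a => by rw [e, al_fix126]
  rw [h.card_stab26 (h.mem26 p)] at h1
  have := Nat.le_of_dvd (by norm_num) h1
  have := h.card_E_ge p
  omega

theorem card_inf : Nat.card ↥(Q ⊓ P) = 2 ^ 7 := by
  obtain ⟨k, e⟩ := h.exists_eq p.s_mem (.inr ⟨h.mem26 p, vec126_mem⟩)
  have h1 := (h.conj k).card_map P
  rw [(h.conj k).card_E p e, p.card] at h1
  omega

theorem quot_A6 (e : π s = vec 126) {Y : Type*} [Group Y] (θ : H →* Y) (hθ : θ.ker = Q)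
    [((P.map θ).subgroupOf ((centralizer {s}).map θ)).Normal] :
    Nonempty ((centralizer {s}).map θ ⧸ (P.map θ).subgroupOf ((centralizer {s}).map θ) ≃* A6) := by
  have hc : ∀ X : Subgroup H, Nat.card (X.map θ) = Nat.card (X.map ρ) := fun X => by
    have := h.finite
    exact Nat.eq_of_mul_eq_mul_right Nat.card_pos ((hθ ▸ card_map_mul_card_inf_ker X θ).trans (h.card_map X).symm)
  have he : ∀ a b, θ a = θ b ↔ ρ a = ρ b := fun a b => by
    rw [← inv_mul_eq_one, ← map_inv, ← map_mul, ← MonoidHom.mem_ker, hθ, h.mem_iff, map_mul, map_inv,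
      inv_mul_eq_one]
  choose l hl el using fun a => h.mem_map_cent p.s_mem (h.ne0 p) (h.le_range (al_mem omU a))
    (by rw [e, al_fix126])
  let α : A6 →* Y := MonoidHom.mk' (fun a => θ (l a)) fun a b => by
    rw [← map_mul, he, map_mul, el, el, el, map_mul]
  have h1 := A6_quot (E := P.map θ) (X := (centralizer {s}).map θ) (α := α) (by
      haveI := Fact.mk Nat.prime_two
      exact IsPGroup.of_card (n := 5) (by rw [hc, h.card_E p e]; rfl))
    (fun a b H => al_injective omU (by rw [← el, ← el]; exact (he _ _).1 H)) fun a => mem_map_of_mem θ (hl a)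
  have := h.finite
  haveI : Finite ((centralizer {s}).map θ) := Finite.of_surjective _ (θ.subgroupMap_surjective _)
  refine ⟨(MulEquiv.ofBijective _ ((Nat.bijective_iff_injective_and_card _).2 ⟨h1, ?_⟩)).symm⟩
  have := card_eq_card_quotient_mul_card_subgroup ((P.map θ).subgroupOf ((centralizer {s}).map θ))
  rw [Nat.card_congr (subgroupOfEquivOfLe (E_le p θ)).toEquiv, hc, hc, h.card_E p e, h.map_cent p.s_mem (h.ne0 p),
    card_map_of_injective (subtype_injective _), h.card_stab26 (h.mem26 p)] at this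
  rw [card_A6]
  omega

theorem pow_eq (e : π s = vec 126) {g : L2} (hg : g ∈ ρ.range) (hv : g (vec 126) = vec 126) :
    g ^ 8 = 1 ∨ g ^ 6 = 1 ∨ g ^ 10 = 1 := by
  have := E_normal p ρ
  obtain ⟨f⟩ := h.quot_A6 p e ρ h.kerρ
  let x : (centralizer {s}).map ρ := ⟨g, h.mem_map_cent p.s_mem (h.ne0 p) hg (by rwa [e])⟩
  have key : ∀ n, f x ^ n = 1 → g ^ (n + n) = 1 := fun n H => by
    rw [← map_pow, f.map_eq_one_iff, ← QuotientGroup.mk_pow, QuotientGroup.eq_one_iff] at H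
    rw [pow_add]
    exact h.E_sq p H
  exact (A6_pow (f x)).imp (key 4) (Or.imp (key 3) (key 5))

theorem yy_mem : yy ∈ ρ.range := by
  obtain ⟨k, e⟩ := h.exists_eq p.s_mem (.inr ⟨h.mem26 p, vec126_mem⟩)
  have key : ∀ g c, g ∈ ρ.range → Rep g c → app c 126 = 126 → itr c 2 8 ≠ 2 → itr c 2 6 ≠ 2 → itr c 2 10 ≠ 2 → False :=
    fun g c hg r h1 h2 h3 h4 => ((h.conj k).pow_eq p e (by rwa [h.range_conj]) (r.apply (by norm_num) h1)).elim
      (r.pow_ne (by norm_num) h2) fun H => H.elim (r.pow_ne (by norm_num) h3) (r.pow_ne (by norm_num) h4)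
  obtain ⟨⟨_, g, rfl⟩, hg⟩ : ∃ x : ρ.range, x ∉ KK.subgroupOf ρ.range := by
    by_contra! H
    have := h.index
    rw [relIndex, (eq_top_iff' _).2 H, index_top] at this
    omega
  have hK : ∀ {a b : UU}, a ∈ G0 → b ∈ G0 → (a ∈ K0 ↔ b ∈ K0) → io (a * b⁻¹) ∈ ρ.range := fun ha hb H =>
    h.exists_lift ((mul_mem_K0 ha (inv_mem hb)).2 (by rwa [inv_mem_iff]))
  rcases h.G0_or g with ⟨a, ha, ea⟩ | ⟨a, ha, ea⟩
  · obtain ⟨b, hb, r, eb⟩ := tvW_spec (l := [1135, 96, 48, 12, 6]) (by decide +kernel)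
    have := mul_mem (hK hb ha (iff_of_false (by rw [eb]; decide) fun H => hg ⟨a, H, ea⟩)) ⟨g, ea.symm⟩
    rw [← map_mul, inv_mul_cancel_right] at this
    exact (key _ _ this r (by decide +kernel) (by decide +kernel) (by decide +kernel) (by decide +kernel)).elim
  · have hs : ∀ b ∈ G0, (b ∈ K0 ↔ a ∈ K0) → io b * sig ∈ ρ.range := fun b hb H => by
      have := mul_mem (hK hb ha H) ⟨g, (mul_inv_eq_iff_eq_mul.2 ea).symm⟩
      rwa [← mul_assoc, ← map_mul, inv_mul_cancel_right, inv_eq_of_mul_eq_one_left sig_mul_sig] at this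
    by_cases hak : a ∈ K0
    · obtain ⟨b, hb, r, eb⟩ := tvW_spec (l := [1899, 823, 160, 134]) (by decide +kernel)
      exact (key _ _ (hs b hb (iff_of_true (eb.2 rfl) hak)) (r.mul rep_sig) (by decide +kernel)
        (by decide +kernel) (by decide +kernel) (by decide +kernel)).elim
    · exact hs _ (tvV_mem_G0 vec63_mem) (iff_of_false (tvV_not_mem vec63_mem) hak)

end FS

namespace GS

variable {H G : Type*} [Group H] [Group G] {i : H →* G} {Q : Subgroup H} {z : H} {π : H → V}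
  {ρ : H →* L2} (h : GS i Q z π ρ)
include h

theorem comm_iff {a b : H} : Commute (i a) (i b) ↔ Commute a b := commute_map_iff h.inj

theorem le : LE (Q.map i) (i z) := by
  refine ⟨h.es.map i fun x _ hx => h.inj (hx.trans i.map_one.symm), fun c hc => ?_, fun c hc => ?_⟩
  · obtain ⟨c, rfl⟩ := h.range c (hc _ (mem_map_of_mem i h.es.z_mem))
    refine mem_map_of_mem i (h.mem_iff.2 (LinearEquiv.ext fun v => ?_))
    obtain ⟨x, hx, rfl⟩ := h.surj v
    exact h.fix_of_comm hx (h.comm_iff.1 (hc _ (mem_map_of_mem i hx)))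
  · obtain ⟨c, rfl⟩ := h.range c hc
    rintro _ ⟨x, hx, rfl⟩
    exact ⟨_, h.conj_mem c hx, by simp⟩

theorem range_eq : i.range = centralizer {i z} :=
  le_antisymm (by rintro _ ⟨x, rfl⟩; exact mem_cent_iff.2 ((h.cen x).map i)) fun g hg => h.range g (mem_cent_iff.1 hg)

variable [Finite G]

theorem pair {g : G} {s : H} (hs : s ∈ Q) (hne : s ≠ z) (e : g * i z * g⁻¹ = i s) :
    Pair (Q.map i) (Q.map i :^ g) (i z) (i s) := by
  have h1 : g * i z * g⁻¹ ∈ Q.map i := e ▸ mem_map_of_mem i hs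
  exact e ▸ h.le.pair h1 (h.le.mem_conj (by rw [card_map_of_injective h.inj, h.card_Q]; norm_num) h1)
    fun H => hne (h.inj (e.symm.trans H.symm))

theorem ps {g : G} {s : H} (hs : s ∈ Q) (hne : s ≠ z) (e : g * i z * g⁻¹ = i s) :
    PS Q z s ((Q.map i :^ g).comap i) := by
  have P := h.pair hs hne e
  refine ⟨hs, fun H => P.right.z_ne (by rw [H, map_one]), hne, h.inj (by rw [map_mul, P.right.z_sq, map_one]), ?_,
    P.right.z_mem, P.z_mem, fun x hx => h.comm_iff.1 (P.right.z_comm _ hx).symm, fun x hx y hy =>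
    (P.right.comm _ hx _ hy).imp h.comm_iff.1 fun H => h.inj (by simpa using H), fun x hx =>
    (P.right.sq hx).imp (fun H => h.inj (by simpa using H)) fun H => h.inj (by simpa using H),
    fun c hc x hx => mem_comap.2 (by simpa using P.right.norm _ (hc.map i) _ hx)⟩
  obtain ⟨a, ha, haz⟩ := P.symm.exists_s
  have h1 := P.right.card_eq_two_mul le_rfl P.z_mem ha haz
  rw [card_conjg, card_map_of_injective h.inj, h.card_Q] at h1
  rw [← card_map_of_injective h.inj, map_comap_eq, h.range_eq, inf_comm]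
  omega

theorem yy_mem : yy ∈ ρ.range := by
  obtain ⟨g, s, hs, hne, e⟩ := h.nwc
  exact h.toFS.yy_mem (h.ps hs hne e)

theorem conj_iff {x : H} (hx : x ∈ Q) (hne : x ≠ z) : IsConj (i z) (i x) ↔ π x ∈ cs 26 := by
  refine ⟨fun H => ?_, fun H => ?_⟩
  · obtain ⟨g, e⟩ := isConj_iff.1 H
    exact h.mem26 (h.ps hx hne e)
  · obtain ⟨g, s, hs, hne, e⟩ := h.nwc
    obtain ⟨k, rfl⟩ := h.exists_conj26 hs hx (h.mem26 (h.ps hs hne e)) H
    exact isConj_iff.2 ⟨i k * g, by simp [← e, mul_assoc]⟩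

end GS

theorem realizeEqns_U6Orb : True := by
  have := @CA.U6.okW.eq_1
  have := @CA.U6.okW.eq_def
  have := @CA.U6.okW.congr_simp
  have := @CA.U6.itr.eq_1
  have := @CA.U6.itr.eq_def
  have := @CA.U6.itr.congr_simp
  have := @CA.U6.wH.eq_1
  have := @CA.U6.wH.eq_def
  have := @CA.U6.wH.congr_simp
  have := @CA.U6.sigc.eq_1
  have := @CA.U6.sigc.eq_def
  have := @CA.U6.sigc.congr_simp
  have := @CA.U6.evn.eq_1
  have := @CA.U6.evn.eq_def
  have := @CA.U6.evn.congr_simp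
  have := @CA.U6.yy.eq_1
  have := @CA.U6.yy.eq_def
  have := @CA.U6.yy.congr_simp
  have := @CA.U6.A6.eq_1
  have := @CA.U6.A6.eq_def
  have := @CA.U6.A6.congr_simp
  have := @CA.U6.tvW.eq_1
  have := @CA.U6.tvW.eq_def
  have := @CA.U6.tvW.congr_simp
  have := @CA.U6.omc.eq_1
  have := @CA.U6.omc.eq_def
  have := @CA.U6.omc.congr_simp
  have := @CA.U6.al.eq_1
  have := @CA.U6.al.eq_def
  have := @CA.U6.al.congr_simp
  trivial

end CA.U6
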