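import Cfsg.Agent.U6.Mov

/-! Groups of large Fischer type: the Thompson subgroup of a Sylow 2-subgroup. -/

set_option autoImplicit false

namespace CA.U6

open Cfsg Cfsg.Agent Cfsg.Agent.Unit CA.M24 Subgroup Equiv CA.FG CA.Fi

/-- powers of an involution -/
def zp {H : Type*} [Group H] (z : H) (c : ZMod 2) : H := if c = 0 then 1 else z

theorem zp_zero {H : Type*} [Group H] (z : H) : zp z 0 = 1 := rfl

theorem zp_one {H : Type*} [Group H] (z : H) : zp z 1 = z := rfl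

theorem zmod_add_self : ∀ a : ZMod 2, a + a = 0 := by decide

theorem om_om (v : V) : om4 • v + om4 • om4 • v = v := by rw [om_add, ← add_assoc, V_add_self, zero_add]

theorem max_eq {G : Type*} [Group G] [Finite G] {A T : Subgroup G} (hA : A ≤ T) (h1 : ∀ a ∈ A, a * a = 1)
    (h2 : ∀ B ≤ T, (∀ b ∈ B, b * b = 1) → Nat.card A ≤ Nat.card B → B = A) :
    maxElementaryAbelianSubgroups 2 T = {A.subgroupOf T} := by
  have hc : Nat.card (A.subgroupOf T) = Nat.card A := Nat.card_congr (subgroupOfEquivOfLe hA).toEquiv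
  have hE : IsElementaryAbelian 2 (A.subgroupOf T) := ⟨⟨⟨fun a b => Subtype.ext (Subtype.ext
    (commute_of_sq (h1 _ a.2) (h1 _ b.2) (h1 _ (mul_mem a.2 b.2))))⟩⟩, fun a ha => Subtype.ext
      ((pow_two a.1).trans (h1 _ ha))⟩
  have key : ∀ B : Subgroup T, IsElementaryAbelian 2 B → Nat.card A ≤ Nat.card B → B = A.subgroupOf T :=
    fun B hB H => by
      rw [← h2 (B.map T.subtype) (map_subtype_le _) (by
        rintro _ ⟨b, hb, rfl⟩
        exact (pow_two b.1).symm.trans (congrArg Subtype.val (hB.2 b hb)))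
        (by rwa [card_map_of_injective (subtype_injective _)])]
      exact (comap_map_eq_self_of_injective (subtype_injective _) B).symm
  refine Set.eq_singleton_iff_unique_mem.2 ⟨⟨hE, fun B hB => ?_⟩, fun B hB => key B hB.1 (hc ▸ hB.2 _ hE)⟩
  rcases le_total (Nat.card A) (Nat.card B) with H | H
  · rw [key B hB H]
  · rwa [hc]

theorem thompson_eq {G : Type*} [Group G] [Finite G] {A T : Subgroup G} (hA : A ≤ T) (h1 : ∀ a ∈ A, a * a = 1)
    (h2 : ∀ B ≤ T, (∀ b ∈ B, b * b = 1) → Nat.card A ≤ Nat.card B → B = A) : thompsonSubgroupOf 2 T = A := by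
  rw [thompsonSubgroupOf, thompsonSubgroup, max_eq hA h1 h2, sSup_singleton, subgroupOf_map_subtype, inf_eq_left.2 hA]

namespace FS

variable {H : Type*} [Group H] {Q : Subgroup H} {z : H} {π : H → V} {ρ : H →* L2} (h : FS Q z π ρ)
include h

theorem zp_add (a b : ZMod 2) : zp z (a + b) = zp z a * zp z b := by
  rcases zmod_cases a with rfl | rfl <;> rcases zmod_cases b with rfl | rfl
  exacts [(one_mul _).symm, (one_mul _).symm, (mul_one _).symm, h.es.z_sq.symm]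

theorem zp_sq (a : ZMod 2) : zp z a * zp z a = 1 := by rw [← h.zp_add, zmod_add_self, zp_zero]

theorem zp_comm (g : H) (a : ZMod 2) : Commute g (zp z a) := by
  rcases zmod_cases a with rfl | rfl
  exacts [Commute.one_right g, h.cen g]

theorem zp_mem (a : ZMod 2) : zp z a ∈ Q := by
  rcases zmod_cases a with rfl | rfl
  exacts [one_mem _, h.es.z_mem]

theorem π_zp (a : ZMod 2) : π (zp z a) = 0 := by
  rcases zmod_cases a with rfl | rfl
  exacts [h.one, h.z0]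

theorem ρ_zp (a : ZMod 2) : ρ (zp z a) = 1 := h.mem_iff.1 (h.zp_mem a)

theorem zp_inj {a b : ZMod 2} (e : zp z a = zp z b) : a = b := by
  rcases zmod_cases a with rfl | rfl <;> rcases zmod_cases b with rfl | rfl
  exacts [rfl, (h.es.z_ne e.symm).elim, (h.es.z_ne e).elim, rfl]

theorem exists_zp {x y : H} (hx : x ∈ Q) (hy : y ∈ Q) (e : π y = π x) : ∃ a, y = x * zp z a :=
  ((h.eq_iff hx hy).1 e).elim (fun e => ⟨0, e.trans (mul_one x).symm⟩) fun e => ⟨1, e⟩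

theorem mul_comm_zp {x y : H} (hx : x ∈ Q) (hy : y ∈ Q) : x * y = y * x * zp z (bb (π x) (π y)) := by
  rcases zmod_cases (bb (π x) (π y)) with e | e <;> rw [e]
  · exact ((h.commute_iff hx hy).2 e).eq.trans (mul_one _).symm
  · exact h.es.not_commute hx hy fun c => absurd (e.symm.trans ((h.commute_iff hx hy).1 c)) (by decide)

theorem exists_x : ∃ x : H, x ^ 3 = 1 ∧ ∀ v, ρ x v = om4 • v := by
  obtain ⟨g, hg⟩ := h.exists_lift (sc_mem_K0 omU)
  have h3 : ρ (g ^ 3) = 1 := by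
    rw [map_pow, hg, ← map_pow, ← map_pow, show omU ^ 3 = 1 by decide, map_one, map_one]
  refine ⟨g ^ 4, ?_, fun v => ?_⟩
  · rw [← pow_mul, mul_comm, pow_mul]
    exact h.es.pow_four (h.mem_iff.2 h3)
  · rw [pow_succ, map_mul, h3, one_mul, hg]; rfl

variable (hy : yy ∈ ρ.range)
include hy

theorem R0_le : R0 ≤ ρ.range := sup_le h.le_range (zpowers_le.2 hy)

theorem T0_syl : IsSylowOf 2 T0 ρ.range := by
  have h1 := T0_le.trans (inf_le_left.trans (h.R0_le hy))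
  refine sylow_mk h1 (pGrp_of_isPGroup Nat.prime_two T0_two) ?_
  have := card_mul_relIndex h1
  rw [card_T0, h.card_range] at this
  omega

theorem mem_A0 {g : H} (e : ∀ v ∈ HX, ρ g v = v) : ρ g ∈ A0 := by
  let C : Subgroup L2 := toSub
    { carrier := {k | k ∈ ρ.range ∧ ∀ v ∈ HX, k v = v}
      one_mem' := ⟨one_mem _, fun _ _ => rfl⟩
      mul_mem' := fun a b => ⟨mul_mem a.1 b.1, fun v hv => (congrArg _ (b.2 v hv)).trans (a.2 v hv)⟩ }
  refine mem_A0_of_fix ((h.T0_syl hy).le_of_norm_le (K := C) (pGrp_of_forall_pow (k := 1) Nat.prime_two ?_)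
    (fun _ H => H.1) (fun t ht => mem_norm_of_forall fun k hk => ⟨?_, fun v hv => ?_⟩) ⟨⟨g, rfl⟩, e⟩) e
  · rintro _ ⟨⟨k, rfl⟩, hk⟩
    refine (pow_two _).trans (LinearEquiv.ext fun v => ?_)
    have := hk _ (mem_HX_of_perp (u := ρ k v + v) fun d hd => by
      rw [bb_add_right, ← h.map_bb k d v, hk d hd, zmod_add_self])
    rwa [map_add, add_comm (ρ k v), add_left_inj] at this
  · have := (h.T0_syl hy).le ht
    exact mul_mem (mul_mem this hk.1) (inv_mem this)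
  · rw [LinearEquiv.mul_apply, LinearEquiv.mul_apply, hk.2 _ ((T0_le (inv_mem ht)).2 v hv)]
    exact t.apply_symm_apply v

theorem exists_syl {P : Subgroup H} (hP : IsPGroup 2 P) :
    ∃ k, P ≤ T0.comap (ρ.comp (MulAut.conj k).toMonoidHom) := by
  obtain ⟨_, ⟨k, rfl⟩, e⟩ := sylow_Jsub Nat.prime_two (h.T0_syl hy) (pGrp_of_isPGroup Nat.prime_two (hP.map ρ))
    (map_le_range _ _)
  exact ⟨k, fun p hp => by simpa using e (conj_mem_conjg (ρ k) (mem_map_of_mem ρ hp))⟩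

theorem card_T : Nat.card (T0.comap ρ) = 2 ^ 21 := by
  have := h.card_map (T0.comap ρ)
  rw [map_comap_eq_self (h.T0_syl hy).le, inf_eq_left.2 (h.kerρ ▸ ker_le_comap ρ T0), card_T0, h.card_Q] at this
  exact this.symm

theorem T_syl : IsSylowOf 2 (T0.comap ρ) ⊤ := by
  refine sylow_mk le_top (pGrp_of_card_eq_pow Nat.prime_two (h.card_T hy)) ?_
  have := card_mul_relIndex (le_top (a := T0.comap ρ))
  rw [h.card_T hy, card_top, h.card_H] at this
  omega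

end FS

/-- the canonical section over an element of order three -/
structure SS {H : Type*} [Group H] (Q : Subgroup H) (z : H) (π : H → V) (ρ : H →* L2) (x : H) (s : V → H) :
    Prop extends FS Q z π ρ where
  hy : yy ∈ ρ.range
  x3 : x ^ 3 = 1
  ρx : ∀ v, ρ x v = om4 • v
  sQ : ∀ v, s v ∈ Q
  πs : ∀ v, π (s v) = v
  s3 : ∀ v, (s v * x) ^ 3 = 1

theorem FS.exists_SS {H : Type*} [Group H] {Q : Subgroup H} {z : H} {π : H → V} {ρ : H →* L2} (h : FS Q z π ρ)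
    (hy : yy ∈ ρ.range) {x : H} (x3 : x ^ 3 = 1) (ρx : ∀ v, ρ x v = om4 • v) : ∃ s, SS Q z π ρ x s := by
  choose u hu eu using fun v => h.surj (om4 • v)
  refine ⟨fun v => (u v)⁻¹ * (x * u v * x⁻¹), h, hy, x3, ρx, fun v => mul_mem (inv_mem (hu v)) (h.conj_mem x (hu v)),
    fun v => ?_, fun v => ?_⟩
  · rw [h.mul (inv_mem (hu v)) (h.conj_mem x (hu v)), h.inv (hu v), h.act x (hu v), ρx, eu, om_om]
  · rw [show (u v)⁻¹ * (x * u v * x⁻¹) * x = (u v)⁻¹ * x * (u v)⁻¹⁻¹ by group, conj_pow, x3, mul_one, mul_inv_cancel]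

namespace SS

variable {H : Type*} [Group H] {Q : Subgroup H} {z : H} {π : H → V} {ρ : H →* L2} {x : H} {s : V → H}
  (h : SS Q z π ρ x s)
include h

theorem cube_z {y : H} (e : y ^ 3 = 1) : (y * z) ^ 3 ≠ 1 := by
  rw [(h.cen y).mul_pow, e, one_mul, pow_three, h.es.z_sq, mul_one]
  exact h.es.z_ne

theorem uniq {q : H} (hq : q ∈ Q) (e : (q * x) ^ 3 = 1) : s (π q) = q := by
  refine ((h.eq_iff hq (h.sQ _)).1 (h.πs _)).resolve_right fun H => h.cube_z e ?_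
  rw [mul_assoc, (h.cen x).eq, ← mul_assoc, ← H, h.s3]

theorem zero : s 0 = 1 := by rw [← h.one, h.uniq (one_mem _) (by rw [one_mul, h.x3])]

theorem conj_s {c : H} (hc : Commute c x) (v : V) : c * s v * c⁻¹ = s (ρ c v) := by
  rw [← h.uniq (h.conj_mem c (h.sQ v)), h.act c (h.sQ v), h.πs]
  rw [show c * s v * c⁻¹ * x = c * (s v * x) * c⁻¹ by rw [mul_assoc _ _ x, hc.inv_left.eq]; group, conj_pow, h.s3,
    mul_one, mul_inv_cancel]

theorem s_eq {u : H} (hu : u ∈ Q) {v : V} (e : π u = om4 • v) : s v = u⁻¹ * (x * u * x⁻¹) := by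
  rw [← h.uniq (mul_mem (inv_mem hu) (h.conj_mem x hu)), h.mul (inv_mem hu) (h.conj_mem x hu), h.inv hu, h.act x hu,
    h.ρx, e, om_om]
  rw [show u⁻¹ * (x * u * x⁻¹) * x = u⁻¹ * x * u⁻¹⁻¹ by group, conj_pow, h.x3, mul_one, mul_inv_cancel]

theorem s_mul (v w : V) : s v * s w = s (v + w) * zp z (bb v (om4 • w)) := by
  obtain ⟨t, ht, et⟩ := h.surj (om4 • w)
  obtain ⟨u, hu, eu⟩ := h.surj (om4 • v)
  rw [h.s_eq (mul_mem hu ht) (v := v + w) (by rw [h.mul hu ht, eu, et, smul_add]), h.s_eq ht et, ← mul_assoc,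
    h.mul_comm_zp (h.sQ v) (inv_mem ht), h.πs, h.inv ht, et, h.s_eq hu eu, mul_assoc, ← (h.zp_comm _ _).eq]
  group

theorem s_inv (v : V) : (s v)⁻¹ = s v * zp z (bb v (om4 • v)) := by
  rw [inv_eq_iff_mul_eq_one, ← mul_assoc, h.s_mul, V_add_self, h.zero, one_mul, h.zp_sq]

theorem exists_s {q : H} (hq : q ∈ Q) : ∃ a, q = s (π q) * zp z a := h.exists_zp (h.sQ _) hq (h.πs _).symm

theorem cent_inf {q : H} (hq : q ∈ Q) (hc : Commute q x) : q = 1 ∨ q = z := by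
  have := h.fix_of_comm hq hc.symm
  rw [h.ρx] at this
  rw [← h.ker hq, ← om_om (π q), this, this, V_add_self]

theorem eq_or {a b : H} (ha : Commute a x) (hb : Commute b x) (e : ρ a = ρ b) : ∃ c, a = b * zp z c := by
  rcases h.cent_inf (h.mem_iff.2 (by rw [map_mul, map_inv, e, inv_mul_cancel])) (hb.inv_left.mul_left ha) with H | H
  exacts [⟨0, (inv_mul_eq_iff_eq_mul.1 H)⟩, ⟨1, inv_mul_eq_iff_eq_mul.1 H⟩]

theorem exists_cent {k : L2} (hk : k ∈ KK) : ∃ c, Commute c x ∧ ρ c = k := by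
  obtain ⟨g, rfl⟩ := h.le_range hk
  have h1 : g * x * g⁻¹ * x⁻¹ ∈ Q := h.mem_iff.2 (by
    rw [map_mul, map_mul, map_mul, map_inv, map_inv, mul_inv_eq_one, mul_inv_eq_iff_eq_mul]
    exact LinearEquiv.ext fun v => by
      rw [LinearEquiv.mul_apply, LinearEquiv.mul_apply, h.ρx, h.ρx, KK_lin hk])
  obtain ⟨u, hu, eu⟩ := h.surj (om4 • π (g * x * g⁻¹ * x⁻¹))
  have h2 := h.s_eq hu eu
  rw [h.uniq h1 (by rw [inv_mul_cancel_right, conj_pow, h.x3, mul_one, mul_inv_cancel])] at h2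
  refine ⟨u * g, ?_, by rw [map_mul, h.mem_iff.1 hu, one_mul]⟩
  rw [← conj_eq_iff_commute, show u * g * x * (u * g)⁻¹ = u * (g * x * g⁻¹ * x⁻¹) * x * u⁻¹ by group, h2]
  group

theorem mem_KK {c : H} (hc : Commute c x) : ρ c ∈ KK := by
  obtain ⟨y, e⟩ := (h.T0_syl h.hy).le ⟨128, by norm_num, rfl⟩
  have h1 : ¬ ∀ v, ρ y (om4 • v) = om4 • ρ y v := fun H => by
    have := H (vec 1)
    rw [e, el_semi le_rfl (by norm_num), om_add, add_eq_left, LinearEquiv.map_eq_zero_iff] at this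
    exact absurd this (by decide)
  by_contra h2
  refine h1 fun v => (ρ c).injective ?_
  rw [← LinearEquiv.mul_apply, KK_lin (h.mul_mem_KK.2 (iff_of_false h2 fun H => h1 (KK_lin H om4))), ← h.ρx, ← h.ρx,
    ← LinearEquiv.mul_apply, ← LinearEquiv.mul_apply, ← LinearEquiv.mul_apply, ← mul_assoc, ← map_mul,
    ← hc.eq, map_mul]

end SS

/-- lifts of the centralizer of the hexacode -/
structure XS {H : Type*} [Group H] (Q : Subgroup H) (z : H) (π : H → V) (ρ : H →* L2) (x : H) (s : V → H)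
    (τ : ℕ → H) : Prop extends SS Q z π ρ x s where
  τx : ∀ a, Commute (τ a) x
  ρτ : ∀ a < 16, ρ (τ a) = el a
  τ0 : τ 0 = 1

theorem SS.exists_XS {H : Type*} [Group H] {Q : Subgroup H} {z : H} {π : H → V} {ρ : H →* L2} {x : H} {s : V → H}
    (h : SS Q z π ρ x s) (P : H → Prop) (hP : ¬ P 1) : ∃ τ, XS Q z π ρ x s τ ∧ ∀ a, P (τ a) → P (τ a * z) := by
  have : ∀ a, ∃ c, Commute c x ∧ (a < 16 → ρ c = el a) ∧ (a = 0 → c = 1) ∧ (P c → P (c * z)) := fun a => by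
    by_cases ha : 0 < a ∧ a < 16
    · obtain ⟨c, h1, h2⟩ := h.exists_cent ((el_spec (n := a) (by omega)).2.2.1 (by omega))
      by_cases hc : P c
      · refine ⟨c * z, h1.mul_left (h.cen x).symm, fun _ => ?_, by omega, fun _ => ?_⟩
        · rw [map_mul, h2, h.mem_iff.1 h.es.z_mem, mul_one]
        · rwa [mul_assoc, h.es.z_sq, mul_one]
      · exact ⟨c, h1, fun _ => h2, by omega, fun H => (hc H).elim⟩
    · exact ⟨1, Commute.one_left x, fun _ => by rw [show a = 0 by omega, el_zero, map_one], fun _ => rfl,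
        fun H => (hP H).elim⟩
  choose τ h1 h2 h3 h4 using this
  exact ⟨τ, ⟨h, h1, h2, h3 0 rfl⟩, h4⟩

/-- coordinates on the Thompson subgroup -/
def e3 {H : Type*} [Group H] (z : H) (s : V → H) (τ : ℕ → H) (v : V) (δ : ZMod 2) (a : ℕ) : H := s v * τ a * zp z δ

/-- coordinates on the Thompson subgroup, by numbers -/
def en {H : Type*} [Group H] (z : H) (s : V → H) (τ : ℕ → H) (n : ℕ) : H :=
  e3 z s τ (vec (dv (n % 64))) (bt n 6) (n / 128)

/-- the Thompson subgroup -/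
def FS.AA {H : Type*} [Group H] {Q : Subgroup H} {z : H} {π : H → V} {ρ : H →* L2} (h : FS Q z π ρ) : Subgroup H :=
  centralizer (h.pre HX)

theorem bb_HX {u v : V} (hu : u ∈ HX) (hv : v ∈ HX) : bb u v = 0 := by rw [bb, hh_HX hu hv]; rfl

theorem dv_zero : dv 0 = 0 := by decide +kernel

namespace XS

variable {H : Type*} [Group H] {Q : Subgroup H} {z : H} {π : H → V} {ρ : H →* L2} {x : H} {s : V → H} {τ : ℕ → H}
  (h : XS Q z π ρ x s τ)
include h

theorem e3_add (v : V) (δ ε : ZMod 2) (a : ℕ) : e3 z s τ v (δ + ε) a = e3 z s τ v δ a * zp z ε := by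
  rw [e3, e3, h.zp_add, ← mul_assoc]

theorem e3_zero (δ : ZMod 2) (a : ℕ) : e3 z s τ 0 δ a = τ a * zp z δ := by rw [e3, h.zero, one_mul]

theorem conjS (w v : V) (δ : ZMod 2) {a : ℕ} (ha : a < 16) : s w * e3 z s τ v δ a * (s w)⁻¹ = e3 z s τ
    (w + v + el a w) (δ + (bb w (om4 • v) + bb (w + v) (om4 • el a w) + bb (el a w) (om4 • el a w))) a := by
  have h1 : τ a * (s w)⁻¹ = (s (el a w))⁻¹ * τ a := by
    rw [← h.ρτ a ha, ← h.conj_s (h.τx a)]; group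
  rw [e3, e3, mul_assoc, mul_assoc, ← (h.zp_comm _ δ).eq, mul_assoc, ← mul_assoc (τ a), h1, ← mul_assoc, ← mul_assoc,
    ← mul_assoc, h.s_mul, h.s_inv, mul_assoc (s (w + v)), ← (h.zp_comm _ _).eq, ← mul_assoc, ← mul_assoc, h.s_mul]
  simp only [mul_assoc, ← (h.zp_comm (τ a) _).eq, ← (h.zp_comm (τ a) _).left_comm, ← h.zp_add]
  congr 3
  ring

theorem conjG {i : ℕ} (hi : i < 2) : ∃ g, Commute g x ∧ ρ g = ofC (gc i) ∧ ∀ a < 16, ∃ β, g * τ a * g⁻¹ =
    τ (pp i a) * zp z β ∧ ∀ v δ, g * e3 z s τ v δ a * g⁻¹ = e3 z s τ (ofC (gc i) v) (δ + β) (pp i a) := by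
  obtain ⟨g, h1, h2⟩ := h.exists_cent (gc_spec hi).1.mem.1
  refine ⟨g, h1, h2, fun a ha => ?_⟩
  obtain ⟨β, e⟩ := h.eq_or ((h1.mul_left (h.τx a)).mul_left h1.inv_left) (h.τx (pp i a)) (by
    rw [map_mul, map_mul, map_inv, h.ρτ a ha, h.ρτ _ (pp_lt ..), h2, ((gc_spec hi).2 a ha).1, mul_inv_cancel_right])
  refine ⟨β, e, fun v δ => ?_⟩
  rw [e3, e3, ← conj_mul, ← conj_mul, h.conj_s h1, e, conj_eq_iff_commute.2 (h.zp_comm g δ), h2, add_comm, h.zp_add]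
  simp only [mul_assoc]

theorem orb {k a : ℕ} (hk : k < 64) (ha : a < 16) : ∃ β, ∀ δ, IsConj (e3 z s τ (vec (dv k)) δ a)
    (e3 z s τ (vec (dv (rootB (k + 64 * a) % 64))) (δ + β) (rootB (k + 64 * a) / 64)) := by
  have key : ∀ {u v : V} {b c : ℕ} {β : ZMod 2} {g : H}, (∀ δ, g * e3 z s τ u δ b * g⁻¹ = e3 z s τ v (δ + β) c) →
      ((∃ β, ∀ δ, IsConj (e3 z s τ (vec (dv k)) δ a) (e3 z s τ v (δ + β) c)) ↔
        ∃ β, ∀ δ, IsConj (e3 z s τ (vec (dv k)) δ a) (e3 z s τ u (δ + β) b)) := fun {u v b c β g} H =>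
    ⟨fun ⟨γ, e⟩ => ⟨γ + β, fun δ => (e δ).trans (isConj_iff.2 ⟨g, by
      rw [H, add_assoc, add_assoc, zmod_add_self, add_zero]⟩).symm⟩,
      fun ⟨γ, e⟩ => ⟨γ + β, fun δ => (e δ).trans (isConj_iff.2 ⟨g, by rw [H, add_assoc]⟩)⟩⟩
  refine (orbB (f := fun v c => ∃ β, ∀ δ, IsConj (e3 z s τ (vec (dv k)) δ a) (e3 z s τ v (δ + β) c))
    (fun i hi v b hb => ?_) (fun w v b hb => key fun δ => h.conjS w v δ hb) hk ha).1
    ⟨0, fun δ => by rw [add_zero]⟩
  obtain ⟨g, -, -, H⟩ := h.conjG hi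
  obtain ⟨β, -, H⟩ := H b hb
  exact key (H v)

theorem τ_conj {a : ℕ} (ha : a < 16) (e : rootB (0 + 64 * a) = 64) :
    ∃ β, ∀ δ, IsConj (τ a * zp z δ) (τ 1 * zp z (δ + β)) := by
  obtain ⟨β, H⟩ := h.orb (k := 0) (by norm_num) ha
  simp only [e, Nat.reduceMod, Nat.reduceDiv, dv_zero, vec_zero, h.e3_zero] at H
  exact ⟨β, H⟩

theorem τ_mul {a b : ℕ} (ha : a < 16) (hb : b < 16) : ∃ c, τ a * τ b = τ (Nat.xor a b) * zp z c :=
  h.eq_or ((h.τx a).mul_left (h.τx b)) (h.τx _) (by rw [map_mul, h.ρτ a ha, h.ρτ b hb, h.ρτ _ (xor_lt16 ha hb),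
    el_xor ha hb])

theorem sq_zp (y : H) (c : ZMod 2) : y * zp z c * (y * zp z c) = y * y := by
  rw [(h.zp_comm y c).symm.mul_mul_mul_comm, h.zp_sq, mul_one]

theorem τ_sq {a : ℕ} (ha : a < 16) : τ a * τ a = 1 := by
  have h0 : ∀ a < 16, a = 0 ∨ rootB (0 + 64 * a) = 64 := by decide +kernel
  have h1 : ∀ a < 16, a ≠ 0 → (τ a * τ a = 1 ↔ τ 1 * τ 1 = 1) := fun a ha H => by
    obtain ⟨β, e⟩ := h.τ_conj ha ((h0 a ha).resolve_left H)
    obtain ⟨g, e⟩ := isConj_iff.1 (e 0)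
    rw [← h.sq_zp _ 0, ← h.sq_zp (τ 1) (0 + β), ← e, conj_mul, conj_eq_one_iff]
  rcases eq_or_ne a 0 with rfl | a0
  · rw [h.τ0, one_mul]
  refine (h1 a ha a0).2 (by_contra fun hn => ?_)
  have h2 : ∀ a < 16, a ≠ 0 → τ a * τ a = z := fun a ha H' => by
    obtain ⟨c, e⟩ := h.τ_mul ha ha
    rw [show Nat.xor a a = 0 from Nat.xor_self a, h.τ0, one_mul] at e
    rcases zmod_cases c with rfl | rfl
    exacts [(hn ((h1 a ha H').1 e)).elim, e]
  have h3 : ∀ u v : H, u * u = z → v * v = z → u * v * (u * v) = z → u * v = v * u * z := fun u v a b c => by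
    apply mul_left_cancel (a := u)
    apply mul_right_cancel (b := v)
    rw [← mul_assoc, mul_assoc _ v, a, b, h.es.z_sq, mul_assoc u, mul_assoc _ z, ← (h.cen v).eq,
      show u * (v * u * (v * z)) = u * v * (u * v) * z by simp only [mul_assoc], c, h.es.z_sq]
  have h4 : ∀ a < 16, ∀ b < 16, Nat.xor a b ≠ 0 → τ a * τ b * (τ a * τ b) = z := fun a ha b hb H => by
    obtain ⟨c, e⟩ := h.τ_mul ha hb
    rw [e, h.sq_zp, h2 _ (xor_lt16 ha hb) H]
  have h5 : ∀ a < 16, ∀ b < 16, a ≠ 0 → b ≠ 0 → Nat.xor a b ≠ 0 → τ a * τ b = τ b * τ a * z := fun a ha b hb a0 b0 H =>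
    h3 _ _ (h2 a ha a0) (h2 b hb b0) (h4 a ha b hb H)
  obtain ⟨c, e⟩ := h.τ_mul (a := 2) (b := 4) (by norm_num) (by norm_num)
  have h6 : τ 1 * (τ 2 * τ 4) = τ 2 * τ 4 * τ 1 * z := by
    rw [e, ← mul_assoc, h5 1 (by norm_num) _ (by decide) (by decide) (by decide) (by decide)]
    simp only [mul_assoc, (h.zp_comm z c).eq, (h.zp_comm (τ 1) c).left_comm]
  rw [← mul_assoc, h5 1 (by norm_num) 2 (by norm_num) (by decide) (by decide) (by decide), mul_assoc _ z,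
    ← (h.cen _).eq, ← mul_assoc, mul_assoc (τ 2), h5 1 (by norm_num) 4 (by norm_num) (by decide) (by decide)
      (by decide), mul_left_inj, ← mul_assoc, ← mul_assoc, mul_eq_left] at h6
  exact h.es.z_ne h6

theorem comm_τ {a : ℕ} (ha : a < 16) {v : V} (hv : v ∈ HX) : Commute (τ a) (s v) := by
  rw [← conj_eq_iff_commute, h.conj_s (h.τx a), h.ρτ a ha, el_fix ha hv]

theorem s_add {u v : V} (hu : u ∈ HX) (hv : v ∈ HX) : s u * s v = s (u + v) := by
  rw [h.s_mul, bb_HX hu (smul_mem_HX _ hv), zp_zero, mul_one]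

theorem pre_le : h.pre HX ≤ h.AA := fun _ hy => mem_cent_subgroup_iff.2 fun _ hq =>
  (h.commute_iff hy.1 hq.1).2 (bb_HX hy.2 hq.2)

theorem inf_AA : Q ⊓ h.AA = h.pre HX := by
  refine le_antisymm (fun y hy => ⟨hy.1, mem_HX_of_perp fun d hd => ?_⟩) (le_inf (fun _ => And.left) h.pre_le)
  rw [← h.πs d, ← h.commute_iff (h.sQ d) hy.1]
  exact (mem_cent_subgroup_iff.1 hy.2 _ ⟨h.sQ d, (h.πs d).symm ▸ hd⟩).symm

theorem τ_mem {a : ℕ} (ha : a < 16) : τ a ∈ h.AA := mem_cent_subgroup_iff.2 fun q hq => by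
  obtain ⟨c, e⟩ := h.exists_s hq.1
  rw [e]
  exact (h.comm_τ ha hq.2).mul_right (h.zp_comm _ c)

theorem z_mem : z ∈ h.AA := h.pre_le (h.z_mem_pre _)

theorem e3_mem {v : V} (hv : v ∈ HX) (δ : ZMod 2) {a : ℕ} (ha : a < 16) : e3 z s τ v δ a ∈ h.AA :=
  mul_mem (mul_mem (h.pre_le ⟨h.sQ v, (h.πs v).symm ▸ hv⟩) (h.τ_mem ha))
    (h.pre_le ⟨h.zp_mem δ, h.π_zp δ ▸ zero_mem _⟩)

theorem ρ_e3 (v : V) (δ : ZMod 2) {a : ℕ} (ha : a < 16) : ρ (e3 z s τ v δ a) = el a := by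
  rw [e3, map_mul, map_mul, h.ρ_zp, h.mem_iff.1 (h.sQ v), h.ρτ a ha, one_mul, mul_one]

theorem map_mem {y : H} (hy : y ∈ h.AA) : ρ y ∈ A0 := h.mem_A0 h.hy fun v hv => by
  rw [← h.πs v]
  exact h.fix_of_comm (h.sQ v) (mem_cent_subgroup_iff.1 hy _ ⟨h.sQ v, (h.πs v).symm ▸ hv⟩)

theorem en_mem {n : ℕ} (hn : n < 2048) : en z s τ n ∈ h.AA :=
  h.e3_mem (dv_spec (Nat.mod_lt _ (by norm_num))).1 _ (by omega)

theorem exists_en {y : H} (hy : y ∈ h.AA) : ∃ n < 2048, en z s τ n = y := by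
  obtain ⟨a, ha, e⟩ := h.map_mem hy
  have h1 := h.inf_AA.le (mem_inf.2 ⟨h.mem_iff.2 (by rw [map_mul, map_inv, h.ρτ a ha, e, mul_inv_cancel]),
    mul_mem hy (inv_mem (h.τ_mem ha))⟩)
  obtain ⟨c, ec⟩ := h.exists_s h1.1
  obtain ⟨k, hk, ek⟩ := exists_dv h1.2
  have key : ∀ k < 64, ∀ c : ZMod 2, ∀ a < 16, bt (k + 64 * c.val + 128 * a) 6 = c := by decide +kernel
  have := c.val_lt
  refine ⟨k + 64 * c.val + 128 * a, by omega, ?_⟩
  rw [en, key k hk c a ha, show (k + 64 * c.val + 128 * a) % 64 = k by omega,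
    show (k + 64 * c.val + 128 * a) / 128 = a by omega, e3, ek, mul_assoc, (h.zp_comm _ c).eq, ← mul_assoc, ← ec,
    inv_mul_cancel_right]

theorem en_inj {m n : ℕ} (hm : m < 2048) (hn : n < 2048) (e : en z s τ m = en z s τ n) : m = n := by
  have h1 := congrArg ρ e
  rw [en, en, h.ρ_e3 _ _ (by omega), h.ρ_e3 _ _ (by omega)] at h1
  have h2 := el_inj (by omega) (by omega) h1
  rw [en, en, e3, e3, h2, mul_assoc, mul_assoc, (h.zp_comm _ _).eq, (h.zp_comm (τ _) _).eq, ← mul_assoc, ← mul_assoc,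
    mul_left_inj] at e
  have h3 := congrArg π e
  rw [h.mul (h.sQ _) (h.zp_mem _), h.mul (h.sQ _) (h.zp_mem _), h.π_zp, h.π_zp, h.πs, h.πs, add_left_inj] at h3
  have h4 := congrArg di (vec_inj (dv_lt _) (dv_lt _) h3)
  rw [(dv_spec (Nat.mod_lt _ (by norm_num))).2.1, (dv_spec (Nat.mod_lt _ (by norm_num))).2.1] at h4
  rw [h3, mul_right_inj] at e
  have h5 := h.zp_inj e
  have key : ∀ n, n % 128 = n % 64 + 64 * (bt n 6).val := fun n => by
    rw [bt, Nat.testBit_eq_decide_div_mod_eq]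
    split_ifs with H <;> simp only [decide_eq_true_eq, ZMod.val_one, ZMod.val_zero] at H ⊢ <;> omega
  have := key m
  have := key n
  rw [h5] at *
  omega

theorem ncard_en {S : Set H} (hS : S ⊆ h.AA) (q : ℕ → Bool) (e : ∀ n < 2048, en z s τ n ∈ S ↔ q n = true) :
    S.ncard = sumR (fun n => bif' (q n) 1 0) 2048 :=
  ncard_eq_sumR (fun _ hm _ hn => h.en_inj hm hn) S q (fun _ hy => h.exists_en (hS hy)) e

theorem card_AA : Nat.card h.AA = 2 ^ 11 :=
  (h.ncard_en subset_rfl (fun _ => true) fun _ hn => iff_of_true (h.en_mem hn) rfl).trans (by decide +kernel)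

theorem AA_sq {y : H} (hy : y ∈ h.AA) : y * y = 1 := by
  obtain ⟨n, hn, rfl⟩ := h.exists_en hy
  have hv := (dv_spec (Nat.mod_lt n (show 0 < 64 by norm_num))).1
  rw [en, e3, h.sq_zp, (h.comm_τ (by omega) hv).mul_mul_mul_comm, h.s_add hv hv, V_add_self, h.zero,
    h.τ_sq (by omega), one_mul]

theorem AA_le : h.AA ≤ T0.comap ρ := fun _ hy => A0_le (h.map_mem hy)

theorem cent_AA : centralizer h.AA = h.AA := le_antisymm (centralizer_le h.pre_le) fun a ha =>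
  mem_cent_subgroup_iff.2 fun b hb => commute_of_sq (h.AA_sq ha) (h.AA_sq hb) (h.AA_sq (mul_mem ha hb))

theorem map_AA : h.AA.map ρ = A0 := le_antisymm (map_le_iff_le_comap.2 fun _ => h.map_mem)
  (by rintro _ ⟨a, ha, rfl⟩; exact ⟨_, h.τ_mem ha, h.ρτ a ha⟩)

theorem card_inf_AA : Nat.card ↥(Q ⊓ h.AA) = 2 ^ 7 := by rw [h.inf_AA, h.card_pre, card_HX]; rfl

theorem eq_AA {B : Subgroup H} (hB : B ≤ T0.comap ρ) (sq : ∀ b ∈ B, b * b = 1) (hc : Nat.card h.AA ≤ Nat.card B) :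
    B = h.AA := by
  haveI := h.finite
  have cm : ∀ a ∈ B, ∀ b ∈ B, Commute a b := fun a ha b hb => commute_of_sq (sq a ha) (sq b hb) (sq _ (mul_mem ha hb))
  let U : AddSubgroup V :=
    { carrier := {v | ∃ y ∈ B, y ∈ Q ∧ π y = v}
      zero_mem' := ⟨1, one_mem _, one_mem _, h.one⟩
      add_mem' := by
        rintro _ _ ⟨a, ha, ha', rfl⟩ ⟨b, hb, hb', rfl⟩
        exact ⟨_, mul_mem ha hb, mul_mem ha' hb', h.mul ha' hb'⟩
      neg_mem' := fun {v} H => by rwa [neg_eq_of_add_eq_zero_left (V_add_self v)] }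
  have h1 : ∀ q ∈ h.pre U, ∃ y ∈ B, ∃ c, q = y * zp z c := fun q ⟨hq, y, hy, hy', e⟩ =>
    ⟨y, hy, h.exists_zp hy' hq e.symm⟩
  have h2 := card_le_of_sq h.es (E := h.pre U) (fun _ => And.left) (h.z_mem_pre U) (fun q hq => by
    obtain ⟨y, hy, c, rfl⟩ := h1 q hq
    rw [h.sq_zp, sq y hy]) h.card_Q
  have h3 := card_le_of_le (show Q ⊓ B ≤ h.pre U from fun y hy => ⟨hy.1, y, hy.2, hy.1, rfl⟩)
  have h4 := h.card_map B
  rw [h.card_pre] at h2 h3
  rw [h.card_AA] at hc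
  have fix : ∀ b ∈ B.map ρ, ∀ u ∈ U, b u = u := by
    rintro _ ⟨b, hb, rfl⟩ _ ⟨y, hy, hy', rfl⟩
    exact h.fix_of_comm hy' (cm b hb y hy)
  have h5 := le_A0 (map_le_iff_le_comap.2 hB) (by
    rintro _ ⟨b, hb, rfl⟩
    rw [← map_mul, sq b hb, map_one]) fix (by omega) (by nlinarith)
  have h6 := card_le_of_le h5
  rw [card_A0] at h6
  have h7 : B.map ρ = A0 := eq_of_le_of_card_ge h5 (by rw [card_A0]; nlinarith)
  have h8 : U = HX := AddSubgroup.eq_of_le_of_card_ge (fun u hu => mem_HX_of_fix fun g hg => fix g (h7.ge hg) u hu)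
    (by rw [card_HX]; nlinarith)
  refine eq_of_le_of_card_ge (fun b hb => mem_cent_subgroup_iff.2 fun q hq => ?_) (h.card_AA.le.trans hc)
  obtain ⟨y, hy, c, rfl⟩ := h1 q (h8 ▸ hq)
  exact (cm b hb y hy).mul_right (h.zp_comm b c)

end XS

theorem FS.exists_XS {H : Type*} [Group H] {Q : Subgroup H} {z : H} {π : H → V} {ρ : H →* L2} (h : FS Q z π ρ)
    (hy : yy ∈ ρ.range) : ∃ x s τ, XS Q z π ρ x s τ := by
  obtain ⟨x, h1, h2⟩ := h.exists_x
  obtain ⟨s, h3⟩ := h.exists_SS hy h1 h2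
  obtain ⟨τ, h4, -⟩ := h3.exists_XS (fun _ => False) id
  exact ⟨x, s, τ, h4⟩

theorem FS.exists_XS_syl {H : Type*} [Group H] {Q : Subgroup H} {z : H} {π : H → V} {ρ : H →* L2} (h : FS Q z π ρ)
    (hy : yy ∈ ρ.range) (T : Sylow 2 H) : ∃ π ρ x s τ, XS Q z π ρ x s τ ∧ (T : Subgroup H) = T0.comap ρ := by
  obtain ⟨k, e⟩ := h.exists_syl hy T.2
  obtain ⟨x, s, τ, h'⟩ := (h.conj k).exists_XS (by rwa [h.range_conj])
  exact ⟨_, _, x, s, τ, h', (T.is_maximal' (IsPGroup.of_card (h'.card_T h'.hy)) e).symm⟩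

theorem realizeEqns_U6Sec : True := by
  have := @CA.U6.FS.AA.eq_1.{0}
  have := @CA.U6.FS.AA.eq_def.{0}
  have := @CA.U6.FS.AA.congr_simp.{0}
  have := @CA.U6.zp.eq_1.{0}
  have := @CA.U6.zp.eq_def.{0}
  have := @CA.U6.zp.congr_simp.{0}
  have := @CA.U6.en.eq_1.{0}
  have := @CA.U6.en.eq_def.{0}
  have := @CA.U6.en.congr_simp.{0}
  have := @CA.U6.e3.eq_1.{0}
  have := @CA.U6.e3.eq_def.{0}
  have := @CA.U6.e3.congr_simp.{0}
  trivial

end CA.U6
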