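import Cfsg.Agent.U6.Mat
import Cfsg.Agent.Lin.Basic
import Cfsg.Agent.FG.CompCore

/-! Groups of large Fischer type: the normalizer of the singular eight-group. -/

set_option autoImplicit false

namespace CA.U6

open Cfsg Cfsg.Agent Cfsg.Agent.Unit CA.M24 Subgroup Equiv CA.FG CA.Fi Matrix Multiplicative

abbrev SL32 : Type := SpecialLinearGroup (Fin 3) (ZMod 2)

theorem exists_SL {G : Type*} [Group G] {n : ℕ} (ε : Multiplicative (Fin n → ZMod 2) →* G)
    (hε : Function.Injective ε) : ∃ α : normalizer (ε.range : Set G) →* SpecialLinearGroup (Fin n) (ZMod 2),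
      ∀ (l : normalizer (ε.range : Set G)) a, l * ε (ofAdd a) * (l : G)⁻¹ = ε (ofAdd ((α l).1 *ᵥ a)) := by
  choose f hf using fun (l : normalizer (ε.range : Set G)) (a : Fin n → ZMod 2) =>
    conj_mem_of_mem_norm l.2 (show ε (ofAdd a) ∈ ε.range from ⟨_, rfl⟩)
  let F (l) := (AddMonoidHom.mk' (fun a => toAdd (f l a)) fun a b => congrArg toAdd (hε (by
    rw [hf, ofAdd_add, map_mul, ← conj_mul, ← hf, ← hf, ← map_mul]; rfl))).toZModLinearMap 2
  have h1 : ∀ (l : normalizer (ε.range : Set G)) a,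
      l * ε (ofAdd a) * (l : G)⁻¹ = ε (ofAdd (LinearMap.toMatrix' (F l) *ᵥ a)) := fun l a => by
    rw [LinearMap.toMatrix'_mulVec, ← hf]; rfl
  let β : normalizer (ε.range : Set G) →* Matrix (Fin n) (Fin n) (ZMod 2) :=
    { toFun := fun l => LinearMap.toMatrix' (F l)
      map_one' := mulVec_injective (funext fun a => ofAdd.injective (hε (by rw [← h1]; simp)))
      map_mul' := fun l m => mulVec_injective (funext fun a => ofAdd.injective (hε (by
        rw [← h1, ← mulVec_mulVec, ← h1, ← h1]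
        erw [coe_mul]
        group))) }
  exact ⟨MonoidHom.mk' (fun l => ⟨β l, (zmod_cases _).resolve_left ((isUnit_iff_isUnit_det _).1
    ((Group.isUnit l).map β)).ne_zero⟩) fun l m => Subtype.ext (map_mul β l m), h1⟩

theorem SL32_two {N : Subgroup SL32} (hn : N.Normal) (h : IsPGroup 2 N) : N = ⊥ := by
  have h1 := Lin.card_center_mul_card_PSL (ZMod.card 2) 3 (by norm_num)
  have h2 := Lin.card_SL (ZMod.card 2) 3 (by norm_num)
  rw [Fin.prod_univ_three] at h2
  have h3 : center SL32 = ⊥ := card_eq_one.1 (Lin.card_center_SL_fin (ZMod.card 2) 3 (by norm_num))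
  haveI := ((QuotientGroup.quotientMulEquivOfEq h3).trans QuotientGroup.quotientBot).isSimpleGroup_congr.1
    (Lin.isSimpleGroup_PSL (by simp))
  refine (hn.eq_bot_or_eq_top).resolve_right fun e => ?_
  haveI := Fact.mk Nat.prime_two
  obtain ⟨n, e'⟩ := IsPGroup.iff_card.1 h
  rw [e, card_top, show Nat.card SL32 = 168 by simpa using h2] at e'
  exact absurd (Nat.prime_three.dvd_of_dvd_pow (e' ▸ (by norm_num : 3 ∣ 168))) (by norm_num)

theorem norm_struct {G : Type*} [Group G] [Finite G] (ε : Multiplicative (Fin 3 → ZMod 2) →* G)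
    (hε : Function.Injective ε) {V R : Subgroup G} (hV : V = ε.range)
    (hQ : ∀ k, ∃ P, LE P (ε (ofAdd (Pi.single k 1))) ∧ V ≤ P) (γ : centralizer (V : Set G) →* A6)
    (hγ : Function.Surjective γ) (hR : γ.ker = R.subgroupOf _) (hRC : R ≤ centralizer V) (h2 : IsPGroup 2 R) :
    R = (pCore 2 (normalizer (V : Set G))).map (normalizer (V : Set G)).subtype ∧
      ∃ _ : (R.subgroupOf (normalizer (V : Set G))).Normal,
        Nonempty (normalizer (V : Set G) ⧸ R.subgroupOf (normalizer (V : Set G)) ≃* SL32 × A6) := by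
  subst hV
  obtain ⟨α, hα⟩ := exists_SL ε hε
  choose P hP hVP using hQ
  have cj : ∀ (l : normalizer (ε.range : Set G)) (c : centralizer (ε.range : Set G)), (l : G) * c * (l : G)⁻¹ ∈
    centralizer (ε.range : Set G) := fun l c => conj_mem_of_mem_norm (norm_cent le_rfl l.2) c.2
  have kα : ∀ l, α l = 1 ↔ (l : G) ∈ centralizer (ε.range : Set G) := fun l => by
    rw [mem_cent_subgroup_iff]
    refine ⟨fun H => ?_, fun H => Subtype.ext (mulVec_injective (funext fun a => ofAdd.injective (hε ?_)))⟩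
    · rintro _ ⟨a, rfl⟩
      have := hα l (toAdd a)
      rw [H] at this
      simpa [conj_eq_iff_commute] using this
    · rw [← hα, conj_eq_iff_commute.2 (H _ ⟨_, rfl⟩)]; simp
  have PL : ∀ k, P k ≤ normalizer (ε.range : Set G) := fun k => le_normalizer_iff.2 fun q hq v hv => by
    rcases (hP k).conj_or hq (hVP k hv) with e | e <;> rw [e]
    exacts [hv, mul_mem hv ⟨_, rfl⟩]
  have key : ∀ N : Subgroup (normalizer (ε.range : Set G)), (∀ k q (hq : q ∈ P k), ⟨q, PL k hq⟩ ∈ N) → N.map α = ⊤ :=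
    fun N hN => Lin.eq_top_of_transvection_mem _ fun j k hjk c => by
      rcases zmod_cases c with rfl | rfl
      · rw [show SpecialLinearGroup.transvection hjk (0 : ZMod 2) = 1 from Subtype.ext (transvection_zero ..)]
        exact one_mem _
      let W : Subgroup (Multiplicative (Fin 3 → ZMod 2)) :=
        { carrier := {a | toAdd a k = 0}
          one_mem' := rfl
          mul_mem' := fun {a b} ha hb => show toAdd a k + toAdd b k = 0 by rw [ha, hb, add_zero]
          inv_mem' := fun {a} ha => show -toAdd a k = 0 by rw [ha, neg_zero] }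
      obtain ⟨q, hq, h1, h2⟩ := (hP j).exists_commute_not_commute (A := W.map ε) ((map_le_range ..).trans (hVP j))
        (mem_map_of_mem ε (Pi.single_eq_of_ne hjk.symm 1)) (hVP j ⟨ofAdd (Pi.single k 1), rfl⟩)
        (by rw [mem_map_iff_mem hε]; exact fun e => one_ne_zero ((Pi.single_eq_same (M := fun _ => ZMod 2) k 1).symm.trans e))
      refine ⟨_, hN j q hq, Subtype.ext (Matrix.ext_of_mulVec_single fun m => ofAdd.injective (hε ?_))⟩
      rw [← hα]
      by_cases hm : m = k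
      · rw [hm, (hP j).conj_eq hq (hVP j ⟨_, rfl⟩) h2, ← map_mul]
        exact congrArg ε (congrArg ofAdd ((by decide : ∀ (j k : Fin 3) (h : j ≠ k), Pi.single k 1 + Pi.single j 1 =
          (SpecialLinearGroup.transvection h (1 : ZMod 2)).1 *ᵥ Pi.single k 1) j k hjk))
      · rw [conj_eq_iff_commute.2 (h1 _ (mem_map_of_mem ε (Pi.single_eq_of_ne (Ne.symm hm) 1)))]
        exact congrArg ε (congrArg ofAdd ((by decide : ∀ (j k m : Fin 3) (h : j ≠ k), m ≠ k → Pi.single m 1 =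
          (SpecialLinearGroup.transvection h (1 : ZMod 2)).1 *ᵥ Pi.single m 1) j k m hjk hm))
  have hq : ∀ k q (hq : q ∈ P k) c, γ ⟨_, cj ⟨q, PL k hq⟩ c⟩ = γ c := fun k q hq c => by
    have cm : ∀ c : centralizer (ε.range : Set G), Commute (c : G) (ε (ofAdd (Pi.single k 1))) := fun c =>
      mem_cent_subgroup_iff.1 c.2 _ ⟨_, rfl⟩
    have := A6_two (N := ((P k).subgroupOf _).map γ) (Normal.map ⟨fun y hy c => (hP k).norm _ (cm c) _ hy⟩ γ hγ)
      (((hP k).isPGroup.comap_of_injective _ (subtype_injective _)).map γ)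
    rw [← mul_inv_eq_one, ← map_inv, ← map_mul]
    exact this.le (mem_map_of_mem γ (show q * c * q⁻¹ * (c : G)⁻¹ ∈ P k by
      simpa only [mul_assoc] using mul_mem hq ((hP k).norm _ (cm c) _ (inv_mem hq))))
  have hm : ∀ l m c, γ ⟨_, cj (l * m) c⟩ = γ ⟨_, cj l ⟨_, cj m c⟩⟩ := fun l m c =>
    congrArg γ (Subtype.ext (show (l : G) * m * c * ((l : G) * m)⁻¹ = l * (m * c * (m : G)⁻¹) * (l : G)⁻¹ by group))
  let D : Subgroup (normalizer (ε.range : Set G)) := toSub
    { carrier := {l | ∃ a, ∀ c, γ ⟨_, cj l c⟩ = a * γ c * a⁻¹}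
      one_mem' := ⟨1, fun c => (congrArg γ (Subtype.ext (by simp))).trans (by group : γ c = _)⟩
      mul_mem' := fun {l m} ⟨a, ha⟩ ⟨b, hb⟩ => ⟨a * b, fun c => by
        erw [hm, ha, hb]
        group⟩ }
  have hC : ∀ (l : normalizer (ε.range : Set G)) (hl : l.1 ∈ centralizer (ε.range : Set G)) c,
      γ ⟨_, cj l c⟩ = γ ⟨l, hl⟩ * γ c * (γ ⟨l, hl⟩)⁻¹ := fun l hl c => by rw [← map_inv, ← map_mul, ← map_mul]; rfl
  have hD : ∀ l, l ∈ D := fun l => by
    obtain ⟨d, hd, e⟩ := (key D fun k q H => ⟨1, fun c => by simpa using hq k q H c⟩).ge (mem_top (α l))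
    have := (kα (d⁻¹ * l)).1 (by rw [map_mul, map_inv, e, inv_mul_cancel])
    exact (mul_mem_cancel_left (inv_mem hd)).1 ⟨_, hC _ this⟩
  choose β hβ using hD
  have uq : ∀ a b : A6, (∀ c, a * γ c * a⁻¹ = b * γ c * b⁻¹) → a = b := fun a b H => by
    haveI := alternatingGroup.isSimpleGroup (α := Fin 6) (by simp)
    have : center A6 = ⊥ := (IsSimpleGroup.eq_bot_or_eq_top_of_normal _ inferInstance).resolve_right fun e =>
      absurd (congrArg Subtype.val (mem_center_iff.1 (e.ge (mem_top ⟨c1, C9_le c1_mem⟩))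
        ⟨swap 0 3 * swap 1 4, Perm.mem_alternatingGroup.2 (by decide)⟩)) (by decide)
    refine (inv_mul_eq_one.1 (this.le (mem_center_iff.2 fun y => ?_))).symm
    obtain ⟨c, rfl⟩ := hγ y
    rw [eq_comm, ← mul_inv_eq_iff_eq_mul, _root_.mul_inv_rev, inv_inv, mul_assoc b⁻¹, mul_assoc b⁻¹, ← mul_assoc, ← mul_assoc,
      mul_assoc b⁻¹, mul_assoc b⁻¹, H]
    group
  let B : normalizer (ε.range : Set G) →* A6 := MonoidHom.mk' β fun l m => uq _ _ fun c => by
    rw [← hβ, hm, hβ, hβ]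
    group
  have hB : ∀ (l : normalizer (ε.range : Set G)) (hl : l.1 ∈ centralizer (ε.range : Set G)), B l = γ ⟨l, hl⟩ :=
    fun l hl => uq _ _ fun c => (hβ l c).symm.trans (hC l hl c)
  have hk : (α.prod B).ker = R.subgroupOf _ := Subgroup.ext fun l => by
    rw [MonoidHom.mem_ker, MonoidHom.prod_apply, Prod.mk_eq_one, kα]
    exact ⟨fun H => hR.le (show ⟨l, H.1⟩ ∈ γ.ker from (hB l H.1).symm.trans H.2),
      fun H => ⟨hRC H, (hB l (hRC H)).trans (hR.ge H)⟩⟩
  have hs : Function.Surjective (α.prod B) := fun y => by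
    obtain ⟨l, hl, e⟩ := (key B.ker fun k q H => uq _ _ fun c => (hβ _ c).symm.trans (by simpa using hq k q H c)).ge
      (mem_top y.1)
    obtain ⟨c, ec⟩ := hγ y.2
    exact ⟨l * ⟨c, cent_le_norm _ c.2⟩, Prod.ext
      ((map_mul α ..).trans (by rw [e, (kα ⟨c, cent_le_norm _ c.2⟩).2 c.2, mul_one]))
      ((map_mul B ..).trans (by rw [show B l = 1 from hl, one_mul, hB _ c.2, ec]))⟩
  haveI := (α.prod B).normal_ker
  haveI : (R.subgroupOf (normalizer (ε.range : Set G))).Normal := hk ▸ this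
  refine ⟨?_, this, ⟨(QuotientGroup.quotientMulEquivOfEq hk.symm).trans
    (QuotientGroup.quotientKerEquivOfSurjective _ hs)⟩⟩
  rw [← map_subgroupOf_eq_of_le (hRC.trans (cent_le_norm _))]
  refine congrArg (Subgroup.map _) (le_antisymm (Comp.le_pCore this (h2.comap_of_injective _ (subtype_injective _))) ?_)
  rw [← hk, MonoidHom.ker_prod, le_inf_iff, ← Subgroup.map_eq_bot_iff, ← Subgroup.map_eq_bot_iff]
  exact ⟨SL32_two (Normal.map inferInstance _ (Prod.fst_surjective.comp hs)) ((Comp.pCore_isPGroup 2 _).map _),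
    A6_two (Normal.map inferInstance _ (Prod.snd_surjective.comp hs)) ((Comp.pCore_isPGroup 2 _).map _)⟩

theorem special_of {G : Type*} [Group G] [Finite G] {R V : Subgroup G} (hR : IsPGroup 2 R) (h1 : ∀ r ∈ R, r * r ∈ V)
    (h2 : V ≤ ⁅R, R⁆) (h3 : ∀ r ∈ R, (∀ q ∈ R, Commute r q) ↔ r ∈ V) :
    IsSpecial 2 R ∧ (center R).map R.subtype = V := by
  have hV : V ≤ R := h2.trans (der_le R)
  have h4 : center R = V.subgroupOf R := Subgroup.ext fun r => mem_center_iff.trans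
    (Iff.trans ⟨fun H q hq => congrArg Subtype.val (H ⟨q, hq⟩).symm, fun H q => Subtype.ext (H q q.2).symm⟩ (h3 r r.2))
  have h5 : frattini R ≤ center R := h4 ▸ frattini_le_of_sq fun r => h1 r r.2
  have h6 : center R ≤ commutator R := by
    rw [h4, ← map_subtype_commutator] at *
    exact (comap_mono h2).trans (comap_map_eq_self_of_injective (subtype_injective _) _).le
  have h7 : commutator R ≤ frattini R := by
    haveI := Fact.mk Nat.prime_two
    haveI := hR.isNilpotent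
    exact Phi_top (G := R) ▸ der1_sub_Phi_of_nil inferInstance
  exact ⟨⟨hR, le_antisymm h5 (h6.trans h7), le_antisymm (h7.trans h5) h6⟩, by rw [h4, map_subgroupOf_eq_of_le hV]⟩

/-! ### The stabiliser of a singular vector -/

/-- the line through a vector -/
def FV (v : V) : AddSubgroup V where
  carrier := {w | ∃ c : F4, c • v = w}
  zero_mem' := ⟨0, zero_smul _ _⟩
  add_mem' := by rintro _ _ ⟨a, rfl⟩ ⟨b, rfl⟩; exact ⟨a + b, add_smul ..⟩
  neg_mem' := by rintro _ ⟨a, rfl⟩; exact ⟨-a, neg_smul ..⟩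

theorem KK_hh {g : L2} (hg : g ∈ KK) (u v : V) : hh (g u) (g v) = hh u v := by
  obtain ⟨k, -, rfl⟩ := hg
  exact k.2 u v

/-- the stabiliser of a singular vector -/
noncomputable abbrev SV : Subgroup L2 := KK ⊓ MulAction.stabilizer L2 (vec 126)

theorem hh126 : hh (vec 126) (vec 126) = 0 := by decide

/-- the unipotent radical of the stabiliser -/
noncomputable def E0 : Subgroup L2 := toSub
  { carrier := {g | g ∈ SV ∧ ∀ w, hh w (vec 126) = 0 → g w + w ∈ FV (vec 126)}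
    one_mem' := ⟨one_mem _, fun w _ => ⟨0, by rw [zero_smul]; exact (V_add_self w).symm⟩⟩
    mul_mem' := fun {a b} ha hb => ⟨mul_mem ha.1 hb.1, fun w hw => by
      have := add_mem (ha.2 (b w) (by rw [← hb.1.2, ← hw]; exact KK_hh hb.1.1 _ _)) (hb.2 w hw)
      rwa [add_assoc, ← add_assoc (b w), V_add_self, zero_add] at this⟩ }

theorem SV_FV {g : L2} (hg : g ∈ SV) {w : V} (hw : w ∈ FV (vec 126)) : g w = w := by
  obtain ⟨c, rfl⟩ := hw
  rw [KK_lin hg.1]
  exact congrArg _ hg.2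

theorem E0_normal : (E0.subgroupOf SV).Normal := ⟨fun g hg k => ⟨(k * g * k⁻¹).2, fun w hw => by
  have := hg.2 (k.1⁻¹ w) (by rw [← (inv_mem k.2).2, ← hw]; exact KK_hh (inv_mem k.2).1 _ _)
  rw [← SV_FV k.2 this, map_add] at this
  erw [k.1.apply_symm_apply w] at this
  exact this⟩⟩

theorem E0_two : IsPGroup 2 E0 := fun g => ⟨2, Subtype.ext (LinearEquiv.ext fun w => by
  have h1 := g.2.2 (g.1 w + w) (by
    rw [hh.add_left]
    nth_rw 1 [← g.2.1.2]
    erw [KK_hh g.2.1.1, fq4.add_self])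
  rw [map_add, add_assoc, ← add_assoc (g.1 w), V_add_self, zero_add] at h1
  have h2 := SV_FV (mul_mem g.2.1 g.2.1) h1
  rw [map_add, add_comm (g.1 (g.1 w)) w] at h2
  exact add_right_cancel h2)⟩

theorem card_SV : Nat.card SV = 5760 := by
  have := card_orbit_mul KK (vec 126)
  rw [show MulAction.orbit KK (vec 126) = cs 26 from Set.Subset.antisymm
    (by
      rintro _ ⟨⟨_, k, hk, rfl⟩, rfl⟩
      exact mem_cs26.2 ⟨map_mem_cs31 k (mem_cs26.1 vec126_mem).1, fun H => (mem_cs26.1 vec126_mem).2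
        (UG.inv_apply_self k (vec 126) ▸ G0_map_mem (K0_le (inv_mem hk)) H)⟩) fun w hw => by
      obtain ⟨k, hk, e⟩ := exists_K0_26 vec126_mem hw
      exact ⟨⟨_, k, hk, rfl⟩, e⟩, card_cs (by norm_num), card_KK, show nn 26 = 1701 from rfl] at this
  rw [← Nat.card_congr (subgroupOfEquivOfLe inf_le_left).toEquiv, inf_subgroupOf_left]
  change Nat.card (MulAction.stabilizer KK (vec 126)) = _
  omega

def EW : List (List ℕ) := [[], [504, 6], [756, 10], [882, 12], [1260, 18], [1386, 20], [1638, 24], [1855, 34],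
  [1727, 36], [1471, 40], [959, 48], [253, 66], [379, 68], [631, 72], [1135, 80], [2046, 96]]

def ec (k : ℕ) : ℕ := tvW (EW.getD k [])

theorem ec_chk : allR (fun k => band (okW (EW.getD k [])) (band (evn (EW.getD k [])) (force (ec k) fun c =>
    band (Nat.beq (app c 126) 126) (band (allP (fun w => bimp (Nat.beq (hN w 126) 0)
      (anyR (fun a => Nat.beq (sm a 126) (Nat.xor (app c w) w)) 4)) 12 0) (band (Nat.beq (cmul c c) one)
        (band (allR (fun l => bimp (Nat.beq (app (ec l) 1) (app c 1)) (Nat.beq l k)) 16)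
          (bor (Nat.beq c one) (anyL (fun w => bne' (app c w) w) [6, 10, 18, 34])))))))) 16 = true := by decide +kernel

theorem ec_spec {k : ℕ} (hk : k < 16) : InH E0 (ec k) ∧ ofC (ec k) * ofC (ec k) = 1 ∧
    (∀ l < 16, ofC (ec l) = ofC (ec k) → l = k) ∧ ((∀ w, hh w (vec 126) = 0 → ofC (ec k) w = w) → ofC (ec k) = 1) := by
  have h := allR_eq_true.1 ec_chk
  simp only [band_eq_true, force_eq, beq_iff, allR_eq_true, bimp_eq_true, bor_eq_true, anyL_eq_true,
    bne'_eq_true] at h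
  have r : ∀ k < 16, InH KK (ec k) := fun k hk => inK_tvW (h k hk).1 (h k hk).2.1
  obtain ⟨-, -, h1, h2, h3, h4, h5⟩ := h k hk
  have r' := (r k hk).rep
  refine ⟨⟨_, ⟨⟨(r k hk).mem, r'.apply (by norm_num) h1⟩, fun w hw => ?_⟩, r'⟩, (r'.mul r').eq (by rw [h3]; exact rep_one),
    fun l hl e => h4 l hl (vec_inj (app_lt ..) (app_lt ..) (by
      rw [← (r l hl).rep 1 (by norm_num), ← r' 1 (by norm_num), e])), fun H => h5.elim
        (fun e => r'.eq (by rw [e]; exact rep_one)) fun ⟨w, hw, e⟩ => (e ?_).elim⟩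
  · obtain ⟨n, hn, rfl⟩ := exists_vec w
    obtain ⟨a, ha, e⟩ := anyR_eq_true.1 (bimp_eq_true.1 (allP_zero h2 n hn) (beq_iff.2 ((hh_vec_eq_zero ..).1 hw)))
    exact ⟨f4 a, by rw [← (sm_spec ha (by norm_num)).2, beq_iff.1 e, vec_xor, r' n hn]⟩
  · have : ∀ w ∈ [6, 10, 18, 34], w < 4096 ∧ hN w 126 = 0 := by decide +kernel
    exact (r'.apply_iff (this w hw).1 (this w hw).1).1 (H _ ((hh_vec_eq_zero ..).2 (this w hw).2))

theorem E0_spec : Nat.card E0 = 16 ∧ (∀ g ∈ E0, ∃ k < 16, ofC (ec k) = g) ∧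
    ∃ γ : SV →* A6, Function.Surjective γ ∧ γ.ker = E0.subgroupOf SV := by
  haveI := E0_normal
  have h1 := A6_quot (E := E0) (X := SV) E0_two (al_injective omU) fun a => ⟨al_mem _ a, al_fix126 a⟩
  have h2 := card_eq_card_quotient_mul_card_subgroup (E0.subgroupOf SV)
  have h3 := Nat.card_le_card_of_injective _ h1
  rw [Nat.card_congr (subgroupOfEquivOfLe (show E0 ≤ SV from fun _ => And.left)).toEquiv, card_SV] at h2
  rw [card_A6] at h3
  have h4 := ncard_eq_sumR (fun m hm n hn => (ec_spec hn).2.2.1 m hm) {g | ∃ k < 16, ofC (ec k) = g} (fun _ => true)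
    (fun _ => id) fun n hn => iff_of_true ⟨n, hn, rfl⟩ rfl
  rw [show sumR _ 16 = 16 by decide +kernel] at h4
  have h5 : {g | ∃ k < 16, ofC (ec k) = g} ⊆ (E0 : Set L2) := by rintro _ ⟨k, hk, rfl⟩; exact (ec_spec hk).1.mem
  have h6 : 16 ≤ Nat.card E0 := h4.ge.trans (Set.ncard_le_ncard h5)
  have h7 : Nat.card E0 = 16 := by nlinarith
  let e := MulEquiv.ofBijective _ ((Nat.bijective_iff_injective_and_card _).2 ⟨h1, by rw [card_A6]; nlinarith⟩)
  exact ⟨h7, (Set.eq_of_subset_of_ncard_le h5 (h7.trans h4.symm).le).ge, e.symm.toMonoidHom.comp (QuotientGroup.mk' _),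
    e.symm.surjective.comp (QuotientGroup.mk'_surjective _), Subgroup.ext fun g =>
      (MulEquiv.map_eq_one_iff e.symm).trans (QuotientGroup.eq_one_iff g)⟩

theorem card_FV : Nat.card (FV (vec 126)) = 4 :=
  (ncard_eq (FV (vec 126) : Set V) (fun n => anyR (fun a => Nat.beq (sm a 126) n) 4) fun n hn => by
    simp only [anyR_eq_true, beq_iff]
    refine ⟨fun ⟨c, e⟩ => ?_, fun ⟨a, ha, e⟩ => ⟨f4 a, by rw [← (sm_spec ha (by norm_num)).2, e]⟩⟩
    obtain ⟨a, ha, rfl⟩ := (by decide : ∀ c : F4, ∃ a < 4, f4 a = c) c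
    exact ⟨a, ha, vec_inj (sm_spec ha (by norm_num)).1 hn ((sm_spec ha (by norm_num)).2.trans e)⟩).trans
    (by decide +kernel)

theorem hh_FV {u w : V} (h : hh u (vec 126) = 0) (hw : w ∈ FV (vec 126)) : hh u w = 0 := by
  obtain ⟨c, rfl⟩ := hw
  rw [hh.smul_right, h, mul_zero]

theorem mem_FV {u : V} (h : ∀ w, hh w (vec 126) = 0 → bb u w = 0) : u ∈ FV (vec 126) := by
  obtain ⟨n, hn, rfl⟩ := exists_vec u
  have key : allP (fun n => bor (anyR (fun a => Nat.beq (sm a 126) n) 4) (anyL (fun w => bne' (hN n w) 0)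
    [6, 10, 18, 34, 131])) 12 0 = true := by decide +kernel
  rcases bor_eq_true.1 (allP_zero key n hn) with H | H
  · obtain ⟨a, ha, e⟩ := anyR_eq_true.1 H
    exact ⟨f4 a, by rw [← (sm_spec ha (by norm_num)).2, beq_iff.1 e]⟩
  · obtain ⟨w, hw, e⟩ := anyL_eq_true.1 H
    have := (hh_vec_eq_zero ..).2 ((by decide +kernel : ∀ w ∈ [6, 10, 18, 34, 131], hN w 126 = 0) w hw)
    refine (bne'_eq_true.1 e ((hh_vec_eq_zero ..).1 (Herm.eq_zero_comm (hh_eq_zero.2 ⟨?_, ?_⟩)))).elim <;>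
      rw [bb_comm, h] <;> simp [this]

namespace SS

variable {H : Type*} [Group H] {Q : Subgroup H} {z : H} {π : H → V} {ρ : H →* L2} {x : H} {s : V → H}
  (h : SS Q z π ρ x s)
include h

theorem mem_KK' {c : H} (hc : ∀ v, ρ c (om4 • v) = om4 • ρ c v) : ρ c ∈ KK := by
  obtain ⟨y, e⟩ := (h.T0_syl h.hy).le ⟨128, by norm_num, rfl⟩
  have h1 : ¬ ∀ v, ρ y (om4 • v) = om4 • ρ y v := fun H => by
    have := H (vec 1)
    rw [e, el_semi le_rfl (by norm_num), om_add, add_eq_left, LinearEquiv.map_eq_zero_iff] at this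
    exact absurd this (by decide)
  by_contra h2
  refine h1 fun v => (ρ c).injective ?_
  rw [← LinearEquiv.mul_apply, KK_lin (h.mul_mem_KK.2 (iff_of_false h2 fun H => h1 (KK_lin H om4))), hc]
  rfl

/-- the singular eight-group -/
abbrev VH : Subgroup H := h.pre (FV (vec 126))

/-- the largest normal 2-subgroup of its normalizer -/
noncomputable abbrev RH : Subgroup H := centralizer h.VH ⊓ E0.comap ρ

theorem s_VH (c : F4) : s (c • vec 126) ∈ h.VH := ⟨h.sQ _, c, (h.πs _).symm⟩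

theorem map_CH {c : H} (hc : c ∈ centralizer (h.VH : Set H)) : ρ c ∈ SV := by
  have h1 : ∀ a : F4, ρ c (a • vec 126) = a • vec 126 := fun a => by
    simpa only [h.πs] using h.fix_of_comm (h.sQ _) (mem_cent_subgroup_iff.1 hc _ (h.s_VH a))
  have h2 : ρ c (vec 126) = vec 126 := by simpa only [one_smul] using h1 1
  refine ⟨h.mem_KK' ((h.lin_or c).resolve_right fun H => ?_), h2⟩
  exact absurd ((h1 _).symm.trans ((H _).trans (by rw [h2]))) (by decide)

theorem mem_CH {c : H} (hc : Commute c x) (e : ρ c ∈ SV) : c ∈ centralizer (h.VH : Set H) :=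
  mem_cent_subgroup_iff.2 fun q hq => by
    obtain ⟨a, ea⟩ := h.exists_s hq.1
    rw [ea]
    refine Commute.mul_right ?_ (h.zp_comm c a)
    rw [← conj_eq_iff_commute, h.conj_s hc, SV_FV e hq.2]

theorem mem_CH_iff {q : H} (hq : q ∈ Q) : q ∈ centralizer (h.VH : Set H) ↔ hh (π q) (vec 126) = 0 := by
  rw [mem_cent_subgroup_iff]
  refine ⟨fun H => Herm.eq_zero_comm (hh_eq_zero.2 ⟨?_, ?_⟩), fun H y hy => (h.commute_iff hq hy.1).2 (by
    rw [bb, hh_FV H hy.2]; rfl)⟩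
  · simpa only [h.πs, one_smul] using (h.commute_iff (h.sQ _) hq).1 (H _ (h.s_VH 1)).symm
  · simpa only [h.πs] using (h.commute_iff (h.sQ _) hq).1 (H _ (h.s_VH om4)).symm

theorem lift_CH {g : L2} (hg : g ∈ SV) : ∃ c ∈ centralizer (h.VH : Set H), Commute c x ∧ ρ c = g := by
  obtain ⟨c, h1, h2⟩ := h.exists_cent hg.1
  exact ⟨c, h.mem_CH h1 (h2 ▸ hg), h1, h2⟩

theorem Q_RH {q : H} (hq : q ∈ Q) (e : hh (π q) (vec 126) = 0) : q ∈ h.RH :=
  ⟨(h.mem_CH_iff hq).2 e, mem_comap.2 (h.mem_iff.1 hq ▸ one_mem _)⟩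

theorem card_RH : Nat.card h.RH = 2 ^ 15 := by
  haveI := h.finite
  have h1 := h.card_map h.RH
  have h2 := h.es.card_mul_card_cent (A := h.VH) (fun _ => And.left) (h.z_mem_pre _)
  rw [show h.RH.map ρ = E0 from le_antisymm (map_le_iff_le_comap.2 inf_le_right) fun g hg => by
      obtain ⟨c, h1, -, rfl⟩ := h.lift_CH hg.1
      exact ⟨c, ⟨h1, hg⟩, rfl⟩, E0_spec.1, show Q ⊓ h.RH = Q ⊓ centralizer h.VH from le_antisymm
    (inf_le_inf_left _ inf_le_left) fun q hq => ⟨hq.1, h.Q_RH hq.1 ((h.mem_CH_iff hq.1).1 hq.2)⟩] at h1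
  rw [h.card_pre, card_FV, h.card_Q] at h2
  omega

theorem RH_sq {r : H} (hr : r ∈ h.RH) : r * r ∈ h.VH := by
  obtain ⟨c, h1, h2, h3⟩ := h.lift_CH hr.2.1
  have hq : r * c⁻¹ ∈ Q := h.mem_iff.2 (by rw [map_mul, map_inv, h3, mul_inv_cancel])
  have h4 := hr.2.2 _ ((h.mem_CH_iff hq).1 (mul_mem hr.1 (inv_mem h1)))
  have h5 : c * c ∈ h.VH := by
    obtain ⟨k, hk, e⟩ := E0_spec.2.1 _ hr.2
    rcases h.cent_inf (h.mem_iff.2 (by rw [map_mul, h3, ← e, (ec_spec hk).2.1])) (h2.mul_left h2) with e | e <;> rw [e]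
    exacts [one_mem _, h.z_mem_pre _]
  rw [show r * r = c * (r * c⁻¹) * c⁻¹ * (r * c⁻¹) * ((r * c⁻¹)⁻¹ * (c * (r * c⁻¹) * c⁻¹)⁻¹ * (r * c⁻¹) *
    (c * (r * c⁻¹) * c⁻¹)) * (c * c) by group]
  refine mul_mem (mul_mem ⟨mul_mem (h.conj_mem c hq) hq, ?_⟩ ?_) h5
  · rwa [h.mul (h.conj_mem c hq) hq, h.act c hq, h3]
  · have := h.es.commutator_mem (inv_mem hq) (inv_mem (h.conj_mem c hq))
    rw [inv_inv, inv_inv] at this
    exact zpowers_le.2 (h.z_mem_pre _) this

theorem VH_le : h.VH ≤ ⁅h.RH, h.RH⁆ := by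
  obtain ⟨c, h1, h2, h3⟩ := h.lift_CH (ec_spec (k := 1) (by norm_num)).1.mem.1
  have r := (ec_spec (k := 1) (by norm_num)).1.rep
  have hc : c ∈ h.RH := ⟨h1, mem_comap.2 (h3 ▸ (ec_spec (k := 1) (by norm_num)).1.mem)⟩
  have hs : ∀ w, hh w (vec 126) = 0 → s w ∈ h.RH := fun w hw => h.Q_RH (h.sQ w) (by rwa [h.πs])
  have hz : z ∈ ⁅h.RH, h.RH⁆ := by
    have e := h.es.commutator_eq (h.sQ (vec 6)) (h.sQ (vec 131))
      (by rw [h.commute_iff (h.sQ _) (h.sQ _), h.πs, h.πs]; decide +kernel)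
    exact (congrArg (· ∈ _) e).mp (commutator_mem_commutator (hs _ (by decide +kernel)) (hs _ (by decide +kernel)))
  rintro q ⟨hq, a, e⟩
  have h4 := commutator_mem_commutator hc (hs (a • vec 131) (by rw [hh.smul_left, show hh _ _ = 0 by decide, mul_zero]))
  have h5 : c * s (a • vec 131) * c⁻¹ * (s (a • vec 131))⁻¹ ∈ Q := mul_mem (h.conj_mem c (h.sQ _)) (inv_mem (h.sQ _))
  rcases (h.eq_iff h5 hq).1 (by
    rw [h.mul (h.conj_mem c (h.sQ _)) (inv_mem (h.sQ _)), h.inv (h.sQ _), h.act c (h.sQ _), h.πs, h3,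
      KK_lin (ec_spec (k := 1) (by norm_num)).1.mem.1.1, r _ (by norm_num), ← smul_add, ← vec_xor, ← e]
    congr 2) with e | e <;> rw [e]
  exacts [h4, mul_mem h4 hz]

theorem cen_RH {r : H} (hr : r ∈ h.RH) : (∀ q ∈ h.RH, Commute r q) ↔ r ∈ h.VH := by
  refine ⟨fun H => ?_, fun H q hq => (mem_cent_subgroup_iff.1 hq.1 r H).symm⟩
  have hs : ∀ w, hh w (vec 126) = 0 → Commute r (s w) := fun w hw => H _ (h.Q_RH (h.sQ w) (by rwa [h.πs]))
  obtain ⟨k, hk, e⟩ := E0_spec.2.1 _ hr.2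
  have hq : r ∈ Q := h.mem_iff.2 (by
    rw [← e]
    exact (ec_spec hk).2.2.2 fun w hw => by simpa only [h.πs, e] using h.fix_of_comm (h.sQ w) (hs w hw))
  exact ⟨hq, mem_FV fun w hw => by simpa only [h.πs] using (h.commute_iff hq (h.sQ w)).1 (hs w hw)⟩

theorem s_FV {u v : V} (hu : u ∈ FV (vec 126)) (hv : v ∈ FV (vec 126)) : s u * s v = s (u + v) := by
  obtain ⟨a, rfl⟩ := hu
  obtain ⟨b, rfl⟩ := hv
  rw [h.s_mul, bb, ← mul_smul, hh.smul_left, hh_FV hh126 ⟨_, rfl⟩, mul_zero]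
  exact mul_one _

end SS

namespace GX

variable {H G : Type*} [Group H] [Group G] [Finite G] {i : H →* G} {Q : Subgroup H} {z : H} {π : H → V} {ρ : H →* L2}
  {x : H} {s : V → H} {τ : ℕ → H} (h : GX i Q z π ρ x s τ)
include h

theorem mem_Q_of_y {y : G} (hy : y ∈ h.A) (h1 : y ≠ 1) (h2 : ¬ IsConj (i z) y) (h3 : ¬ IsConj (i z) (y * i z)) :
    y ∈ Q.map i := by
  obtain ⟨y, hy, rfl⟩ := hy
  obtain ⟨n, hn, rfl⟩ := h.exists_en hy
  have := (h.y_iff hn).1 ⟨h1, h2⟩
  rcases h.cls hn with ⟨e, H⟩ | ⟨e, H⟩ | ⟨hQ, -⟩ | ⟨e, H⟩ | ⟨a, ha, r, ⟨e, H⟩ | ⟨e, H⟩⟩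
  on_goal 3 => exact mem_map_of_mem i hQ
  all_goals rw [e] at this; try exact absurd this (by decide)
  obtain ⟨g, e⟩ := isConj_iff.1 H
  refine (h3 ?_).elim
  rw [← map_mul, conj_congr (isConj_iff.2 ⟨g, by rw [← conj_mul, e, h.conj_z]⟩)]
  exact (h.τ_spec ha).2

theorem om_mem {g : G} {t y : H} (ht : t ∈ Q) (hne : t ≠ z) (e : g * i z * g⁻¹ = i t) (hy : y ∈ Q)
    (ey : π y = om4 • π t) : i y ∈ Q.map i :^ g := by
  have h0 : ∀ k < 64, en z s τ (tw 2 k) = s (vec (dv k)) := fun k hk => by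
    rw [(by decide +kernel : ∀ k < 64, tw 2 k = k) k hk, en, Nat.mod_eq_of_lt hk, Nat.div_eq_of_lt (by omega), e3, h.τ0,
      bt_of_lt (k := 6) hk le_rfl, zp_zero, mul_one, mul_one]
  have hm := fun {m n} => h.en_mul (j := 2) (by norm_num) h.τ_eps (m := m) (n := n)
  have hA : ∀ n < 2048, i (en z s τ (tw 2 n)) ∈ h.A := fun n hn => mem_map_of_mem i (h.en_mem (tw_lt (by norm_num) hn))
  obtain ⟨k, hk, ek⟩ := exists_K0_26 ((h.gs.conj_iff ht hne).1 (isConj_iff.2 ⟨g, e⟩))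
    ((vec_mem_cs (dv_lt 1)).2 (by decide +kernel))
  obtain ⟨l, el⟩ := h.exists_lift hk
  obtain ⟨κ, e1, e2⟩ := h.exists_conj ht (h.sQ (vec (dv 1))) (g := l) (by rw [h.πs]; decide +kernel)
    (by rw [h.πs, el]; exact ek)
  have e3 : i κ * g * i z * (i κ * g)⁻¹ = i (s (vec (dv 1))) := by simp [← e2, ← e, mul_assoc]
  obtain ⟨m, hm', em⟩ := h.fusion h.z_mem_A (h0 1 (by norm_num) ▸ hA 1 (by norm_num)) (isConj_iff.2 ⟨_, e3⟩)
  have key : ∀ n < 2048, yq 2 n = true → yq 2 (Nat.xor n 1) = true → i (en z s τ (tw 2 n)) ∈ Q.map i :^ m :=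
    fun n hn a b => by
      have a := (h.y_iff (tw_lt (by norm_num) hn)).2 a
      have b := (h.y_iff (tw_lt (by norm_num) (Nat.xor_lt_two_pow (n := 11) hn (by norm_num)))).2 b
      erw [hm hn (by norm_num), h0 1 (by norm_num), map_mul, ← em] at b
      have c : ∀ u, IsConj (m⁻¹ * u * m) u := fun u => isConj_iff.2 ⟨m, by group⟩
      refine mem_conjg.2 (h.mem_Q_of_y (conj_mem_of_mem_norm' hm' (hA n hn)) (fun H => a.1 (by simpa [H, -isConj_iff] using (c (i (en z s τ (tw 2 n)))).symm))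
        (fun H => a.2 (H.trans (c _))) fun H => b.2 (H.trans (isConj_iff.2 ⟨m, by group⟩)))
  have h1 := mul_mem (key 128 (by norm_num) (by decide +kernel) (by decide +kernel))
    (key 136 (by norm_num) (by decide +kernel) (by decide +kernel))
  rw [← map_mul, ← hm (by norm_num) (by norm_num), h0 (Nat.xor 128 136) (by decide),
    show Q.map i :^ m = Q.map i :^ (i κ * g) from h.gs.le.map_conj_eq (em.trans e3.symm), conjg_mul] at h1
  obtain ⟨c, ec⟩ := h.exists_zp (h.conj_mem κ hy) (h.sQ (vec (dv (Nat.xor 128 136)))) (by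
    rw [h.πs, h.act κ hy, ey, e1, el, KK_lin ⟨k, hk, rfl⟩, io_apply, ek, ← vec_om (dv_lt 1)]
    congr 1)
  rw [ec, ← conj_eq_iff_commute.2 (h.zp_comm κ c), conj_mul, map_mul, map_mul, map_inv, conj_mem_conjg_iff,
    map_mul] at h1
  refine (mul_mem_cancel_right ?_).1 h1
  rcases zmod_cases c with rfl | rfl
  exacts [by rw [zp_zero, map_one]; exact one_mem _, (h.gs.pair ht hne e).z_mem]

theorem tri : IsElementaryAbelian 2 (h.VH.map i) ∧ Nat.card (h.VH.map i) = 8 ∧ i z ∈ h.VH.map i ∧ ∃ R : Subgroup G,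
    R = (pCore 2 (normalizer (h.VH.map i : Set G))).map (normalizer (h.VH.map i : Set G)).subtype ∧ IsSpecial 2 R ∧
      Nat.card R = 2 ^ 15 ∧ (center R).map R.subtype = h.VH.map i ∧
        ∃ _ : (R.subgroupOf (normalizer (h.VH.map i : Set G))).Normal, Nonempty (normalizer (h.VH.map i : Set G) ⧸
          R.subgroupOf (normalizer (h.VH.map i : Set G)) ≃* SL32 × A6) := by
  let ε : Multiplicative (Fin 3 → ZMod 2) →* H := MonoidHom.mk'
    (fun a => s ((⟨toAdd a 1, toAdd a 2⟩ : F4) • vec 126) * zp z (toAdd a 0)) fun a b => by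
      rw [(h.zp_comm _ _).symm.mul_mul_mul_comm, h.s_FV ⟨_, rfl⟩ ⟨_, rfl⟩, ← add_smul, ← h.zp_add]; rfl
  have h1 : h.VH = ε.range := le_antisymm (fun q ⟨hq, c, e⟩ => by
      obtain ⟨a, ea⟩ := h.exists_s hq
      exact ⟨ofAdd ![a, c.re, c.im], by rw [ea, ← e]; rfl⟩)
    (by rintro _ ⟨a, rfl⟩; exact mul_mem (h.s_VH _) ⟨h.zp_mem _, h.π_zp _ ▸ zero_mem _⟩)
  have h2 : Nat.card h.VH = 8 := by rw [h.card_pre, card_FV]
  have h3 : Function.Injective ε := by
    have := (Nat.bijective_iff_surjective_and_card _).2 ⟨ε.rangeRestrict_surjective, by rw [← h1, h2]; simp⟩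
    exact (subtype_injective _).comp this.1
  have h4 : h.VH.map i = (i.comp ε).range := by rw [h1, MonoidHom.range_comp]
  have hz := mem_map_of_mem i (h.z_mem_pre (FV (vec 126)))
  have h5 : ∀ c ∈ centralizer (h.VH.map i : Set G), c ∈ i.range := fun c hc =>
    h.gs.range c (mem_cent_subgroup_iff.1 hc _ hz)
  let j := (MonoidHom.ofInjective h.gs.inj).symm.toMonoidHom.comp (inclusion h5)
  have hj : ∀ c, i (j c) = c := fun c => MonoidHom.apply_ofInjective_symm h.gs.inj _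
  have h6 : ∀ c, i c ∈ centralizer (h.VH.map i : Set G) ↔ c ∈ centralizer (h.VH : Set H) := fun c => by
    simp only [mem_cent_subgroup_iff, mem_map, forall_exists_index, and_imp, forall_apply_eq_imp_iff₂, h.gs.comm_iff]
  obtain ⟨γ, g1, g2⟩ := E0_spec.2.2
  have h7 : IsPGroup 2 (h.RH.map i) := IsPGroup.of_card (by rw [card_map_of_injective h.gs.inj, h.card_RH])
  have key : ∀ c : F4, c ≠ 0 → ∃ P, LE P (i (s (c • vec 126))) ∧ h.VH.map i ≤ P := fun c hc => by
    have h26 : π (s (c • vec 126)) ∈ cs 26 := by rw [h.πs, smul_mem_cs hc]; exact vec126_mem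
    have hne := ((h.mem_cs31 (h.sQ _)).1 (mem_cs26.1 h26).1).2.2
    obtain ⟨g, e⟩ := isConj_iff.1 ((h.gs.conj_iff (h.sQ _) hne).2 h26)
    have P := h.gs.pair (h.sQ _) hne e
    have a := h.om_mem (h.sQ _) hne e (h.sQ (om4 • c • vec 126)) (by rw [h.πs, h.πs])
    refine ⟨_, P.right, ?_⟩
    rintro _ ⟨q, ⟨hq, d, ed⟩, rfl⟩
    obtain ⟨b, eb⟩ := h.exists_s hq
    rw [eb, map_mul, ← ed]
    refine mul_mem ?_ (by
      rcases zmod_cases b with rfl | rfl
      exacts [by rw [zp_zero, map_one]; exact one_mem _, P.z_mem])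
    rcases (by decide : ∀ c d : F4, c ≠ 0 → d = 0 ∨ d = c ∨ d = om4 * c ∨ d = c + om4 * c) c d hc with e | e | e | e <;>
      rw [e]
    · rw [zero_smul, h.zero, map_one]; exact one_mem _
    · exact P.right.z_mem
    · rwa [mul_smul]
    · rw [add_smul, ← h.s_FV ⟨_, rfl⟩ ⟨_, rfl⟩, map_mul, mul_smul]
      exact mul_mem P.right.z_mem a
  obtain ⟨a1, a2⟩ := special_of h7 (V := h.VH.map i) (by
      rintro _ ⟨r, hr, rfl⟩
      rw [← map_mul]
      exact mem_map_of_mem i (h.RH_sq hr)) ((map_mono h.VH_le).trans (map_commutator ..).le) (by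
      rintro _ ⟨r, hr, rfl⟩
      rw [mem_map_iff_mem h.gs.inj, ← h.cen_RH hr]
      simp only [mem_map, forall_exists_index, and_imp, forall_apply_eq_imp_iff₂, h.gs.comm_iff])
  obtain ⟨b1, b2⟩ := norm_struct (i.comp ε) (h.gs.inj.comp h3) h4 (R := h.RH.map i) (fun k => by
      fin_cases k
      · refine ⟨_, ?_, map_mono fun _ => And.left⟩
        convert h.gs.le using 1
        refine congrArg i (show s ((0 : F4) • _) * z = z from ?_)
        rw [zero_smul, h.zero, one_mul]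
      · simpa [ε, zp_zero] using key ⟨1, 0⟩ (by decide)
      · simpa [ε, zp_zero] using key ⟨0, 1⟩ (by decide))
    (γ.comp ((ρ.comp j).codRestrict SV fun c => h.map_CH ((h6 _).1 (by rw [hj]; exact c.2)))) (g1.comp fun g => by
      obtain ⟨c, c1, -, c2⟩ := h.lift_CH g.2
      exact ⟨⟨i c, (h6 c).2 c1⟩, Subtype.ext ((congrArg ρ (h.gs.inj (hj _))).trans c2)⟩)
    (Subgroup.ext fun c => by
      rw [← MonoidHom.comap_ker, g2, mem_subgroupOf, ← hj c, mem_map_iff_mem h.gs.inj]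
      exact (and_iff_right ((h6 _).1 (by rw [hj]; exact c.2))).symm)
    (by rintro _ ⟨r, hr, rfl⟩; exact (h6 r).2 hr.1) h7
  refine ⟨?_, by rw [card_map_of_injective h.gs.inj, h2], hz, _, b1, a1,
    by rw [card_map_of_injective h.gs.inj, h.card_RH], a2, b2⟩
  have sq : ∀ a ∈ h.VH.map i, a * a = 1 := by
    rw [h4]
    rintro _ ⟨a, rfl⟩
    rw [← map_mul, show a * a = 1 by revert a; decide, map_one]
  exact ⟨⟨⟨fun a b => Subtype.ext (commute_of_sq (sq _ a.2) (sq _ b.2) (sq _ (mul_mem a.2 b.2)))⟩⟩,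
    fun a ha => (pow_two a).trans (sq a ha)⟩

end GX

theorem realizeEqns_U6Tri : True := by
  have := @CA.U6.E0.eq_1
  have := @CA.U6.E0.eq_def
  have := @CA.U6.E0.congr_simp
  have := @CA.U6.FV.eq_1
  have := @CA.U6.FV.eq_def
  have := @CA.U6.FV.congr_simp
  have := @CA.U6.SL32.eq_1
  have := @CA.U6.SL32.eq_def
  have := @CA.U6.SL32.congr_simp
  have := @CA.U6.EW.eq_1
  have := @CA.U6.EW.eq_def
  have := @CA.U6.EW.congr_simp
  have := @CA.U6.SS.VH.eq_1.{0}
  have := @CA.U6.SS.VH.eq_def.{0}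
  have := @CA.U6.SS.VH.congr_simp.{0}
  have := @CA.U6.SV.eq_1
  have := @CA.U6.SV.eq_def
  have := @CA.U6.SV.congr_simp
  have := @CA.U6.SS.RH.eq_1.{0}
  have := @CA.U6.SS.RH.eq_def.{0}
  have := @CA.U6.SS.RH.congr_simp.{0}
  have := @CA.U6.ec.eq_1
  have := @CA.U6.ec.eq_def
  have := @CA.U6.ec.congr_simp
  trivial

end CA.U6
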