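import Cfsg.Agent.U6.Sec
import Cfsg.Agent.Fi.LargeStruct

/-! Groups of large Fischer type: fusion in the Thompson subgroup. -/

set_option autoImplicit false

namespace CA.U6

open Cfsg Cfsg.Agent Cfsg.Agent.Unit CA.M24 Subgroup Equiv CA.FG CA.Fi

theorem ncard_conj_mul {G : Type*} [Group G] (M : Subgroup G) (d : G) :
    {y | ∃ c ∈ M, c * d * c⁻¹ = y}.ncard * Nat.card ↥(M ⊓ centralizer {d}) = Nat.card M := by
  letI : MulAction M G := MulAction.compHom G ((MulAut.conj (G := G)).comp M.subtype)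
  rw [← card_orbit_mul M d, show MulAction.stabilizer M d = (centralizer {d}).subgroupOf M from
    Subgroup.ext fun c => conj_eq_iff_commute.trans mem_cent_iff.symm, ← inf_subgroupOf_left,
    Nat.card_congr (subgroupOfEquivOfLe inf_le_left).toEquiv]
  congr 2
  exact Set.ext fun y => ⟨fun ⟨c, hc, e⟩ => ⟨⟨c, hc⟩, e⟩, fun ⟨c, e⟩ => ⟨c, c.2, e⟩⟩

theorem card_modEq_cent {G : Type*} [Group G] [Finite G] {A : Subgroup G} {g : G} {p : ℕ} [Fact p.Prime]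
    (hA : g ∈ normalizer (A : Set G)) (hg : g ^ p = 1) : Nat.card A ≡ Nat.card ↥(A ⊓ centralizer {g}) [MOD p] := by
  classical
  haveI := Fintype.ofFinite A
  let f : Function.End A := fun a => ⟨g * a * g⁻¹, conj_mem_of_mem_norm hA a.2⟩
  have h1 : ∀ n : ℕ, ∀ a, ((f ^ n) a : G) = g ^ n * a * (g ^ n)⁻¹ := fun n => by
    induction n with
    | zero => simp [Function.End.one_def]
    | succ n ih => intro a; rw [pow_succ, pow_succ, show (f ^ n * f) a = (f ^ n) (f a) from rfl, ih]; simp [f, mul_assoc]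
  have := Equiv.Perm.card_fixedPoints_modEq (f := f) (p := p) (n := 1)
    (funext fun a => Subtype.ext (by rw [h1, pow_one, hg]; simp [Function.End.one_def]))
  rw [← Nat.card_eq_fintype_card, ← Nat.card_eq_fintype_card] at this
  rwa [← Nat.card_congr (subgroupOfEquivOfLe (inf_le_left (b := centralizer {g}))).toEquiv, inf_subgroupOf_left,
    show Nat.card ((centralizer {g}).subgroupOf A) = Nat.card f.fixedPoints from Nat.card_congr (Equiv.subtypeEquivRight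
      fun a => (mem_cent_iff.trans (Commute.symm_iff.trans conj_eq_iff_commute.symm)).trans
        (Subtype.ext_iff (a1 := f a) (a2 := a)).symm)]

theorem fusion_of_wc {G : Type*} [Group G] [Finite G] {A : Subgroup G} (hA : ∀ a ∈ A, a * a = 1)
    (wc : ∀ P g, IsPGrp 2 P → A ≤ P → A :^ g ≤ P → A :^ g = A) {a g : G} (ha : a ∈ A) (hg : g * a * g⁻¹ ∈ A) :
    ∃ m ∈ normalizer (A : Set G), m * a * m⁻¹ = g * a * g⁻¹ := by
  have cm : ∀ a ∈ A, ∀ b ∈ A, Commute a b := fun a ha b hb => commute_of_sq (hA a ha) (hA b hb) (hA _ (mul_mem ha hb))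
  have h2 : IsPGrp 2 A := pGrp_of_forall_pow (k := 1) Nat.prime_two fun a ha => (pow_two a).trans (hA a ha)
  obtain ⟨P, hP, e⟩ := sylow_superset Nat.prime_two h2 (M := centralizer {a}) fun b hb => mem_cent_iff.2 (cm b hb a ha)
  obtain ⟨c, hc, e'⟩ := sylow_Jsub Nat.prime_two hP (Q := A :^ g⁻¹) (h2.map _) fun b hb =>
    mem_cent_iff.2 (commute_conj_iff.1 (cm _ (mem_conjg_inv.1 hb) _ hg))
  rw [← conjg_mul] at e'
  refine ⟨_, inv_mem (conjg_eq_self_iff.1 (wc P _ hP.pGrp e e')), ?_⟩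
  rw [show (c * g⁻¹)⁻¹ * a * (c * g⁻¹)⁻¹⁻¹ = g * (c⁻¹ * a * c⁻¹⁻¹) * g⁻¹ by group,
    conj_eq_iff_commute.2 (mem_cent_iff.1 (inv_mem hc))]

namespace XS

variable {H : Type*} [Group H] {Q : Subgroup H} {z : H} {π : H → V} {ρ : H →* L2} {x : H} {s : V → H} {τ : ℕ → H}
  (h : XS Q z π ρ x s τ)
include h

theorem cls {n : ℕ} (hn : n < 2048) : cn n = 0 ∧ en z s τ n = 1 ∨ cn n = 1 ∧ en z s τ n = z ∨
    en z s τ n ∈ Q ∧ (cn n = 2 ∧ π (en z s τ n) ∈ cs 5 ∨ cn n = 3 ∧ π (en z s τ n) ∈ cs 26) ∨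
    cn n = 6 ∧ IsConj (en z s τ n) (e3 z s τ (vec (dv 2)) 0 1) ∨ ∃ a < 16, rootB (0 + 64 * a) = 64 ∧
      (cn n = 4 ∧ IsConj (en z s τ n) (τ a) ∨ cn n = 5 ∧ IsConj (en z s τ n) (τ a * z)) := by
  rcases cn_spec hn with ⟨e, rfl⟩ | ⟨e, rfl⟩ | ⟨e, H⟩ | ⟨e, H⟩ | ⟨H, w, e1, e2⟩
  · refine .inl ⟨e, ?_⟩
    rw [en, Nat.zero_mod, dv_zero, vec_zero, h.e3_zero, Nat.zero_div, h.τ0, one_mul]; rfl
  · refine .inr (.inl ⟨e, ?_⟩)
    rw [en, Nat.mod_self, dv_zero, vec_zero, h.e3_zero, show 64 / 128 = 0 from rfl, h.τ0, one_mul]; rfl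
  · rw [en, e, e3, h.τ0, mul_one, h.mul (h.sQ _) (h.zp_mem _), h.πs, h.π_zp, add_zero]
    exact .inr (.inr (.inl ⟨mul_mem (h.sQ _) (h.zp_mem _), H⟩))
  · refine .inr (.inr (.inr (.inl ⟨e, ?_⟩)))
    obtain ⟨β, H'⟩ := h.orb (Nat.mod_lt n (by norm_num)) (show n / 128 < 16 by omega)
    rw [H] at H'
    refine (H' _).trans ?_
    rcases zmod_cases (bt n 6 + β) with e | e <;> rw [e]
    refine isConj_iff.2 ⟨s (vec 9), ?_⟩
    rw [h.conjS _ _ _ (by norm_num), rep_el (by norm_num) _ (by norm_num), ← bt_bN _ (dv_lt _) (app_lt ..), ← vec_xor,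
      ← vec_xor]
    rw [show Nat.xor (Nat.xor 9 (dv 2)) (app (tc 1) 9) = dv 2 by decide +kernel,
      show 1 + bt (bN 9 (dv 2) (app (tc 1) 9)) 1 = 0 by decide +kernel]
  · refine .inr (.inr (.inr (.inr ⟨n / 128, by omega, H, ?_⟩)))
    have := isConj_iff.2 ⟨_, h.conjS w (vec (dv (n % 64))) (bt n 6) (show n / 128 < 16 by omega)⟩
    rw [e1, h.e3_zero] at this
    generalize bt n 6 + _ = c at this e2
    rcases zmod_cases c with rfl | rfl
    exacts [.inl ⟨e2, by rwa [zp_zero, mul_one] at this⟩, .inr ⟨e2, this⟩]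

end XS

/-- normalised coordinates on the Thompson subgroup -/
structure GX {H G : Type*} [Group H] [Group G] (i : H →* G) (Q : Subgroup H) (z : H) (π : H → V) (ρ : H →* L2)
    (x : H) (s : V → H) (τ : ℕ → H) : Prop extends XS Q z π ρ x s τ where
  gs : GS i Q z π ρ
  nτ : ∀ a, IsConj (i z) (i (τ a)) → IsConj (i z) (i (τ a * z))

theorem GS.exists_GX {H G : Type*} [Group H] [Group G] [Finite G] {i : H →* G} {Q : Subgroup H} {z : H} {π : H → V}
    {ρ : H →* L2} (h : GS i Q z π ρ) {x : H} (x3 : x ^ 3 = 1) (ρx : ∀ v, ρ x v = om4 • v) :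
    ∃ s τ, GX i Q z π ρ x s τ := by
  obtain ⟨s, h1⟩ := h.exists_SS h.yy_mem x3 ρx
  obtain ⟨τ, h2, h3⟩ := h1.exists_XS (fun y => IsConj (i z) (i y)) fun H => h.es.z_ne (h.inj (by simpa using H))
  exact ⟨s, τ, h2, h, h3⟩

theorem GS.conjG {H G : Type*} [Group H] [Group G] {i : H →* G} {Q : Subgroup H} {z : H} {π : H → V}
    {ρ : H →* L2} (h : GS i Q z π ρ) (k : G) : GS ((MulAut.conj k).toMonoidHom.comp i) Q z π ρ := by
  refine ⟨h.toFS, (MulAut.conj k).injective.comp h.inj, fun g hg => ?_, ?_⟩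
  · obtain ⟨y, e⟩ := h.range _ (commute_conj_left_iff.1 hg.symm).symm
    exact ⟨y, by simp [e, mul_assoc]⟩
  · obtain ⟨g, s, hs, hne, e⟩ := h.nwc
    exact ⟨k * g * k⁻¹, s, hs, hne, by simp [← e, mul_assoc]⟩

def zq (b0 b1 b2 : Bool) (n : ℕ) : Bool := force (cn n) fun c => bor (Nat.beq c 1) (bor (Nat.beq c 3)
  (bor (band (Nat.beq c 4) b0) (bor (band (Nat.beq c 5) b1) (band (Nat.beq c 6) b2))))

theorem zq_count : ∀ b0 b1 b2 : Bool, (b0 = false ∧ b1 = true ∧ b2 = true) ∨ (b0 = true ∧ b1 = false) ∨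
    ∃ p ∈ [13, 331, 571, 1531, 2011], p ∣ sumR (fun n => bif' (zq b0 b1 b2 n) 1 0) 2048 := by decide +kernel

def tw (j n : ℕ) : ℕ := Nat.xor n (64 * Nat.land (Nat.shiftRight (et j) (n / 128)) 1)

theorem tw_chk : allR (fun j => allP (fun n => force (tw j n) fun m => band (Nat.beq (m % 64) (n % 64))
    (band (Nat.beq (m / 128) (n / 128)) (band (Nat.beq (tw j m) n)
      (decide (bt m 6 = bt n 6 + bt (et j) (n / 128)))))) 11 0) 4 = true := by decide +kernel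

theorem tw_spec {j n : ℕ} (hj : j < 4) (hn : n < 2048) : tw j n % 64 = n % 64 ∧ tw j n / 128 = n / 128 ∧
    tw j (tw j n) = n ∧ bt (tw j n) 6 = bt n 6 + bt (et j) (n / 128) := by
  simpa only [force_eq, band_eq_true, beq_iff, decide_eq_true_eq] using allP_zero (allR_eq_true.1 tw_chk j hj) n hn

theorem tw_lt {j n : ℕ} (hj : j < 4) (hn : n < 2048) : tw j n < 2048 := by
  have := (tw_spec hj hn).2.1
  omega

def yq (j n : ℕ) : Bool := tb (nat_lit 20) (cn (tw j n))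

theorem yq_count : ∀ j < 4, sumR (fun m => bif' (band (yq j m) (yq j (Nat.xor 7 m))) 1 0) 2048 =
    sumR (fun m => bif' (band (yq j m) (yq j (Nat.xor (tw j 128) m))) 1 0) 2048 → j = 2 := by decide +kernel

namespace GX

variable {H G : Type*} [Group H] [Group G] [Finite G] {i : H →* G} {Q : Subgroup H} {z : H} {π : H → V} {ρ : H →* L2}
  {x : H} {s : V → H} {τ : ℕ → H} (h : GX i Q z π ρ x s τ)
include h

theorem syl : IsSylowOf 2 ((T0.comap ρ).map i) ⊤ := by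
  haveI := h.finite
  have h1 := (h.T_syl h.hy).map i
  refine sylow_of_maximal Nat.prime_two h1.piGrp le_top fun P hP e _ => h1.eq_of_le hP e ?_
  rw [← MonoidHom.range_eq_map, h.gs.range_eq]
  exact h.gs.le.commute_of_le (hP.isPGroup Nat.prime_two) ((map_mono (h.kerρ ▸ ker_le_comap ρ T0)).trans e)

/-- the Thompson subgroup -/
abbrev A : Subgroup G := h.AA.map i

omit [Finite G] in
theorem A_sq : ∀ a ∈ h.A, a * a = 1 := by
  rintro _ ⟨a, ha, rfl⟩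
  rw [← map_mul, h.AA_sq ha, map_one]

omit [Finite G] in
theorem card_A : Nat.card h.A = 2 ^ 11 := by rw [card_map_of_injective h.gs.inj, h.card_AA]

omit [Finite G] in
theorem eq_A (B : Subgroup G) (hB : B ≤ (T0.comap ρ).map i) (sq : ∀ b ∈ B, b * b = 1)
    (hc : Nat.card h.A ≤ Nat.card B) : B = h.A := by
  have e := map_comap_eq_self (hB.trans (map_le_range i _))
  rw [← e, card_map_of_injective h.gs.inj, card_map_of_injective h.gs.inj] at hc
  rw [← e, h.eq_AA ((comap_mono hB).trans (comap_map_eq_self_of_injective h.gs.inj _).le)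
    (fun b hb => h.gs.inj (by rw [map_mul, sq _ hb, map_one])) hc]

theorem thompson : thompsonSubgroupOf 2 ((T0.comap ρ).map i) = h.A := thompson_eq (map_mono h.AA_le) h.A_sq h.eq_A

theorem wc (P : Subgroup G) (g : G) (hP : IsPGrp 2 P) (h1 : h.A ≤ P) (h2 : h.A :^ g ≤ P) : h.A :^ g = h.A := by
  obtain ⟨u, -, e⟩ := sylow_Jsub Nat.prime_two h.syl hP le_top
  have key : ∀ k, h.A :^ k ≤ P :^ u → h.A :^ k = h.A := fun k H => h.eq_A _ (H.trans e) (by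
    rintro _ ⟨a, ha, rfl⟩
    rw [← map_mul, h.A_sq a ha, map_one]) (card_conjg ..).ge
  rw [← conjg_inj (g := u), ← conjg_mul, key _ (conjg_mono u h1), key _ (by rw [conjg_mul]; exact conjg_mono u h2)]

theorem fusion {a b : G} (ha : a ∈ h.A) (hb : b ∈ h.A) (e : IsConj a b) :
    ∃ m ∈ normalizer (h.A : Set G), m * a * m⁻¹ = b := by
  obtain ⟨g, rfl⟩ := isConj_iff.1 e
  exact fusion_of_wc h.A_sq h.wc ha hb

omit [Finite G] in
theorem z_mem_A : i z ∈ h.A := mem_map_of_mem i h.z_mem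

omit [Finite G] in
theorem mem_A {g : G} (e : ∀ a ∈ h.A, Commute g a) : g ∈ h.A := by
  obtain ⟨y, rfl⟩ := h.gs.range g (e _ h.z_mem_A)
  exact mem_map_of_mem i (h.cent_AA.le (mem_cent_subgroup_iff.2 fun a ha => h.gs.comm_iff.1 (e _ (mem_map_of_mem i ha))))

theorem orbit_z : {y | ∃ c ∈ normalizer (h.A : Set G), c * i z * c⁻¹ = y} = {y | y ∈ h.A ∧ IsConj (i z) y} :=
  Set.ext fun _ => ⟨fun ⟨c, hc, e⟩ => e ▸ ⟨conj_mem_of_mem_norm hc h.z_mem_A, isConj_iff.2 ⟨c, rfl⟩⟩,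
    fun H => h.fusion h.z_mem_A H.1 H.2⟩

theorem not_dvd {p : ℕ} (hp : p ∈ [13, 331, 571, 1531, 2011]) : ¬ p ∣ {y | y ∈ h.A ∧ IsConj (i z) y}.ncard := fun H => by
  have key : ∀ p ∈ [13, 331, 571, 1531, 2011], p.Prime ∧ p % 2 = 1 ∧ ∀ j < 11, ¬ 2 ^ 11 ≡ 2 ^ j [MOD p] := by
    decide +kernel
  obtain ⟨h1, h2, h3⟩ := key p hp
  haveI := Fact.mk h1
  haveI := Fact.mk Nat.prime_two
  rw [← h.orbit_z] at H
  obtain ⟨g, hg⟩ := exists_prime_orderOf_dvd_card' p (H.trans (Dvd.intro _ (ncard_conj_mul _ _)))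
  rw [← orderOf_coe] at hg
  have h4 := card_modEq_cent g.2 (hg ▸ pow_orderOf_eq_one g.1 : g.1 ^ p = 1)
  obtain ⟨j, hj, e⟩ := (Nat.dvd_prime_pow Nat.prime_two).1
    (h.card_A ▸ card_dvd_of_le (inf_le_left (a := h.A) (b := centralizer {g.1})))
  rcases hj.lt_or_eq with hj | rfl
  · exact h3 j hj (by rwa [h.card_A, e] at h4)
  · have h5 := eq_of_le_of_card_ge inf_le_left (h.card_A.trans e.symm).le
    have h6 := orderOf_dvd_of_pow_eq_one ((pow_two _).trans (h.A_sq _ (h.mem_A fun a ha =>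
      (mem_cent_iff.1 (h5.ge ha).2).symm)))
    rw [hg, Nat.prime_dvd_prime_iff_eq h1 Nat.prime_two] at h6
    omega

omit h [Finite G] in
theorem conj_congr {a b : H} (e : IsConj a b) (y : G) : IsConj y (i a) ↔ IsConj y (i b) :=
  ⟨fun H => H.trans (i.map_isConj e), fun H => H.trans (i.map_isConj e).symm⟩

omit [Finite G] in
theorem τ_iff {a : ℕ} (ha : a < 16) (e : rootB (0 + 64 * a) = 64) :
    (IsConj (i z) (i (τ a)) ↔ IsConj (i z) (i (τ 1))) ∧ (IsConj (i z) (i (τ a * z)) ↔ IsConj (i z) (i (τ 1 * z))) := by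
  obtain ⟨β, H⟩ := h.τ_conj ha e
  have h0 := conj_congr (i := i) (H 0) (i z)
  have h1 := conj_congr (i := i) (H 1) (i z)
  have h2 := h.nτ a
  have h3 := h.nτ 1
  rcases zmod_cases β with rfl | rfl <;>
    simp only [zero_add, add_zero, zmod_add_self, zp_zero, zp_one, mul_one] at h0 h1 <;> tauto

theorem zq_iff {b0 b1 b2 : Bool} (e0 : IsConj (i z) (i (τ 1)) ↔ b0 = true) (e1 : IsConj (i z) (i (τ 1 * z)) ↔ b1 = true)
    (e2 : IsConj (i z) (i (e3 z s τ (vec (dv 2)) 0 1)) ↔ b2 = true) {n : ℕ} (hn : n < 2048) :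
    IsConj (i z) (i (en z s τ n)) ↔ zq b0 b1 b2 n = true := by
  simp only [zq, force_eq, bor_eq_true, band_eq_true, beq_iff]
  have key : ∀ {y}, y ∈ Q → π y ∈ cs 31 → (IsConj (i z) (i y) ↔ π y ∈ cs 26) := fun hy H =>
    h.gs.conj_iff hy ((h.mem_cs31 hy).1 H).2.2
  rcases h.cls hn with ⟨e, H⟩ | ⟨e, H⟩ | ⟨hQ, ⟨e, H⟩ | ⟨e, H⟩⟩ | ⟨e, H⟩ | ⟨a, ha, r, ⟨e, H⟩ | ⟨e, H⟩⟩ <;> rw [e]
  · simpa [H] using mt (map_eq_one_iff i h.gs.inj).1 h.es.z_ne
  · simp [H, -isConj_iff, IsConj.refl]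
  · simpa [key hQ (cs_subset (by norm_num) H), -isConj_iff] using fun H' => (mem_cs26.1 H').2 H
  · simpa [key hQ (cs_subset (by norm_num) H), -isConj_iff] using H
  · rw [conj_congr H, e2]; simp
  · rw [conj_congr H, (h.τ_iff ha r).1, e0]; simp
  · rw [conj_congr H, (h.τ_iff ha r).2, e1]; simp

omit [Finite G] in
theorem ncard_A {S : Set G} (hS : S ⊆ h.A) {f : ℕ → ℕ} (hf : ∀ n < 2048, f n < 2048 ∧ f (f n) = n) (q : ℕ → Bool)
    (e : ∀ n < 2048, i (en z s τ (f n)) ∈ S ↔ q n = true) : S.ncard = sumR (fun n => bif' (q n) 1 0) 2048 := by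
  refine ncard_eq_sumR (fun m hm n hn e => ?_) S q (fun y hy => ?_) e
  · rw [← (hf m hm).2, h.en_inj (hf m hm).1 (hf n hn).1 (h.gs.inj e), (hf n hn).2]
  · obtain ⟨y, hy', rfl⟩ := hS hy
    obtain ⟨n, hn, rfl⟩ := h.exists_en hy'
    exact ⟨f n, (hf n hn).1, by rw [(hf n hn).2]⟩

theorem classes : ¬ IsConj (i z) (i (τ 1)) ∧ IsConj (i z) (i (τ 1 * z)) ∧
    IsConj (i z) (i (e3 z s τ (vec (dv 2)) 0 1)) := by
  classical
  rcases zq_count (decide (IsConj (i z) (i (τ 1)))) (decide (IsConj (i z) (i (τ 1 * z))))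
    (decide (IsConj (i z) (i (e3 z s τ (vec (dv 2)) 0 1)))) with H | H | ⟨p, hp, H⟩
  · simpa only [decide_eq_false_iff_not, decide_eq_true_eq] using H
  · simp only [decide_eq_false_iff_not, decide_eq_true_eq] at H
    exact (H.2 (h.nτ 1 H.1)).elim
  · refine (h.not_dvd hp ?_).elim
    exact H.trans (h.ncard_A (f := id) (fun _ => And.left) (fun n hn => ⟨hn, rfl⟩) _ fun n hn =>
      (and_iff_right (mem_map_of_mem i (h.en_mem hn))).trans (h.zq_iff decide_eq_true_iff.symm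
        decide_eq_true_iff.symm decide_eq_true_iff.symm hn)).symm.dvd

theorem card_Z : {y | y ∈ h.A ∧ IsConj (i z) y}.ncard = 1771 :=
  (h.ncard_A (f := id) (fun _ => And.left) (fun n hn => ⟨hn, rfl⟩) _ fun n hn =>
    (and_iff_right (mem_map_of_mem i (h.en_mem hn))).trans (h.zq_iff (b0 := false) (iff_of_false h.classes.1 nofun)
      (iff_of_true h.classes.2.1 rfl) (iff_of_true h.classes.2.2 rfl) hn)).trans (by decide +kernel)

theorem y_iff {n : ℕ} (hn : n < 2048) :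
    i (en z s τ n) ≠ 1 ∧ ¬ IsConj (i z) (i (en z s τ n)) ↔ tb 20 (cn n) = true := by
  have key : allP (fun n => Nat.beq (bif' (band (bne' n 0) (bnot (zq false true true n))) 1 0)
    (bif' (tb 20 (cn n)) 1 0)) 11 0 = true := by decide +kernel
  have h0 : en z s τ 0 = 1 := by
    rw [en, Nat.zero_mod, dv_zero, vec_zero, h.e3_zero, Nat.zero_div, h.τ0, one_mul]; rfl
  rw [h.zq_iff (b0 := false) (iff_of_false h.classes.1 nofun) (iff_of_true h.classes.2.1 rfl)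
    (iff_of_true h.classes.2.2 rfl) hn, Ne, map_eq_one_iff i h.gs.inj, ← h0,
    show en z s τ n = en z s τ 0 ↔ n = 0 from ⟨h.en_inj hn (by norm_num), fun e => by rw [e]⟩, ← Ne, ← bne'_eq_true,
    ← bnot_eq_true, ← band_eq_true]
  have := allP_zero key n hn
  revert this
  cases band _ _ <;> cases tb 20 (cn n) <;> decide

theorem τ_spec {a : ℕ} (ha : a < 16) : ¬ IsConj (i z) (i (τ a)) ∧ IsConj (i z) (i (τ a * z)) := by
  have h0 : ∀ a < 16, a = 0 ∨ rootB (0 + 64 * a) = 64 := by decide +kernel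
  rcases h0 a ha with rfl | e
  · rw [h.τ0, one_mul]
    exact ⟨by simpa using mt (map_eq_one_iff i h.gs.inj).1 h.es.z_ne, IsConj.refl _⟩
  · rw [(h.τ_iff ha e).1, (h.τ_iff ha e).2]
    exact ⟨h.classes.1, h.classes.2.1⟩

theorem τ_not_mem : τ 1 ∉ Q := fun H => by
  have := h.mem_iff.1 H
  rw [h.ρτ 1 (by norm_num), el_eq_one (by norm_num)] at this
  omega

theorem y_or {y : G} (hy : y ∈ h.A) (h1 : y ≠ 1) (h2 : ¬ IsConj (i z) y) :
    IsConj y (i (τ 1)) ∨ ∃ q ∈ Q, π q ∈ cs 5 ∧ i q = y := by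
  obtain ⟨y, hy, rfl⟩ := hy
  obtain ⟨n, hn, rfl⟩ := h.exists_en hy
  have := (h.y_iff hn).1 ⟨h1, h2⟩
  rcases h.cls hn with ⟨e, H⟩ | ⟨e, H⟩ | ⟨hQ, ⟨e, H⟩ | ⟨e, H⟩⟩ | ⟨e, H⟩ | ⟨a, ha, r, ⟨e, H⟩ | ⟨e, H⟩⟩ <;>
    rw [e] at this <;> try exact absurd this (by decide)
  · exact .inr ⟨_, hQ, H, rfl⟩
  · obtain ⟨β, H'⟩ := h.τ_conj ha r
    have := H.trans (mul_one (τ a) ▸ H' 0)
    rcases zmod_cases β with rfl | rfl
    · exact .inl (i.map_isConj (mul_one (τ 1) ▸ this))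
    · exact (h2 ((conj_congr this _).2 h.classes.2.1)).elim

theorem y_conj {y : G} (hy : y ∈ h.A) (h1 : y ≠ 1) (h2 : ¬ IsConj (i z) y) : IsConj y (i (τ 1)) := by
  by_contra hn
  obtain ⟨q, hq, h5, rfl⟩ := (h.y_or hy h1 h2).resolve_left hn
  obtain ⟨m, hm, e⟩ := h.fusion h.z_mem_A (mem_map_of_mem i (mul_mem (h.τ_mem (a := 1) (by norm_num)) h.z_mem))
    h.classes.2.1
  have key : ∀ u ∈ h.A, IsConj (i q) u → m * u * m⁻¹ ∈ Q.map i := fun u hu H => by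
    have H' := H.trans (isConj_iff.2 ⟨m, rfl⟩)
    obtain ⟨q', hq', -, e⟩ := (h.y_or (conj_mem_of_mem_norm hm hu) (fun e => h1 (by simpa [e] using H'))
      fun c => h2 (c.trans H'.symm)).resolve_left fun c => hn (H'.trans c)
    exact ⟨q', hq', e⟩
  obtain ⟨k, -, ek⟩ := h.exists_conj_z hq (mem_cs31.1 (cs_subset (by norm_num) h5)).1
  have := mul_mem (key _ hy (IsConj.refl _)) (key _ (mul_mem hy h.z_mem_A)
    (by rw [← map_mul]; exact i.map_isConj (isConj_iff.2 ⟨k, ek⟩)))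
  rw [conj_mul, ← mul_assoc (i q), h.A_sq _ hy, one_mul, e, mem_map_iff_mem h.gs.inj,
    mul_mem_cancel_right h.es.z_mem] at this
  exact h.τ_not_mem this

theorem conjG' {k : ℕ} (hk : k < 2) : ∃ g, Commute g x ∧ ∀ a < 16, g * τ a * g⁻¹ = τ (pp k a) := by
  obtain ⟨g, h1, -, h2⟩ := h.conjG hk
  refine ⟨g, h1, fun a ha => ?_⟩
  obtain ⟨β, e, -⟩ := h2 a ha
  rcases zmod_cases β with rfl | rfl
  · exact e.trans (mul_one _)
  · exact ((h.τ_spec ha).1 ((conj_congr (isConj_iff.2 ⟨g, e⟩) _).2 (h.τ_spec (pp_lt ..)).2)).elim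

theorem exists_eps : ∃ j < 4, ∀ a < 16, ∀ b < 16,
    τ a * τ b = τ (Nat.xor a b) * zp z (bt (eps j (rootO (16 * a + b))) 0) := by
  have h1 := fun a b ha hb => orbO (f := fun a b => τ a * τ b = τ (Nat.xor a b)) (a := a) (b := b) (fun k hk a ha b hb => by
    obtain ⟨g, -, e⟩ := h.conjG' hk
    rw [← ((gc_spec hk).2 a ha).2 b hb, ← e a ha, ← e b hb, ← e _ (xor_lt16 ha hb), conj_mul, mul_left_inj,
      mul_right_inj]) ha hb
  have h2 : ∀ {a b c}, τ a * τ b = τ (Nat.xor a b) * zp z c → (τ a * τ b = τ (Nat.xor a b) ↔ c = 0) := fun e => by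
    rw [e, mul_eq_left]
    exact ⟨fun H => h.zp_inj H, fun H => H ▸ rfl⟩
  obtain ⟨c, ec⟩ := h.τ_mul (a := 1) (b := 2) (by norm_num) (by norm_num)
  obtain ⟨d, ed⟩ := h.τ_mul (a := 1) (b := 6) (by norm_num) (by norm_num)
  have h3 : ∀ c d : ZMod 2, c.val + 2 * d.val < 4 ∧ bt (eps (c.val + 2 * d.val) 18) 0 = c ∧
    bt (eps (c.val + 2 * d.val) 22) 0 = d ∧ ∀ r ∈ [0, 1, 16, 17], bt (eps (c.val + 2 * d.val) r) 0 = 0 := by decide
  obtain ⟨a1, a2, a3, a4⟩ := h3 c d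
  refine ⟨_, a1, fun a ha b hb => ?_⟩
  obtain ⟨e, ee⟩ := h.τ_mul ha hb
  obtain ⟨b1, b2⟩ := h1 a b ha hb
  rw [ee, (by decide : ∀ a b : ZMod 2, (a = 0 ↔ b = 0) → a = b) e _ ((h2 ee).symm.trans (b2.trans ?_))]
  simp only [List.mem_cons, List.not_mem_nil, or_false] at b1
  rcases b1 with e | e | e | e | e | e <;> rw [e]
  · exact iff_of_true (show τ 0 * τ 0 = τ 0 by rw [h.τ0, one_mul]) (a4 _ (by decide))
  · exact iff_of_true (show τ 0 * τ 1 = τ 1 by rw [h.τ0, one_mul]) (a4 _ (by decide))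
  · exact iff_of_true (show τ 1 * τ 0 = τ 1 by rw [h.τ0, mul_one]) (a4 _ (by decide))
  · exact iff_of_true ((h.τ_sq (by norm_num)).trans h.τ0.symm) (a4 _ (by decide))
  · rw [a2]; exact h2 ec
  · rw [a3]; exact h2 ed

omit [Finite G] in
theorem en_mul {j : ℕ} (hj : j < 4) (e : ∀ a < 16, ∀ b < 16,
    τ a * τ b = τ (Nat.xor a b) * zp z (bt (eps j (rootO (16 * a + b))) 0)) {m n : ℕ} (hm : m < 2048) (hn : n < 2048) :
    en z s τ (tw j (Nat.xor m n)) = en z s τ (tw j m) * en z s τ (tw j n) := by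
  have h1 : Nat.xor m n % 64 = Nat.xor (m % 64) (n % 64) := Nat.xor_mod_two_pow (n := 6)
  have h2 : Nat.xor m n / 128 = Nat.xor (m / 128) (n / 128) := Nat.xor_div_two_pow (n := 7)
  obtain ⟨a1, a2, -, a3⟩ := tw_spec hj hm
  obtain ⟨b1, b2, -, b3⟩ := tw_spec hj hn
  obtain ⟨c1, c2, -, c3⟩ := tw_spec hj (Nat.xor_lt_two_pow (n := 11) hm hn)
  have d1 := dv_spec (Nat.mod_lt m (show 0 < 64 by norm_num))
  have d2 := dv_spec (Nat.mod_lt n (show 0 < 64 by norm_num))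
  rw [en, en, en, a1, a2, a3, b1, b2, b3]
  erw [c1, c2, c3, h1, h2]
  rw [← (d1.2.2 _ (Nat.mod_lt n (by norm_num))).2, vec_xor, e3, e3, e3, (h.zp_comm _ _).symm.mul_mul_mul_comm,
    (h.comm_τ (by omega) d2.1).mul_mul_mul_comm, h.s_add d1.1 d2.1, e _ (by omega) _ (by omega),
    et_spec j hj _ (by omega) _ (by omega), ← h.zp_add, mul_assoc, mul_assoc, mul_assoc, ← h.zp_add]
  erw [bt_xor]
  congr 3
  ring

theorem τ_eps : ∀ a < 16, ∀ b < 16, τ a * τ b = τ (Nat.xor a b) * zp z (bt (eps 2 (rootO (16 * a + b))) 0) := by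
  obtain ⟨j, hj, e⟩ := h.exists_eps
  let Y : Set G := {y | y ∈ h.A ∧ y ≠ 1 ∧ ¬ IsConj (i z) y}
  have h1 : ∀ n < 2048, i (en z s τ (tw j n)) ∈ Y ↔ yq j n = true := fun n hn =>
    (and_iff_right (mem_map_of_mem i (h.en_mem (tw_lt hj hn)))).trans (h.y_iff (tw_lt hj hn))
  have h2 : ∀ n < 2048, {y | y ∈ Y ∧ i (en z s τ (tw j n)) * y ∈ Y}.ncard =
      sumR (fun m => bif' (band (yq j m) (yq j (Nat.xor n m))) 1 0) 2048 := fun n hn =>
    h.ncard_A (f := tw j) (fun _ H => H.1.1) (fun m hm => ⟨tw_lt hj hm, (tw_spec hj hm).2.2.1⟩) _ fun m hm => by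
      rw [Set.mem_setOf_eq, ← map_mul, ← h.en_mul hj e hn hm, h1 m hm, h1 (Nat.xor n m) (Nat.xor_lt_two_pow (n := 11) hn hm),
        band_eq_true]
  have h3 : ∀ m ∈ normalizer (h.A : Set G), ∀ y ∈ Y, m * y * m⁻¹ ∈ Y := fun m hm y hy =>
    ⟨conj_mem_of_mem_norm hm hy.1, mt conj_eq_one_iff.1 hy.2.1, fun H => hy.2.2 (H.trans (isConj_iff.2 ⟨m, rfl⟩).symm)⟩
  have h4 : ∀ a ∈ Y, ∀ b ∈ Y, {y | y ∈ Y ∧ a * y ∈ Y}.ncard ≤ {y | y ∈ Y ∧ b * y ∈ Y}.ncard := fun a ha b hb => by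
    obtain ⟨m, hm, rfl⟩ := h.fusion ha.1 hb.1 ((h.y_conj ha.1 ha.2.1 ha.2.2).trans (h.y_conj hb.1 hb.2.1 hb.2.2).symm)
    exact Set.ncard_le_ncard_of_injOn (fun y => m * y * m⁻¹) (fun y hy => ⟨h3 m hm y hy.1,
      by rw [conj_mul]; exact h3 m hm _ hy.2⟩) (MulAut.conj m).injective.injOn
  have h5 : ∀ j < 4, yq j 7 = true ∧ yq j (tw j 128) = true := by decide +kernel
  have a := (h1 7 (by norm_num)).2 (h5 j hj).1
  have b := (h1 _ (tw_lt hj (show 128 < 2048 by norm_num))).2 (h5 j hj).2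
  have := le_antisymm (h4 _ a _ b) (h4 _ b _ a)
  rw [h2 _ (by norm_num), h2 _ (tw_lt hj (by norm_num))] at this
  exact yq_count j hj this ▸ e

end GX

theorem exists_GX {G : Type*} [Group G] [Finite G] {z : G} {Q : Subgroup (centralizer ({z} : Set G))} [Q.Normal]
    (hF : IsOfLargeFischerTypeAt z Q) (T : Sylow 2 G) : ∃ (i : centralizer ({z} : Set G) →* G) (z' : _) (π : _) (ρ : _)
      (x : _) (s : _) (τ : _) (h : GX i Q z' π ρ x s τ), (∀ y, IsConj z y ↔ IsConj (i z') y) ∧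
        thompsonSubgroupOf 2 (T : Subgroup G) = h.A := by
  obtain ⟨π, ρ, h⟩ := exists_GS hF
  obtain ⟨x, h1, h2⟩ := h.exists_x
  obtain ⟨s, τ, h3⟩ := h.exists_GX h1 h2
  obtain ⟨k, -, e⟩ := sylow_trans Nat.prime_two h3.syl (sylow_top Nat.prime_two T)
  obtain ⟨s, τ, h4⟩ := (h.conjG k).exists_GX h1 h2
  have h5 : IsConj z _ := isConj_iff.2 ⟨k, rfl⟩
  refine ⟨_, _, π, ρ, x, s, τ, h4, fun y => ⟨h5.symm.trans, h5.trans⟩, ?_⟩
  rw [← h4.thompson, ← map_map, e]; rfl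

theorem realizeEqns_U6Fus : True := by
  have := @CA.U6.zq.eq_1
  have := @CA.U6.zq.eq_def
  have := @CA.U6.zq.congr_simp
  have := @CA.U6.GX.A.eq_1.{0,0}
  have := @CA.U6.GX.A.eq_def.{0,0}
  have := @CA.U6.GX.A.congr_simp.{0,0}
  have := @CA.U6.yq.eq_1
  have := @CA.U6.yq.eq_def
  have := @CA.U6.yq.congr_simp
  have := @CA.U6.tw.eq_1
  have := @CA.U6.tw.eq_def
  have := @CA.U6.tw.congr_simp
  trivial

end CA.U6
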