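import Cfsg.Agent.U6.Fus

/-! Groups of large Fischer type: the centralizer of the element of order three. -/

set_option autoImplicit false

namespace CA.U6

open Cfsg Cfsg.Agent Cfsg.Agent.Unit CA.M24 Subgroup Equiv CA.FG CA.Fi

theorem FS.exists_gen {H : Type*} [Group H] {Q : Subgroup H} {z : H} {π : H → V} {ρ : H →* L2} (h : FS Q z π ρ)
    {X : Subgroup H} (hX : Nat.card X = 3) (hn : (X ⊔ Q).Normal) :
    ∃ x, X = zpowers x ∧ x ^ 3 = 1 ∧ ∀ v, ρ x v = om4 • v := by
  haveI := Fact.mk Nat.prime_three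
  obtain ⟨x, rfl⟩ := (Subgroup.isCyclic_iff_exists_zpowers_eq_top X).1 (isCyclic_of_prime_card hX)
  rw [Nat.card_zpowers] at hX
  have h3 : x ^ 3 = 1 := hX ▸ pow_orderOf_eq_one x
  have h4 : x * x * (x * x) = x := by rw [show x * x * (x * x) = x ^ 3 * x by rw [pow_three]; group, h3, one_mul]
  obtain ⟨k, hk, ek⟩ : ρ x ∈ KK := by rw [← h4, map_mul]; exact h.mul_mem_KK.2 Iff.rfl
  have h5 : (zpowers (⟨k, hk⟩ : K0)).Normal := ⟨by
    rintro _ ⟨n, rfl⟩ l
    obtain ⟨g, e⟩ := h.exists_lift l.2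
    have := mem_map_of_mem ρ (hn.conj_mem _ (mem_sup_left (zpow_mem (mem_zpowers x) n)) g)
    rw [Subgroup.map_sup, (Subgroup.map_eq_bot_iff Q).2 h.kerρ.ge, sup_bot_eq, MonoidHom.map_zpowers] at this
    obtain ⟨m, em⟩ := this
    refine ⟨m, Subtype.ext (io_injective ?_)⟩
    simpa [e, ek] using em⟩
  have h6 := (simple_K0.eq_bot_or_eq_top_of_normal _ (h5.map _ (QuotientGroup.mk'_surjective (center K0)))).resolve_right
    fun e => by
      have := card_dvd_of_surjective _ ((QuotientGroup.mk' (center K0)).subgroupMap_surjective (zpowers ⟨k, hk⟩))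
      rw [e, card_top, Nat.card_zpowers, card_U43] at this
      refine absurd (Nat.le_of_dvd (by norm_num) (this.trans (orderOf_dvd_of_pow_eq_one (n := 3) ?_))) (by norm_num)
      exact Subtype.ext (io_injective (by rw [coe_pow, map_pow, ek, ← map_pow, h3, map_one, coe_one, map_one]))
  rw [Subgroup.map_eq_bot_iff, QuotientGroup.ker_mk', zpowers_le, mem_center_K0] at h6
  obtain ⟨c, rfl⟩ : ∃ c, k = sc c := h6
  rcases units_cases c with rfl | rfl | rfl
  · have := orderOf_dvd_of_pow_eq_one (h.es.pow_four (x := x) (h.mem_iff.2 (by rw [← ek, map_one, map_one])))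
    exact absurd (hX ▸ this) (by norm_num)
  · exact ⟨x, rfl, h3, fun v => by rw [← ek]; rfl⟩
  · exact ⟨x⁻¹, zpowers_inv.symm, by rw [inv_pow, h3, inv_one], fun v => by
      rw [map_inv, ← ek, ← map_inv, ← map_inv, inv_inv]; rfl⟩

namespace GX

variable {H G : Type*} [Group H] [Group G] [Finite G] {i : H →* G} {Q : Subgroup H} {z : H} {π : H → V} {ρ : H →* L2}
  {x : H} {s : V → H} {τ : ℕ → H} (h : GX i Q z π ρ x s τ) {C : Subgroup H} (hC : ∀ c, c ∈ C ↔ Commute c x)
include h hC

theorem z_mem_comm : (⟨z, (hC z).2 (h.cen x).symm⟩ : C) ∈ commutator C := by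
  let t (a : ℕ) := Abelianization.of (⟨τ a, (hC _).2 (h.τx a)⟩ : C)
  have h1 : ∀ a < 16, rootO (16 * a + a) = 17 → t a = t 1 := fun a ha e => by
    have := (orbO (f := fun a _ => t a = t 1) (fun k hk a ha b _ => ?_) ha ha).2
    · rw [e] at this
      exact this.2 rfl
    obtain ⟨g, hg, e⟩ := h.conjG' hk
    have : t (pp k a) = Abelianization.of (⟨g, (hC g).2 hg⟩ * ⟨τ a, (hC _).2 (h.τx a)⟩ * ⟨g, (hC g).2 hg⟩⁻¹ : C) :=
      congrArg Abelianization.of (Subtype.ext (e a ha).symm)
    rw [this, map_mul, map_mul, map_inv, mul_inv_cancel_comm]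
  have h2 := h.τ_eps 1 (by norm_num) 2 (by norm_num)
  have h3 := h.τ_eps 1 (by norm_num) 6 (by norm_num)
  rw [show bt _ 0 = 0 by decide +kernel, zp_zero, mul_one] at h2
  rw [show bt _ 0 = 1 by decide +kernel, zp_one] at h3
  have h4 : t 1 * t 2 = t 3 := (map_mul ..).symm.trans (congrArg Abelianization.of (Subtype.ext h2))
  have h5 : t 1 * t 6 = t 7 * Abelianization.of (⟨z, (hC z).2 (h.cen x).symm⟩ : C) :=
    (map_mul ..).symm.trans ((congrArg Abelianization.of (Subtype.ext h3)).trans (map_mul ..))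
  rw [h1 2 (by norm_num) (by decide +kernel), h1 3 (by norm_num) (by decide +kernel), mul_eq_left] at h4
  rw [h1 6 (by norm_num) (by decide +kernel), h1 7 (by norm_num) (by decide +kernel), h4, mul_one, one_mul] at h5
  exact (QuotientGroup.eq_one_iff _).1 h5.symm

theorem cent_three : IsQuasisimple C ∧ IsCyclic (center C) ∧ Nat.card (center C) = 6 ∧
    Nonempty (C ⧸ center C ≃* U43) := by
  let f : C →* K0 := (K0.equivMapOfInjective io io_injective).symm.toMonoidHom.comp
    ((ρ.comp C.subtype).codRestrict KK fun c => h.mem_KK ((hC c).1 c.2))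
  have hf : ∀ c, io (f c) = ρ c := fun c => congrArg Subtype.val
    ((K0.equivMapOfInjective io io_injective).apply_symm_apply ⟨ρ c, h.mem_KK ((hC c).1 c.2)⟩)
  have sf : Function.Surjective f := fun k => by
    obtain ⟨c, h1, h2⟩ := h.exists_cent (mem_map_of_mem io k.2)
    exact ⟨⟨c, (hC c).2 h1⟩, Subtype.ext (io_injective ((hf _).trans h2))⟩
  let Z : C := ⟨z, (hC z).2 (h.cen x).symm⟩
  let X : C := ⟨x, (hC x).2 (Commute.refl x)⟩
  have hZ : Z ∈ center C := mem_center_iff.2 fun c => Subtype.ext (h.cen c)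
  have hX : X ∈ center C := mem_center_iff.2 fun c => Subtype.ext ((hC c).1 c.2)
  have fX : f X = ⟨sc omU, sc_mem_K0 _⟩ := Subtype.ext (io_injective ((hf X).trans (LinearEquiv.ext h.ρx)))
  have kf : ∀ a b, f a = f b → a = b ∨ a = b * Z := fun a b e => by
    obtain ⟨c, e'⟩ := h.eq_or ((hC a).1 a.2) ((hC b).1 b.2) (by rw [← hf, ← hf, e])
    rcases zmod_cases c with rfl | rfl
    exacts [.inl (Subtype.ext (e'.trans (mul_one _))), .inr (Subtype.ext e')]
  have key : ∀ N : Subgroup C, Z ∈ N → X ∈ N → (center K0).comap f ≤ N := fun N h1 h2 c hc => by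
    obtain ⟨a, e⟩ := mem_center_K0.1 hc
    have : ∃ y ∈ N, f c = f y := by
      rcases units_cases a with rfl | rfl | rfl
      · exact ⟨1, one_mem _, Subtype.ext (by simpa using e)⟩
      · exact ⟨X, h2, Subtype.ext (by rwa [fX])⟩
      · exact ⟨X⁻¹, inv_mem h2, Subtype.ext (by simpa [fX] using e)⟩
    obtain ⟨y, hy, e⟩ := this
    rcases kf _ _ e with rfl | rfl
    exacts [hy, mul_mem hy h1]
  have h1 : (center K0).comap f = center C := le_antisymm (key _ hZ hX) fun c hc => mem_center_iff.2 fun k => by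
    obtain ⟨b, rfl⟩ := sf k
    rw [← map_mul, ← map_mul, mem_center_iff.1 hc]
  have sF : Function.Surjective ((QuotientGroup.mk' (center K0)).comp f) :=
    (QuotientGroup.mk'_surjective (center K0)).comp sf
  have kF : ((QuotientGroup.mk' (center K0)).comp f).ker = center C := by
    rw [← MonoidHom.comap_ker, QuotientGroup.ker_mk', h1]
  let e : C ⧸ center C ≃* U43 := (QuotientGroup.quotientMulEquivOfEq kF.symm).trans
    (QuotientGroup.quotientKerEquivOfSurjective _ sF)
  have o3 : orderOf X = 3 := orderOf_eq_prime (Subtype.ext h.x3) fun H => by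
    have := congrArg Subtype.val (fX.symm.trans (by rw [H, map_one]))
    exact absurd (sc_injective (this.trans (map_one sc).symm)) (by decide)
  have o6 : orderOf (X * Z) = 6 := by
    have o2 : orderOf Z = 2 := (orderOf_coe Z).symm.trans h.es.orderOf_z
    rw [Commute.orderOf_mul_eq_mul_orderOf_of_coprime (mem_center_iff.1 hZ X) (by rw [o2, o3]; decide), o2, o3]
  have h2 : center C = zpowers (X * Z) := by
    have c : Commute X Z := mem_center_iff.1 hZ X
    have z2 : Z * Z = 1 := Subtype.ext h.es.z_sq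
    have x3 : X ^ 3 = 1 := Subtype.ext h.x3
    have a : Z ∈ zpowers (X * Z) := by
      simpa [c.mul_pow, x3, pow_three Z, z2] using pow_mem (mem_zpowers (X * Z)) 3
    exact le_antisymm (h1 ▸ key _ a ((mul_mem_cancel_right a).1 (mem_zpowers _))) (zpowers_le.2 (mul_mem hX hZ))
  have h3 : X ∈ commutator C := by
    obtain ⟨a, ha⟩ := sf ⟨_, Mon_alt_le (dg_mem (d := ![1, omU, omU⁻¹, 1, omU, omU⁻¹]) (by decide))⟩
    obtain ⟨b, hb⟩ := sf ⟨_, Mon_alt_le (pm_mem (π := c[0, 2, 1] * c[3, 5, 4]) (Perm.mem_alternatingGroup.2 (by decide)))⟩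
    have := commutator_mem_commutator (mem_top b) (mem_top a)
    rcases kf X (b * a * b⁻¹ * a⁻¹) (by
      rw [fX, map_mul, map_mul, map_mul, map_inv, map_inv, ha, hb]
      refine Subtype.ext ?_
      show sc omU = pm _ * dg _ * (pm _)⁻¹ * (dg _)⁻¹
      rw [pm_dg, mul_inv_cancel_right, ← map_inv, ← map_mul]
      exact congrArg dg (by decide)) with e | e <;> rw [e]
    exacts [this, mul_mem this (h.z_mem_comm hC)]
  refine ⟨⟨⟨eq_top_iff.2 fun c _ => ?_⟩, e.symm.isSimpleGroup_congr.1 simple_K0⟩, h2 ▸ inferInstance,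
    by rw [h2, Nat.card_zpowers, o6], ⟨e⟩⟩
  obtain ⟨y, hy, ey⟩ : ((QuotientGroup.mk' (center K0)).comp f) c ∈ (commutator C).map _ := by
    rw [map_commutator_eq, MonoidHom.range_eq_top.2 sF]
    exact commutator_U43.ge trivial
  have := key _ (h.z_mem_comm hC) h3 (h1.ge (kF.le (show y⁻¹ * c ∈ MonoidHom.ker _ by
    rw [MonoidHom.mem_ker, map_mul, map_inv, ey, inv_mul_cancel])))
  exact (mul_mem_cancel_left (inv_mem hy)).1 this

end GX

end CA.U6
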