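/-
The normalizer of a 3-central element of order three in a group of Monster type.
-/
import Cfsg.Agent.U6.Main24
import Cfsg.Agent.M24.Thom
import Cfsg.Agent.M24.Three
import Cfsg.Agent.M24.Fisch2
import Cfsg.Agent.Loc.PresFi24
import Cfsg.Agent.Fi.Main24

set_option autoImplicit false

namespace CA.U6

open Cfsg Cfsg.Agent CA.M24 Subgroup CA.FG CA.Fi Equiv

theorem r3A_comm : ∃ a ∈ M24, ∃ c ∈ M24, ∃ k ∈ M24, a * perm r3A = perm r3A * a ∧ c * perm r3A = perm r3A * c ∧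
    a * c * a⁻¹ * c⁻¹ = perm r3A ∧ k * perm r3A * k⁻¹ * perm r3A = 1 := by
  obtain ⟨a, ha, e1⟩ := inM_of_chk (c := 970236027624582211536644461377866784) (by decide +kernel)
  obtain ⟨c, hc, e2⟩ := inM_of_chk (c := 929992399119427806994596363853352171) (by decide +kernel)
  obtain ⟨k, hk, e3⟩ := inM_of_chk (c := 632881719392261393869232545391221171) (by decide +kernel)
  refine ⟨a, ha, c, hc, k, hk, ?_, ?_, ?_, ?_⟩ <;> refine code_inj ?_ <;>
    simp only [← pmul_code, ← pinv_code, e1, e2, e3, r3A_in.code_perm, code_one] <;> decide +kernel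

variable {G : Type*} [Group G] [Finite G] {z : G} {Q : Subgroup (centralizer ({z} : Set G))} [Q.Normal]
  {φ : Co0 →* centralizer ({z} : Set G) ⧸ Q} {L : G → Vec → Prop} (M : MS z Q φ L) {b : G}
  (S : Sec (amb Q) z (zpowers b)) (hA : AA φ b (pC (perm r3A))) (hb : orderOf b = 3)
include M S hA

theorem ms_lift {π : Perm Pt} (hπ : π ∈ M24) (c : π * perm r3A = perm r3A * π) :
    ∃ d, Commute d b ∧ AA φ d (pC π) := by
  have c' : Commute (pC π) (pC (perm r3A)) := (pC_mul hπ r3A_in.perm_mem).symm.trans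
    ((congrArg pC c).trans (pC_mul r3A_in.perm_mem hπ))
  obtain ⟨d, hd⟩ := exists_AA φ (pC π)
  obtain ⟨q, hq, h⟩ := S.exists_cent (d := d) (by
    intro b' hb'
    obtain ⟨n, rfl⟩ := (mem_powers_iff_mem_zpowers.2 hb' :)
    refine (M.AA_iff (hd.inv.mul (((hA.pow n).mul hd).mul (hA.pow n).inv))).2 (Or.inl ?_)
    rw [← (c'.pow_right n).eq]
    group)
  exact ⟨d * q, mem_cent_zpowers.1 h, by simpa using hd.mul (AA_of_mem hq)⟩

include hb

theorem ms_comm : ∃ d e, (Commute d b ∧ Commute d z) ∧ (Commute e b ∧ Commute e z) ∧ (d * e * d⁻¹ * e⁻¹) ^ 4 = b := by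
  obtain ⟨a, ha, c, hc, -, -, e1, e2, e3, -⟩ := r3A_comm
  obtain ⟨d, d1, d2⟩ := ms_lift M S hA ha e1
  obtain ⟨e, f1, f2⟩ := ms_lift M S hA hc e2
  refine ⟨d, e, ⟨d1, d2.comm⟩, ⟨f1, f2.comm⟩, ?_⟩
  have q := (M.AA_iff ((((d2.mul f2).mul d2.inv).mul f2.inv).mul hA.inv)).2 (.inl (by
    rw [← pC_inv ha, ← pC_inv hc, ← pC_mul ha hc, ← pC_mul (mul_mem ha hc) (inv_mem ha),
      ← pC_mul (mul_mem (mul_mem ha hc) (inv_mem ha)) (inv_mem hc), e3, mul_inv_cancel]))
  have c := ((d1.mul_left f1).mul_left d1.inv_left).mul_left f1.inv_left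
  have := M.le.pow_four q
  rwa [c.inv_right.mul_pow, inv_pow, mul_inv_eq_one, pow_succ b, ← hb, pow_orderOf_eq_one, one_mul] at this

omit hb in
theorem ms_inv : ∃ n ∈ normalizer (zpowers b : Set G), n * b * n⁻¹ * b = 1 := by
  obtain ⟨-, -, -, -, k, hk, -, -, -, e⟩ := r3A_comm
  have hr := r3A_in.perm_mem
  have q : ∀ d, AA φ d (pC k) → d * b * d⁻¹ * b ∈ amb Q := fun d hd =>
    (M.AA_iff (((hd.mul hA).mul hd.inv).mul hA)).2 (.inl (by
      rw [← pC_inv hk, ← pC_mul hk hr, ← pC_mul (mul_mem hk hr) (inv_mem hk),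
        ← pC_mul (mul_mem (mul_mem hk hr) (inv_mem hk)) hr, e, pC_one]))
  obtain ⟨d, hd⟩ := exists_AA φ (pC k)
  haveI := S.le.isPGroup.isNilpotent
  obtain ⟨r, hr, e⟩ := SchurZassenhaus_trans (B := zpowers b :^ d) (.inl inferInstance) S.le_norm (by
    rw [conjg, MonoidHom.map_zpowers, zpowers_le]
    change d * b * d⁻¹ ∈ _
    rw [← mul_inv_cancel_right (d * b * d⁻¹) b]
    exact mul_mem (mem_sup_left (q d hd)) (mem_sup_right (inv_mem (mem_zpowers b))))
    (by rw [M.card]; exact (Nat.coprime_two_left.2 S.odd).pow_left _) (card_conjg _ _)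
  have n := conjg_eq_conjg_iff.1 e
  exact ⟨_, n, S.eq_one (mul_mem (conj_mem_of_mem_norm n (mem_zpowers b)) (mem_zpowers b))
    (q _ (by simpa using (AA_of_mem (inv_mem hr)).mul hd))⟩

theorem ms_main [hn : ((zpowers b).subgroupOf (centralizer (zpowers b : Set G))).Normal]
    [hn' : ((zpowers b).subgroupOf (normalizer (zpowers b : Set G))).Normal] :
    IsQuasisimple (centralizer (zpowers b : Set G)) ∧
      Spor.IsoFi24' (centralizer (zpowers b : Set G) ⧸ (zpowers b).subgroupOf (centralizer (zpowers b : Set G))) ∧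
      ∃ E : Set (normalizer (zpowers b : Set G) ⧸ (zpowers b).subgroupOf (normalizer (zpowers b : Set G))),
        IsThreeTranspositionClass E ∧ IsOfTypeM24 _ E := by
  have b3 : b ^ 3 = 1 := hb ▸ pow_orderOf_eq_one b
  have ni : ∀ n, n * b * n⁻¹ * b = 1 → ¬ Commute n b := fun n e c => by
    rw [conj_eq_iff_commute.2 c] at e
    rw [eq_one_of_two_three ((pow_two b).trans e) b3, orderOf_one] at hb
    cases hb
  obtain ⟨f, h1, h2, h3, h4⟩ := Fisch.main
  have hx : pC (perm r3A) ^ 3 = 1 := by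
    rw [← pHom_apply ⟨_, r3A_in.perm_mem⟩, ← map_pow, ← map_one pHom]
    exact congrArg _ (Subtype.ext (Fisch.order ▸ pow_orderOf_eq_one _))
  obtain ⟨hLE, F, hF, hk⟩ := M.sect S hA (by decide) hx f h1 h2 h3
  haveI := normal_of_LE hLE
  let e := (QuotientGroup.quotientMulEquivOfEq hk.symm).trans (QuotientGroup.quotientKerEquivOfSurjective F hF)
  have hT : IsOfLargeFischerTypeAt _ _ := ⟨setting_of_LE hLE (w := 6)
    (by rw [S.card_eq, M.card_R hA (hb ▸ by decide) Fisch.crd]; norm_num) e h4 S.nwc', Fisch.final e⟩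
  have le : centralizer (zpowers b : Set G) ≤ normalizer (zpowers b : Set G) := cent_le_norm _
  let j := QuotientGroup.map ((zpowers b).subgroupOf (centralizer (zpowers b : Set G)))
    ((zpowers b).subgroupOf (normalizer (zpowers b : Set G))) (inclusion le) fun _ h => h
  have hj : Function.Injective j := (injective_iff_map_eq_one j).2 fun g hg => by
    obtain ⟨g, rfl⟩ := QuotientGroup.mk_surjective g
    exact (QuotientGroup.eq_one_iff g).2 ((QuotientGroup.eq_one_iff (inclusion le g)).1 hg)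
  have jr : ∀ n : normalizer (zpowers b : Set G), QuotientGroup.mk n ∈ j.range ↔ Commute n.1 b := fun n =>
    ⟨fun ⟨g, e⟩ => by
      obtain ⟨g, rfl⟩ := QuotientGroup.mk_surjective g
      have : Commute (g.1 * (g.1⁻¹ * n.1)) b := (mem_cent_zpowers.1 g.2).mul_left
        (mem_cent_zpowers.1 (S.ab ((QuotientGroup.eq (a := inclusion le g) (b := n)).1 e)))
      rwa [mul_inv_cancel_left] at this,
    fun c => ⟨QuotientGroup.mk ⟨n, mem_cent_zpowers.2 c⟩, rfl⟩⟩
  have nb : ∀ n : normalizer (zpowers b : Set G), ¬ Commute n.1 b → n * b * n⁻¹ * b = 1 := fun n c => by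
    rcases mem_zpowers_three b3 (conj_mem_of_mem_norm n.2 (mem_zpowers b)) with e | e | e
    · rw [conj_eq_one_iff.1 e, orderOf_one] at hb
      cases hb
    · exact absurd (conj_eq_iff_commute.1 e) c
    · exact (congrArg (· * b) e).trans (by rw [← b3, pow_three'])
  have idx : j.range.index = 2 := by
    obtain ⟨n, hn, e⟩ := ms_inv M S hA
    refine index_eq_two_iff.2 ⟨QuotientGroup.mk ⟨n, hn⟩, fun y => ?_⟩
    obtain ⟨y, rfl⟩ := QuotientGroup.mk_surjective y
    rw [← QuotientGroup.mk_mul, jr, jr]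
    by_cases c : Commute y.1 b
    · exact .inr ⟨c, fun c' => ni n e (by simpa using c.inv_left.mul_left c')⟩
    · refine .inl ⟨conj_eq_iff_commute.1 ?_, c⟩
      change y.1 * n * b * (y.1 * n)⁻¹ = b
      rw [show y.1 * n * b * (y.1 * n)⁻¹ = y.1 * (n * b * n⁻¹) * y.1⁻¹ by group, eq_inv_of_mul_eq_one_left e, ← conj_inv]
      exact inv_eq_of_mul_eq_one_right (nb y c)
  obtain ⟨d, d', hd, hd', e4⟩ := ms_comm M S hA hb
  obtain ⟨D, g, r, cl⟩ := (XX.of_type hT.1.2.1 hj idx fun g c => by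
    obtain ⟨n, rfl⟩ := QuotientGroup.mk_surjective g
    refine (jr n).2 (by_contra fun a => a ?_)
    have cr : ∀ r ∈ amb Q, Commute r b → Commute n.1 r := fun r hr c' => by
      have := c ⟨sP _ ⟨r, mem_cent_zpowers.2 c'⟩, mem_cent_iff.2 (hLE.z_comm _ (mem_map_of_mem _ hr)).symm⟩
        (mem_map_of_mem _ hr)
      let r' : normalizer (zpowers b : Set G) := ⟨r, le (mem_cent_zpowers.2 c')⟩
      have m : r⁻¹ * (n * r * n.1⁻¹) ∈ zpowers b :=
        (QuotientGroup.eq (s := (zpowers b).subgroupOf _) (a := r') (b := n * r' * n⁻¹)).1 (conj_eq_iff_commute.2 this).symm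
      have c2 : Commute r (r⁻¹ * (n * r * n.1⁻¹)) := mem_cent_subgroup_iff.1 (mem_cent_zpowers.2 c') _ m
      have e1 := c2.mul_pow 4
      have e2 : (r⁻¹ * (n * r * n.1⁻¹)) ^ 3 = 1 := by
        obtain ⟨k, e⟩ := mem_zpowers_iff.1 m
        rw [← e, ← zpow_natCast, ← zpow_mul, mul_comm, zpow_mul, zpow_natCast, b3, one_zpow]
      rw [mul_inv_cancel_left, conj_pow, M.le.pow_four hr, one_mul, mul_one, mul_inv_cancel, pow_succ, e2, one_mul,
        eq_comm, inv_mul_eq_one] at e1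
      exact conj_eq_iff_commute.1 e1.symm
    have key : ∀ d, Commute d b ∧ Commute d z → ∀ u, Commute u b ∧ Commute u z → Commute (n * d * n.1⁻¹ * d⁻¹) u := by
      intro d hd u hu
      have c1 : Commute (n * d * n.1⁻¹ * d⁻¹) b := Commute.mul_left (by
        rw [← Commute.inv_right_iff, ← eq_inv_of_mul_eq_one_left (nb n a)]; exact commute_cj.2 hd.1) hd.1.inv_left
      have c2 : ∀ x ∈ ((amb Q).subgroupOf _).map (sP (zpowers b)), Commute (sP _ ⟨_, mem_cent_zpowers.2 c1⟩) x := by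
        rintro _ ⟨r, hr, rfl⟩
        have rb := mem_cent_zpowers.1 r.2
        refine Sec.map_comm (conj_eq_iff_commute.1 ?_)
        have := cr _ (M.le.norm _ hd.2.inv_left r hr) ((hd.1.inv_left.mul_left rb).mul_left hd.1.inv_left.inv_left)
        change n * d * n.1⁻¹ * d⁻¹ * r * (n * d * n.1⁻¹ * d⁻¹)⁻¹ = r
        rw [show n * d * n.1⁻¹ * d⁻¹ * r * (n * d * n.1⁻¹ * d⁻¹)⁻¹ =
          n * d * (n.1⁻¹ * (d⁻¹ * r * d⁻¹⁻¹) * n.1⁻¹⁻¹) * d⁻¹ * n.1⁻¹ by group, conj_eq_iff_commute.2 this.inv_left,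
          show n * d * (d⁻¹ * r * d⁻¹⁻¹) * d⁻¹ * n.1⁻¹ = n * r * n.1⁻¹ by group, conj_eq_iff_commute.2 (cr r hr rb)]
      have cB := mem_cent_subgroup_iff.1 (mem_cent_zpowers.2 hu.1)
      rcases hLE.cen _ (hLE.cent _ c2) c2 with e | e
      · exact (cB _ ((QuotientGroup.eq_one_iff (⟨_, mem_cent_zpowers.2 c1⟩ : centralizer (zpowers b : Set G))).1 e)).symm
      · have := hu.2.mul_right (cB _ ((Sec.eq_iff _ _).1 e.symm))
        rw [mul_inv_cancel_left] at this
        exact this.symm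
    have k1 := key d hd
    have k2 := key d' hd'
    have k3 : Commute (n * d * n.1⁻¹ * d⁻¹) (n * d' * n.1⁻¹ * d'⁻¹) := by
      refine k1 _ ⟨k2 b ⟨Commute.refl b, hA.comm⟩, k2 z ⟨hA.comm.symm, Commute.refl z⟩⟩
    refine (congrArg (Commute n.1) e4).mp (Commute.pow_right (conj_eq_iff_commute.1 ?_) 4)
    have a1 := k1 d hd
    have a2 := k1 d' hd'
    have a3 := k2 d hd
    rw [show n * (d * d' * d⁻¹ * d'⁻¹) * n.1⁻¹ = (n * d * n.1⁻¹ * d⁻¹) * d * ((n * d' * n.1⁻¹ * d'⁻¹) * d') *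
      ((n * d * n.1⁻¹ * d⁻¹) * d)⁻¹ * ((n * d' * n.1⁻¹ * d'⁻¹) * d')⁻¹ by group]
    generalize n * d * n.1⁻¹ * d⁻¹ = u, n * d' * n.1⁻¹ * d'⁻¹ = v at *
    rw [show u * d * (v * d') * (u * d)⁻¹ * (v * d')⁻¹ = u * (d * (v * d') * d⁻¹) * u⁻¹ * d'⁻¹ * v⁻¹ by group,
      conj_eq_iff_commute.2 ((a1.mul_right (k3.mul_right a2)).mul_right a1.inv_right), ← mul_assoc d, ← a3.eq,
      show v * d * d' * d⁻¹ * d'⁻¹ * v⁻¹ = v * (d * d' * d⁻¹ * d'⁻¹) * v⁻¹ by group,
      conj_eq_iff_commute.2 (((a3.mul_right (k2 d' hd')).mul_right a3.inv_right).mul_right (k2 d' hd').inv_right)]).main hT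
  have ec : _root_.commutator _ = j.range := by
    have l : _root_.commutator _ ≤ j.range := commutator_le.2 fun x _ y _ => by
      change x * y * x⁻¹ * y⁻¹ ∈ _
      simp only [mul_mem_iff_of_index_two idx, inv_mem_iff]; tauto
    have := relIndex_mul_index l
    rw [idx, r.toReal.index24 r.gen r.ctr] at this
    exact le_antisymm l (relIndex_eq_one.1 (by omega))
  let ψ := (MonoidHom.ofInjective hj).trans (MulEquiv.subgroupCongr ec.symm)
  haveI := r.toReal.simple24 r.gen r.ctr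
  haveI := ψ.isSimpleGroup
  obtain ⟨ψ'⟩ := DC.isoFi24p r
  refine ⟨(qs_of_ext (QuotientGroup.mk'_surjective ((zpowers b).subgroupOf _)) (fun y hy => mem_center_iff.2 fun g =>
    Subtype.ext (Sec.comm_B g ((QuotientGroup.eq_one_iff y).1 hy))) (fun y hy => ?_)
    ((IsSimpleGroup.eq_bot_or_eq_top_of_normal (center _) inferInstance).resolve_right fun a => ?_)).1,
    ⟨ψ.trans ψ'⟩, D, cl, TC.type24_of_real r.toReal r.gen r.ctr⟩
  · rw [QuotientGroup.ker_mk', mem_subgroupOf] at hy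
    obtain ⟨k, e⟩ := mem_zpowers_iff.1 hy
    obtain ⟨D1, e1⟩ : ∃ x : centralizer (zpowers b : Set G), x.1 = d := ⟨⟨d, mem_cent_zpowers.2 hd.1⟩, rfl⟩
    obtain ⟨D2, e2⟩ : ∃ x : centralizer (zpowers b : Set G), x.1 = d' := ⟨⟨d', mem_cent_zpowers.2 hd'.1⟩, rfl⟩
    have m : D1 * D2 * D1⁻¹ * D2⁻¹ ∈ _root_.commutator (centralizer (zpowers b : Set G)) :=
      commutator_mem_commutator (mem_top D1) (mem_top D2)
    have e3 : ((D1 * D2 * D1⁻¹ * D2⁻¹) ^ 4) ^ k = y := Subtype.ext (by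
      rw [coe_zpow, coe_pow, coe_mul, coe_mul, coe_mul, coe_inv, coe_inv, e1, e2, e4, e])
    exact e3 ▸ zpow_mem (pow_mem m 4) k
  · obtain ⟨x, hx, n1, n2⟩ := hLE.nonab
    exact (hLE.cen x hx fun y _ => (mem_center_iff.1 (a.ge (mem_top x)) y).symm).elim n1 n2

end CA.U6
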