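import Cfsg.Agent.U6.Refl
import Cfsg.Agent.FG.PHall

/-! Triple covers of the unitary group of degree four over nine elements inside the unitary group of degree six. -/

set_option autoImplicit false

namespace CA.U6

open Cfsg Cfsg.Agent Cfsg.Agent.Unit CA.M24 Subgroup Equiv CA.FG

theorem sylow_of_card {G : Type*} [Group G] [Finite G] {p n m : ℕ} (hp : p.Prime) {P M : Subgroup G}
    (h : P ≤ M) (cP : Nat.card P = p ^ n) (cM : Nat.card M = p ^ n * m) (hm : ¬ p ∣ m) :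
    IsSylowOf p P M := by
  refine sylow_mk h (fun q hq hd => ?_) ?_
  · rw [cP] at hd
    exact (Nat.prime_dvd_prime_iff_eq hq hp).1 (hq.dvd_of_dvd_pow hd)
  · have := (P.subgroupOf M).card_mul_index
    rw [Nat.card_congr (subgroupOfEquivOfLe h).toEquiv, cP, cM] at this
    rwa [relIndex, Nat.eq_of_mul_eq_mul_left (pow_pos hp.pos n) this]

theorem card_comap_surj {A C : Type*} [Group A] [Group C] [Finite A] {f : A →* C}
    (hf : Function.Surjective f) (Z : Subgroup C) :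
    Nat.card (Z.comap f) = Nat.card f.ker * Nat.card Z := by
  rw [← card_map_mul_card_inf_ker (Z.comap f) f, map_comap_eq_self_of_surjective hf, mul_comm,
    inf_eq_left.2 (ker_le_comap f Z)]

theorem testBit_of_subset {m m' : ℕ} (h : cs m ⊆ cs m') :
    ∀ k < 5, m.testBit k = true → m'.testBit k = true := by
  intro k hk H
  obtain ⟨v, rfl⟩ : ∃ v, cl v = k := by
    have : ∀ k < 5, ∃ n ∈ [3, 15, 63, 126, 127], n < 4096 ∧ clN n = k := by decide +kernel
    obtain ⟨n, -, h1, h2⟩ := this k hk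
    exact ⟨vec n, (cl_vec h1).trans h2⟩
  exact h H

theorem exists_cs7 {K : Subgroup UU} (hP : Mon (alternatingGroup (Fin 6)) ≤ K) (h7 : 7 ∣ Nat.card K)
    {X : Set V} (h1 : X ⊆ cs 31) (h2 : ∀ g ∈ K, ∀ v ∈ X, g.1 v ∈ X) :
    ∃ m < 32, 7 ∣ nn m ∧ X = cs m := by
  obtain ⟨m, hm, rfl⟩ := exists_cs h1 fun g hg => h2 g (hP hg)
  exact ⟨m, hm, card_cs hm ▸ seven_dvd h7 h1 h2, rfl⟩

theorem exists_orbit {K : Subgroup UU} (hP : Mon (alternatingGroup (Fin 6)) ≤ K) (h7 : 7 ∣ Nat.card K)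
    {v : V} (hv : v ∈ cs 31) : ∃ m < 32, 7 ∣ nn m ∧ nn m ∣ Nat.card K ∧ MulAction.orbit K v = cs m := by
  obtain ⟨m, hm, h1, h2⟩ := exists_cs7 hP h7 (X := MulAction.orbit K v)
    (by rintro _ ⟨g, rfl⟩; exact map_mem_cs31 g.1 hv)
    (by rintro g hg _ ⟨k, rfl⟩; exact ⟨⟨g, hg⟩ * k, rfl⟩)
  exact ⟨m, hm, h1, ⟨_, by rw [← card_cs hm, ← h2, card_orbit_mul]⟩, h2⟩

theorem seven_K0 : 7 ∣ Nat.card K0 := by rw [card_K0]; norm_num

theorem mem_cs26 {v : V} : v ∈ cs 26 ↔ v ∈ cs 31 ∧ v ∉ cs 5 := by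
  simp only [cs, Set.mem_setOf_eq]
  generalize cl v = k
  rcases lt_or_ge k 5 with h | h
  · revert k; decide
  · have := fun m (hm : m < 2 ^ 5) => Nat.testBit_lt_two_pow
      (lt_of_lt_of_le hm (Nat.pow_le_pow_right (by norm_num) h))
    simp [this 26, this 31]

theorem G0_map_mem26 {g : UU} (hg : g ∈ G0) {v : V} (hv : v ∈ cs 26) : g.1 v ∈ cs 26 :=
  mem_cs26.2 ⟨map_mem_cs31 g (mem_cs26.1 hv).1, fun h => (mem_cs26.1 hv).2 <| by
    simpa only [UG.inv_apply_self] using G0_map_mem (inv_mem hg) h⟩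

theorem orbit_K0_5 {v : V} (hv : v ∈ cs 5) : MulAction.orbit K0 v = cs 5 := by
  obtain ⟨m, hm, h1, -, h2⟩ := exists_orbit Mon_alt_le seven_K0 (cs_subset (by norm_num) hv)
  have h3 := testBit_of_subset (m := m) (m' := 5)
    (by rw [← h2]; rintro _ ⟨g, rfl⟩; exact G0_map_mem (K0_le g.2) hv)
  have h4 : m ≠ 0 := by
    rintro rfl
    simpa [cs] using h2.le (MulAction.mem_orbit_self v)
  rw [h2, show m = 5 by clear h2; revert m; decide]

theorem orbit_K0_26 {v : V} (hv : v ∈ cs 26) : MulAction.orbit K0 v = cs 26 := by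
  obtain ⟨m, hm, h1, -, h2⟩ := exists_orbit Mon_alt_le seven_K0 (cs_subset (by norm_num) hv)
  have h3 := testBit_of_subset (m := m) (m' := 26)
    (by rw [← h2]; rintro _ ⟨g, rfl⟩; exact G0_map_mem26 (K0_le g.2) hv)
  have h4 : m ≠ 0 := by
    rintro rfl
    simpa [cs] using h2.le (MulAction.mem_orbit_self v)
  rw [h2, show m = 26 by clear h2; revert m; decide]

theorem exists_K0_5 {v w : V} (hv : v ∈ cs 5) (hw : w ∈ cs 5) : ∃ k ∈ K0, k.1 v = w := by
  obtain ⟨k, h⟩ := (orbit_K0_5 hv).ge hw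
  exact ⟨k, k.2, h⟩

theorem exists_K0_26 {v w : V} (hv : v ∈ cs 26) (hw : w ∈ cs 26) : ∃ k ∈ K0, k.1 v = w := by
  obtain ⟨k, h⟩ := (orbit_K0_26 hv).ge hw
  exact ⟨k, k.2, h⟩

theorem mem_K0_or {g : UU} (hg : g ∈ G0) {v : V} (hv : v ∈ cs 5) : g ∈ K0 ∨ g * tvV v ∈ K0 := by
  have key : ∀ u ∈ cs 5, ∀ g ∈ G0, g ∈ K0 ∨ g * tvV v ∈ K0 → tvV u * g ∈ K0 ∨ tvV u * g * tvV v ∈ K0 := by
    intro u hu g hg ih
    obtain ⟨k, hk, rfl⟩ := exists_K0_5 hv hu
    have h1 := commutator_mem_commutator (K0_le hk) (tvV_mem_G0 hv)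
    rw [commutatorElement_def, tvV_conj] at h1
    rcases ih with h | h
    · have := mul_mem h1 (conj_mem_K0 (tvV_mem_G0 hv) h)
      rw [tvV_inv, mul_assoc, ← mul_assoc (tvV v), ← mul_assoc (tvV v), tvV_sq, one_mul, ← mul_assoc] at this
      exact Or.inr this
    · have := mul_mem h1 (conj_mem_K0 (tvV_mem_G0 hv) h)
      rw [tvV_inv, mul_assoc, ← mul_assoc (tvV v), ← mul_assoc (tvV v), tvV_sq, one_mul, mul_assoc g,
        tvV_sq, mul_one] at this
      exact Or.inl this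
  induction hg using closure_induction_left with
  | one => exact Or.inl (one_mem _)
  | mul_left x hx y hy ih =>
    obtain ⟨u, hu, rfl⟩ := hx
    exact key u hu y hy ih
  | inv_mul_cancel x hx y hy ih =>
    obtain ⟨u, hu, rfl⟩ := hx
    rw [tvV_inv]
    exact key u hu y hy ih

theorem vec3_mem : vec 3 ∈ cs 5 := (vec_mem_cs (by norm_num)).2 (by decide +kernel)

theorem relIndex_K0 : K0.relIndex G0 = 2 := by
  refine index_eq_two_iff.2 ⟨⟨_, tvV_mem_G0 vec3_mem⟩, fun g => ?_⟩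
  simp only [mem_subgroupOf, coe_mul]
  rcases mem_K0_or g.2 vec3_mem with h | h
  · exact Or.inr ⟨h, fun h' => tvV_not_mem vec3_mem ((mul_mem_cancel_left h).1 h')⟩
  · exact Or.inl ⟨h, fun h' => tvV_not_mem vec3_mem ((mul_mem_cancel_left h').1 h)⟩

theorem card_G0 : Nat.card G0 = 2 ^ 8 * 3 ^ 7 * 5 * 7 := by
  have := (K0.subgroupOf G0).card_mul_index
  rw [Nat.card_congr (subgroupOfEquivOfLe K0_le).toEquiv, card_K0, ← relIndex, relIndex_K0] at this
  rw [← this]; norm_num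

theorem card_S0 : Nat.card (Mon C9) = 3 ^ 7 := by rw [card_Mon, card_C9]; norm_num

theorem conj_mem_Mon_bot {g a : UU} (hg : g ∈ Mon ⊤) (ha : a ∈ Mon ⊥) : g * a * g⁻¹ ∈ Mon ⊥ := by
  obtain ⟨d, -, π, -, rfl⟩ := hg
  obtain ⟨e, he, rfl⟩ := mem_Mon_bot.1 ha
  rw [mul_assoc (dg d), pm_dg, mul_inv_rev, ← mul_assoc, ← mul_assoc, mul_inv_cancel_right, ← map_inv,
    ← map_mul, ← map_mul, mul_inv_cancel_comm]
  exact dg_mem ((Equiv.prod_comp π⁻¹ e).trans he)

theorem Mon_bot_comm {a b : UU} (ha : a ∈ Mon ⊥) (hb : b ∈ Mon ⊥) : a * b = b * a := by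
  obtain ⟨d, -, rfl⟩ := mem_Mon_bot.1 ha
  obtain ⟨e, -, rfl⟩ := mem_Mon_bot.1 hb
  rw [← map_mul, mul_comm, map_mul]

theorem exists_mon_of_norm {n : UU} (hn : n ∈ 𝒩(Mon C9)) : ∃ d π, n = dg d * pm π := by
  have h1 : Mon ⊥ :^ n⁻¹ = Mon ⊥ := by
    refine eq_Mon_bot (fun x hx => ?_) (by rw [card_conjg, card_Mon, card_bot]) (fun a ha b hb => ?_)
      fun a ha b hb => ⟨1, ?_⟩
    · exact (mem_normalizer_iff.1 hn x).2 (Mon_mono bot_le (mem_conjg_inv.1 hx))
    · have := conj_mem_Mon_bot (Mon_mono le_top ((mem_normalizer_iff.1 hn a).1 (Mon_mono bot_le ha)))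
        (mem_conjg_inv.1 hb)
      refine mem_conjg_inv.2 ?_
      convert this using 1
      group
    · have := Mon_bot_comm (mem_conjg_inv.1 ha) (mem_conjg_inv.1 hb)
      rw [map_one, ← commutatorElement_def, commutatorElement_eq_one_iff_mul_comm]
      exact (MulAut.conj n).injective (by simpa only [map_mul, MulAut.conj_apply] using this)
  refine exists_mon fun a ha => h1.le ?_
  simpa using conj_mem_conjg n⁻¹ ha

theorem mem_cs5 {v : V} (h : wt v = 6) : v ∈ cs 5 ↔ pr v = 1 := by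
  simp only [cs, cl, Set.mem_setOf_eq, h]
  generalize pr v = p
  revert p
  decide

/-- the stabiliser of the 126 points -/
theorem mem_G0_of_map {g : UU} (hg : ∀ v ∈ cs 5, g.1 v ∈ cs 5) : g ∈ G0 := by
  have h1 : g ∈ 𝒩(G0) := mem_normalizer_fintype fun x hx => by
    refine (closure_le (G0.comap (MulAut.conj g).toMonoidHom)).2 ?_ hx
    rintro _ ⟨v, hv, rfl⟩
    exact mem_comap.2 ((tvV_conj g v).symm.subst (motive := (· ∈ G0)) (tvV_mem_G0 (hg v hv)))
  obtain ⟨x, hx, n, hn, rfl⟩ := frattini_arg_mem Nat.prime_three (sylow_of_card (m := 2 ^ 8 * 5 * 7)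
    Nat.prime_three ((Mon_mono le_top).trans Mon_top_le) card_S0 (by rw [card_G0]; norm_num) (by norm_num)) h1
  obtain ⟨d, π, rfl⟩ := exists_mon_of_norm hn
  refine mul_mem hx (Mon_top_le ⟨d, ?_, π, trivial, rfl⟩)
  have h2 := G0_map_mem (inv_mem hx) (hg 1 ((mem_cs5 (by decide)).2 (by decide)))
  rw [UG.mul_apply, UG.inv_apply_self, UG.mul_apply, mem_cs5 (by rw [wt_dg, wt_pm]; decide), pr_dg,
    pr_pm, show pr 1 = 1 by decide, mul_one] at h2
  exact Units.ext h2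

theorem mem_G0_of_norm {g : UU} (hg : ∀ k ∈ K0, g⁻¹ * k * g ∈ K0) : g ∈ G0 := by
  obtain ⟨m, hm, h1, h2⟩ := exists_cs7 Mon_alt_le seven_K0 (X := g.1 '' cs 5)
    (by rintro _ ⟨v, hv, rfl⟩; exact map_mem_cs31 g (cs_subset (by norm_num) hv))
    (by
      rintro k hk _ ⟨v, hv, rfl⟩
      exact ⟨_, G0_map_mem (K0_le (hg k hk)) hv, by simp only [UG.mul_apply, UG.self_apply_inv]⟩)
  have h3 : nn m = nn 5 := by
    rw [← card_cs hm, ← h2, Set.ncard_image_of_injective _ g.1.injective, card_cs (by norm_num)]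
  have h4 : m.testBit 0 = true := by clear h2; revert m; decide
  have h5 : cs 5 ⊆ cs m := by
    rw [← orbit_K0_5 vec3_mem]
    rintro _ ⟨k, rfl⟩
    obtain ⟨v, hv, e⟩ := h2.ge (show vec 3 ∈ cs m by
      change m.testBit (cl (vec 3)) = true
      rwa [cl_vec (by norm_num), show clN 3 = 0 by decide +kernel])
    exact h2.le ⟨_, G0_map_mem (K0_le (hg k k.2)) hv, by
      simp only [UG.mul_apply, UG.self_apply_inv, e]; rfl⟩
  have h6 := testBit_of_subset h5 2 (by norm_num) (by decide)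
  obtain rfl : m = 5 := by clear h2 h5 h1; revert m; decide
  exact mem_G0_of_map fun v hv => h2.le ⟨v, hv, rfl⟩

/-- the diagonal matrices with one entry different from one -/
def dl (c : F4ˣ) : UU := dg (Pi.mulSingle 0 c)

theorem udet_dl (c : F4ˣ) : udet hh (dl c) = c := by
  rw [dl, udet_dg, Fintype.prod_pi_mulSingle']

theorem exists_dl {m : ℕ} (hm : m = 5 ∨ m = 9 ∨ m = 17) : ∃ c, ∀ v, v ∈ cs m ↔ (dl c).1 v ∈ cs 5 := by
  have key : ∀ c v, (dl c).1 v ∈ cs 5 ↔ Nat.testBit 5 (if wt v = 2 then 0 else if wt v = 4 then 1 else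
      if c * pr v = 1 then 2 else if c * pr v = om4 then 3 else if c * pr v = om4 * om4 then 4 else 5) = true :=
    fun c v => by rw [cs, Set.mem_setOf_eq, cl, dl, wt_dg, pr_dg, Fintype.prod_pi_mulSingle']
  rcases hm with rfl | rfl | rfl
  on_goal 1 => refine ⟨1, ?_⟩
  on_goal 2 => refine ⟨omU⁻¹, ?_⟩
  on_goal 3 => refine ⟨omU, ?_⟩
  all_goals
    intro v
    rw [key, cs, Set.mem_setOf_eq, cl]
    generalize pr v = p
    by_cases h2 : wt v = 2
    · simp only [if_pos h2] <;> decide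
    by_cases h4 : wt v = 4
    · simp only [if_neg h2, if_pos h4] <;> decide
    simp only [if_neg h2, if_neg h4]
    revert p
    decide

theorem exists_sc_of_center {K : Subgroup UU} (hS : Mon C9 ≤ K) (h7 : 7 ∣ Nat.card K) {y : UU}
    (hy : ∀ k ∈ K, k * y = y * k) : ∃ c, y = sc c := by
  obtain ⟨a, b, rfl⟩ := center_S0 fun g hg => hy g (hS hg)
  by_cases hab : a = b
  · exact ⟨a, congrArg dg (funext fun i => by fin_cases i <;> simp [hab])⟩
  have h1 := seven_dvd h7 (X := {v | v ∈ cs 31 ∧ (dg ![a, a, a, b, b, b]).1 v = (a : F4) • v})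
    (fun _ h => h.1) fun g hg v hv => ⟨map_mem_cs31 g hv.1, by
      rw [← UG.mul_apply, ← hy g hg, UG.mul_apply, hv.2, map_smul]⟩
  rw [ncard_eq _ (fun n => band (tb 31 (clN n)) (Nat.beq (Nat.land n 3640) 0)) fun n hn => ?_] at h1
  · exact absurd h1 (by decide +kernel)
  have h2 : ∀ n < 4096, Nat.land n 3640 = 0 ↔ vec n 3 = 0 ∧ vec n 4 = 0 ∧ vec n 5 = 0 := fun n hn => by
    have : allP (fun n => decide (Nat.land n 3640 = 0 ↔ vec n 3 = 0 ∧ vec n 4 = 0 ∧ vec n 5 = 0)) 12 0 =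
      true := by decide +kernel
    exact of_decide_eq_true (allP_zero this n hn)
  rw [Set.mem_setOf_eq, vec_mem_cs hn, band_eq_true, M24.beq_iff, h2 n hn]
  refine and_congr_right' ?_
  have h3 : (b : F4) ≠ a := fun h => hab (Units.ext h.symm)
  simp [funext_iff, dg_apply, Fin.forall_fin_succ, h3]

theorem exists_le_G0 {K B P : Subgroup UU} (hK : K ≤ SUG hh) (hc : Nat.card K = Nat.card K0)
    (hS : Mon C9 ≤ P) (hB : B ≤ Mon C9) (hP : P ≤ K) (cB : Nat.card B = 243) (cP : Nat.card P = 243 * 360)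
    (hn : ∀ p ∈ P, ∀ b ∈ B, p * b * p⁻¹ ∈ B)
    (hab : ∀ a ∈ B, ∀ b ∈ B, ∀ k ∈ K, k * (a * b * a⁻¹ * b⁻¹) = a * b * a⁻¹ * b⁻¹ * k) :
    ∃ c, K :^ dl c ≤ G0 := by
  have h7 := hc ▸ seven_K0
  obtain rfl : B = Mon ⊥ := eq_Mon_bot hB cB (fun a ha => hn a (hS (Mon_mono bot_le ha)))
    fun a ha b hb => exists_sc_of_center (hS.trans hP) h7 (hab a ha b hb)
  obtain rfl : P = Mon (alternatingGroup (Fin 6)) := eq_Mon_alt (hB.trans hS) (fun p hp => by
    obtain ⟨d, π, rfl⟩ := exists_mon (g := p) fun a ha => by simpa using hn _ (inv_mem hp) a ha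
    have := hK (hP hp)
    rw [SUG, MonoidHom.mem_ker, map_mul, udet_dg, udet_pm, mul_one] at this
    exact ⟨d, this, π, trivial, rfl⟩) cP
  obtain ⟨m, hm, h1, h2, h3⟩ := exists_orbit hP h7 (cs_subset (by norm_num) vec3_mem)
  have h4 : m.testBit (cl (vec 3)) = true := h3.le (MulAction.mem_orbit_self _)
  rw [cl_vec (by norm_num), show clN 3 = 0 by decide +kernel] at h4
  rw [hc, card_K0] at h2
  obtain ⟨c, h5⟩ := exists_dl (m := m) (by clear h3; revert m; decide +kernel)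
  refine ⟨c, ?_⟩
  rintro _ ⟨k, hk, rfl⟩
  refine mem_G0_of_map fun v hv => ?_
  rw [← UG.self_apply_inv (dl c) v, ← h5, ← h3] at hv
  obtain ⟨k', e⟩ := hv
  exact (h5 _).1 (h3.le ⟨⟨k, hk⟩ * k', congrArg k.1 e⟩)

theorem card_map_mk {Y : Subgroup UU} (h1 : Mon ⊥ ≤ Y) (h2 : Y ≤ K0) :
    Nat.card ((Y.subgroupOf K0).map (QuotientGroup.mk' (center K0))) * 3 = Nat.card Y := by
  rw [← Nat.card_congr (subgroupOfEquivOfLe h2).toEquiv,
    ← card_map_mul_card_inf_ker (Y.subgroupOf K0) (QuotientGroup.mk' (center K0)), QuotientGroup.ker_mk',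
    inf_eq_left.2, card_center_K0]
  intro g hg
  obtain ⟨c, hc⟩ := mem_center_K0.1 hg
  exact mem_subgroupOf.2 (hc ▸ h1 (sc_mem c _))

theorem card_A6 : Nat.card (alternatingGroup (Fin 6)) = 360 := by
  have := two_mul_nat_card_alternatingGroup (α := Fin 6)
  rw [Nat.card_perm, Nat.card_fin, show Nat.factorial 6 = 720 from rfl] at this
  omega

theorem card_U43 : Nat.card (K0 ⧸ center K0) = 2 ^ 7 * 3 ^ 6 * 5 * 7 := by
  obtain ⟨e'⟩ := nonempty_K0_equiv card_F9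
  rw [Nat.card_congr e'.toEquiv, card_PSU43 card_F9]

theorem commutator_U43 : commutator (K0 ⧸ center K0) = ⊤ := by
  have hs := simple_K0
  refine (IsSimpleGroup.eq_bot_or_eq_top_of_normal _ inferInstance).resolve_left fun h => ?_
  have h4 := (commutator_eq_bot_iff_center_eq_top _).1 h
  haveI : IsMulCommutative (K0 ⧸ center K0) := ⟨⟨fun a b => mem_center_iff.1 (h4.ge (mem_top b)) a⟩⟩
  have h5 := (Group.is_simple_iff_prime_card (α := K0 ⧸ center K0)).1 hs
  rw [card_U43] at h5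
  exact absurd h5 (by norm_num)

theorem classify {K : Subgroup UU} (hK : K ≤ SUG hh) (hZ : Nat.card (center K) = 3)
    (e : K ⧸ center K ≃* K0 ⧸ center K0) : ∃ g ∈ SUG hh, ∃ c, K :^ (dl c * g) = K0 := by
  let f : K →* K0 ⧸ center K0 := e.toMonoidHom.comp (QuotientGroup.mk' _)
  have hf : Function.Surjective f := e.surjective.comp (QuotientGroup.mk'_surjective _)
  have hk : f.ker = center K := Subgroup.ext fun x =>
    (MulEquiv.map_eq_one_iff e).trans (QuotientGroup.eq_one_iff x)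
  let pl : Subgroup UU → Subgroup UU := fun Y =>
    (((Y.subgroupOf K0).map (QuotientGroup.mk' (center K0))).comap f).map K.subtype
  have pm : ∀ {Y Y'}, Y ≤ Y' → pl Y ≤ pl Y' := fun h => map_mono (comap_mono (map_mono (comap_mono h)))
  have pc : ∀ {C}, C ≤ alternatingGroup (Fin 6) → Nat.card (pl (Mon C)) = 243 * Nat.card C := fun h => by
    rw [card_map_of_injective K.subtype_injective, card_comap_surj hf, hk, hZ, mul_comm,
      card_map_mk (Mon_mono bot_le) ((Mon_mono h).trans Mon_alt_le), card_Mon]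
  have hc : Nat.card K = Nat.card K0 := by
    rw [card_eq_card_quotient_mul_card_subgroup (center K), Nat.card_congr e.toEquiv, hZ,
      card_eq_card_quotient_mul_card_subgroup (center K0), card_center_K0]
  obtain ⟨g, hg, h1⟩ := sylow_trans Nat.prime_three
    (sylow_of_card (P := pl (Mon C9)) (n := 7) (m := 2 ^ 15 * 5 * 7 * 11) Nat.prime_three
      ((map_subtype_le _).trans hK) (by rw [pc C9_le, card_C9]; norm_num) (by rw [card_SUG]; norm_num)
      (by norm_num))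
    (sylow_of_card (m := 2 ^ 15 * 5 * 7 * 11) Nat.prime_three (Mon_le_SUG _) card_S0
      (by rw [card_SUG]; norm_num) (by norm_num))
  obtain ⟨c, h2⟩ := exists_le_G0 (K := K :^ g) (B := pl (Mon ⊥) :^ g)
    (P := pl (Mon (alternatingGroup (Fin 6))) :^ g)
    (by rintro _ ⟨k, hk, rfl⟩; exact SUG_normal.conj_mem _ (hK hk) g) (by rw [card_conjg, hc])
    (h1 ▸ conjg_mono g (pm (Mon_mono C9_le))) (h1 ▸ conjg_mono g (pm (Mon_mono bot_le)))
    (conjg_mono g (map_subtype_le _)) (by rw [card_conjg, pc bot_le, card_bot])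
    (by rw [card_conjg, pc le_rfl, card_A6]) (by
      rintro _ ⟨_, ⟨p, ⟨p', hp, ep⟩, rfl⟩, rfl⟩ _ ⟨_, ⟨b, ⟨b', hb, eb⟩, rfl⟩, rfl⟩
      refine ⟨_, ⟨p * b * p⁻¹, ⟨p' * b' * p'⁻¹, conj_mem_Mon_bot (Mon_mono le_top hp) hb, ?_⟩, rfl⟩, ?_⟩
      · simp only [map_mul, map_inv, ep, eb]
      · simp only [map_mul, map_inv]) (by
      rintro _ ⟨_, ⟨a, ⟨a', ha, ea⟩, rfl⟩, rfl⟩ _ ⟨_, ⟨b, ⟨b', hb, eb⟩, rfl⟩, rfl⟩ _ ⟨k, hk', rfl⟩
      have h3 : a * b * a⁻¹ * b⁻¹ ∈ f.ker := by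
        rw [MonoidHom.mem_ker]
        simp only [map_mul, map_inv, ← ea, ← eb]
        rw [← map_mul, show a' * b' = b' * a' from Subtype.ext (Mon_bot_comm ha hb), map_mul]
        group
      have := congrArg (fun x : K => (MulAut.conj g).toMonoidHom (K.subtype x))
        (mem_center_iff.1 (hk.le h3) ⟨k, hk'⟩)
      simp only [map_mul, map_inv] at this
      exact this)
  rw [← conjg_mul] at h2
  refine ⟨g, hg, c, eq_of_le_of_card_ge ?_ (by rw [card_conjg, hc])⟩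
  rintro _ ⟨k, hk', rfl⟩
  have h3 := commutator_U43
  obtain ⟨x, hx, ex⟩ : f ⟨k, hk'⟩ ∈ (commutator K).map f := by
    rw [map_commutator_eq, MonoidHom.range_eq_top.2 hf]
    exact h3.ge trivial
  have h4 : x⁻¹ * ⟨k, hk'⟩ ∈ center K := hk.le (by rw [MonoidHom.mem_ker, map_mul, map_inv, ex, inv_mul_cancel])
  have h5 : (x⁻¹ * ⟨k, hk'⟩) ^ 3 = 1 := by
    have := congrArg Subtype.val (pow_card_eq_one' (x := (⟨_, h4⟩ : center K)))
    rwa [hZ] at this
  let φ : K →* UU := (MulAut.conj (dl c * g)).toMonoidHom.comp K.subtype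
  have h6 : φ.range ≤ G0 := by rintro _ ⟨y, rfl⟩; exact h2 ⟨_, y.2, rfl⟩
  have h7 : φ x ∈ K0 := commutator_mono h6 h6 ((map_commutator_eq K φ).le (mem_map_of_mem φ hx))
  have h8 := mem_K0_of_cube (h6 ⟨x⁻¹ * ⟨k, hk'⟩, rfl⟩) (by rw [← map_pow, h5, map_one])
  have := mul_mem h7 h8
  rwa [← map_mul, mul_inv_cancel_left] at this

theorem eq_of_conj_dl {g : UU} (hg : g ∈ SUG hh) {a b : F4ˣ} (h : (K0 :^ dl a) :^ g = K0 :^ dl b) : a = b := by
  have h1 : K0 :^ ((dl b)⁻¹ * (g * dl a)) = K0 := by rw [conjg_mul, conjg_mul, h, conjg_inv_cancel]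
  have h2 := G0_le (mem_G0_of_norm fun k hk => mem_conjg.1 (h1.ge hk))
  rwa [SUG, MonoidHom.mem_ker, map_mul, map_mul, map_inv, udet_dl, udet_dl, show udet hh g = 1 from hg,
    one_mul, inv_mul_eq_one, eq_comm] at h2

theorem three_classes {S : Type*} [Group S] (j : S ≃* SUG hh) {Y : Type*} [Group Y] (e : K0 ⧸ center K0 ≃* Y) :
    ∃ K : F4ˣ → Subgroup S, (∀ c, Nat.card (center (K c)) = 3 ∧ Nonempty (K c ⧸ center (K c) ≃* Y)) ∧
      (∀ a b g, K a :^ g = K b → a = b) ∧ ∀ L : Subgroup S, Nat.card (center L) = 3 →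
        Nonempty (L ⧸ center L ≃* Y) → ∃ g c, L :^ g = K c := by
  let i : S →* UU := (SUG hh).subtype.comp j.toMonoidHom
  have hi : Function.Injective i := Subtype.val_injective.comp j.injective
  have hr : ∀ g ∈ SUG hh, ∃ x, i x = g := fun g hg => ⟨j.symm ⟨g, hg⟩, by simp [i]⟩
  have h1 : ∀ c, ((K0 :^ dl c).comap i).map i = K0 :^ dl c := fun c => map_comap_eq_self (by
    rintro _ ⟨k, hk, rfl⟩
    exact hr _ (SUG_normal.conj_mem _ (G0_le (K0_le hk)) _))
  have h2 : ∀ (L : Subgroup S) g, (L :^ g).map i = L.map i :^ i g := fun L g => by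
    rw [conjg_def, conjg_def, map_map, map_map]
    congr 1
    ext1 x
    simp
  refine ⟨fun c => (K0 :^ dl c).comap i, fun c => ?_, fun a b g h => ?_, fun L hL ⟨f⟩ => ?_⟩
  · let φ : (K0 :^ dl c).comap i ≃* K0 := ((equivMapOfInjective _ i hi).trans
      (MulEquiv.subgroupCongr (h1 c))).trans (equivMapOfInjective _ _ (conj_inj (dl c))).symm
    refine ⟨?_, ⟨(Lin.quotCenterCongr φ).trans e⟩⟩
    rw [← card_center_K0, ← Lin.map_center_equiv φ, card_map_of_injective φ.injective]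
  · have := congrArg (map i) h
    rw [h2, h1, h1] at this
    exact eq_of_conj_dl (j g).2 this
  · let φ := equivMapOfInjective L i hi
    obtain ⟨g, hg, c, h⟩ := classify (K := L.map i) (by rintro _ ⟨x, -, rfl⟩; exact (j x).2)
      (by rw [← Lin.map_center_equiv φ, card_map_of_injective φ.injective, hL])
      ((Lin.quotCenterCongr φ.symm).trans (f.trans e.symm))
    obtain ⟨x, rfl⟩ := hr g hg
    refine ⟨x, c⁻¹, map_injective hi ?_⟩
    rw [h2, h1, ← h, conjg_mul, ← conjg_mul _ (dl c), dl, dl, ← map_mul, ← Pi.mulSingle_mul,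
      inv_mul_cancel, Pi.mulSingle_one, map_one, conjg_one]

theorem realizeEqns_U6Class : True := by
  have := @CA.U6.dl.eq_1
  have := @CA.U6.dl.eq_def
  have := @CA.U6.dl.congr_simp
  trivial

end CA.U6
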