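import Cfsg.Agent.U6.Class

/-! Recognition of the triple cover of the unitary group of degree four over nine elements inside the
orthogonal group of degree twelve over two elements. -/

set_option autoImplicit false

namespace CA.U6

open Cfsg Cfsg.Agent Cfsg.Agent.Unit CA.M24 Subgroup Equiv CA.FG QuadraticMap

theorem exists_orthonormal {K W : Type*} [Field K] [StarRing K] [AddCommGroup W] [Module K W]
    [FiniteDimensional K W] {q : ℕ} (hq : FQ K q) {h : Herm K W} (hn : Nondeg h) :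
    ∀ k ≤ Module.finrank K W, ∃ e : Fin k → W, ∀ i j, h (e i) (e j) = if i = j then 1 else 0 := by
  intro k
  induction k with
  | zero => exact fun _ => ⟨Fin.elim0, fun i => i.elim0⟩
  | succ k ih =>
    intro hk
    obtain ⟨e, he⟩ := ih (by omega)
    let φ : W →ₗ[K] Fin k → K := LinearMap.pi fun i => h.B.flip (e i)
    have hφ : ∀ x, φ x = 0 ↔ ∀ i, h x (e i) = 0 := fun x => funext_iff
    obtain ⟨w, hw, w0⟩ : ∃ w, φ w = 0 ∧ h w w ≠ 0 := by
      by_contra! H
      refine absurd (LinearMap.finrank_le_finrank_of_injective (f := φ)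
        ((injective_iff_map_eq_zero φ).2 fun x hx => hn x fun y => ?_)) (by simp; omega)
      have hy : φ (y - ∑ i, h y (e i) • e i) = 0 := (hφ _).2 fun j => by
        rw [Herm.sub_left, Herm.val_eq h (∑ i, _), map_sum, LinearMap.sum_apply]
        simp [← Herm.val_eq, he]
      have h1 := polarize hq.exists_star_ne (s := fun x y => h x y) (x := x) (y := y - ∑ i, h y (e i) • e i)
        fun c => by
          have := H (c • x + (y - ∑ i, h y (e i) • e i)) (by rw [map_add, map_smul, hx, hy]; simp)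
          rw [Herm.add_left, Herm.add_right, Herm.add_right, H _ hy, Herm.smul_left, Herm.smul_right, H _ hx,
            Herm.smul_left, Herm.smul_right] at this
          linear_combination this
      rw [Herm.sub_right, Herm.val_eq h x (∑ i, _), map_sum] at h1
      simpa [← Herm.val_eq, (hφ x).1 hx] using h1
    obtain ⟨c, hc⟩ := hq.exists_norm_eq (c := (h w w)⁻¹) (by rw [star_inv₀, Herm.star_apply])
    refine ⟨Fin.cons (c • w) e, fun i j => ?_⟩
    have h2 := (hφ w).1 hw
    refine Fin.cases ?_ (fun i => ?_) i <;> refine Fin.cases ?_ (fun j => ?_) j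
    · simp only [Fin.cons_zero, Herm.smul_left, Herm.smul_right, if_true]
      rw [← mul_assoc, mul_comm (star c), hc, inv_mul_cancel₀ w0]
    · simp [h2, (Fin.succ_ne_zero j).symm]
    · simp [Herm.eq_zero_comm (h2 i)]
    · simp [he]

theorem exists_equiv_std {K W : Type*} [Field K] [StarRing K] [AddCommGroup W] [Module K W]
    [FiniteDimensional K W] {q : ℕ} (hq : FQ K q) {h : Herm K W} (hn : Nondeg h) {n : ℕ}
    (hd : Module.finrank K W = n) :
    ∃ φ : (Fin n → K) ≃ₗ[K] W, ∀ x y, h (φ x) (φ y) = std K n x y := by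
  obtain ⟨e, he⟩ := exists_orthonormal hq hn n hd.ge
  let ψ : (Fin n → K) →ₗ[K] W := Fintype.linearCombination K e
  have hψ : ∀ x y, h (ψ x) (ψ y) = std K n x y := fun x y => by
    simp [ψ, Fintype.linearCombination_apply, Herm.val_eq, std_apply]
    simp [← Herm.val_eq, he, mul_comm]
    rfl
  have hi : Function.Injective ψ := (injective_iff_map_eq_zero ψ).2 fun x hx =>
    nondeg_std n x fun y => by rw [← hψ, hx, Herm.zero_left]
  exact ⟨LinearEquiv.ofBijective ψ ⟨hi, (LinearMap.injective_iff_surjective_of_finrank_eq_finrank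
    (by simp [hd])).1 hi⟩, hψ⟩

theorem finrank_V : Module.finrank (ZMod 2) V = 12 := by
  have := Module.card_eq_pow_finrank (K := ZMod 2) (V := V)
  rw [← Nat.card_eq_fintype_card, card_V, ZMod.card] at this
  exact (Nat.pow_right_injective le_rfl (this.symm.trans (by norm_num)))

theorem card_L2 : Nat.card L2 = ∏ i : Fin 12, (2 ^ 12 - 2 ^ (i : ℕ)) := by
  obtain ⟨e⟩ : Nonempty (V ≃ₗ[ZMod 2] Fin 12 → ZMod 2) :=
    FiniteDimensional.nonempty_linearEquiv_of_finrank_eq (by simp [finrank_V])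
  have := Matrix.card_GL_field (𝔽 := ZMod 2) 12
  rw [ZMod.card] at this
  rw [← this, Nat.card_congr ((Matrix.GeneralLinearGroup.toLin (n := Fin 12) (R := ZMod 2)).trans
    (LinearMap.GeneralLinearGroup.generalLinearEquiv _ _)).toEquiv]
  exact Nat.card_congr ⟨fun g => e.symm.trans (g.trans e), fun g => e.trans (g.trans e.symm),
    fun g => LinearEquiv.ext fun v => by simp, fun g => LinearEquiv.ext fun v => by simp⟩

/-- an additive involution as a linear automorphism -/
def mkL2 (f : V → V) (h1 : ∀ x y, f (x + y) = f x + f y) (h2 : ∀ x, f (f x) = x) : L2 :=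
  LinearEquiv.ofInvolutive ((AddMonoidHom.mk' f h1).toZModLinearMap 2) h2

/-- conjugation of some coordinates -/
def kap (p : Fin 6 → Bool) : L2 := mkL2 (fun v i => if p i then star (v i) else v i)
  (fun x y => funext fun i => by by_cases h : p i <;> simp [h])
  (fun x => funext fun i => by by_cases h : p i <;> simp [h])

theorem kap_apply (p : Fin 6 → Bool) (v : V) (i : Fin 6) : kap p v i = if p i then star (v i) else v i := rfl

theorem hh_self (v : V) : hh v v = 0 ∨ hh v v = 1 :=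
  (by decide : ∀ c : F4, star c = c → c = 0 ∨ c = 1) _ (hh.star_apply v v)

theorem exists_io {g : L2} (h1 : ∀ v, g (om4 • v) = om4 • g v) (h2 : ∀ v, hh (g v) (g v) = 0 ↔ hh v v = 0) :
    ∃ k : UU, io k = g := by
  have h3 : ∀ (c : F4) v, g (c • v) = c • g v := fun c v => by
    rcases F4_cases c with rfl | rfl | rfl | rfl
    · simp
    · simp
    · exact h1 v
    · rw [mul_smul, mul_smul, h1, h1]
  have h4 : ∀ v, hh (g v) (g v) = hh v v := fun v => by
    rcases hh_self v with e | e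
    · rw [e, (h2 v).2 e]
    · rw [e, (hh_self _).resolve_left fun H => by rw [(h2 v).1 H] at e; exact zero_ne_one e]
  refine ⟨⟨{ g.toAddEquiv with map_smul' := h3 }, fun x y => sub_eq_zero.1 ?_⟩, rfl⟩
  refine polarize fq4.exists_star_ne (s := fun x y => hh (g x) (g y) - hh x y) fun c => ?_
  have := h4 (c • x + y)
  rw [map_add, h3] at this
  simp only [Herm.add_left, Herm.add_right, Herm.smul_left, Herm.smul_right, h4] at this
  linear_combination this

/-- the full monomial group over a permutation group -/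
def MonG (C : Subgroup (Perm (Fin 6))) : Subgroup UU where
  carrier := {g | ∃ d, ∃ π ∈ C, g = dg d * pm π}
  one_mem' := ⟨1, 1, one_mem _, by simp⟩
  mul_mem' := by
    rintro _ _ ⟨d, π, hπ, rfl⟩ ⟨e, τ, hτ, rfl⟩
    refine ⟨d * e ∘ ⇑π⁻¹, π * τ, mul_mem hπ hτ, ?_⟩
    rw [map_mul, map_mul, mul_assoc, ← mul_assoc (pm π), pm_dg]; simp only [mul_assoc]
  inv_mem' := by
    rintro _ ⟨d, π, hπ, rfl⟩
    refine ⟨d⁻¹ ∘ ⇑π⁻¹⁻¹, π⁻¹, inv_mem hπ, ?_⟩
    rw [mul_inv_rev, ← map_inv, ← map_inv, pm_dg]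

theorem card_MonG : Nat.card (MonG C9) = 3 ^ 8 := by
  have : Nat.card ((Fin 6 → F4ˣ) × C9) = 3 ^ 8 := by
    rw [Nat.card_prod, card_C9, Nat.card_fun, card_units]; simp
  rw [← this]
  refine (Nat.card_eq_of_bijective (fun p : (Fin 6 → F4ˣ) × C9 =>
    (⟨dg p.1 * pm p.2.1, p.1, p.2.1, p.2.2, rfl⟩ : MonG C9)) ⟨?_, ?_⟩).symm
  · intro p q h
    have := mon_inj (congrArg Subtype.val h)
    exact Prod.ext this.1 (Subtype.ext this.2)
  · rintro ⟨_, d, π, hπ, rfl⟩
    exact ⟨(d, ⟨π, hπ⟩), rfl⟩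

theorem comm_dg (d e : Fin 6 → F4ˣ) (π : Perm (Fin 6)) :
    dg d * pm π * dg e * (dg d * pm π)⁻¹ * (dg e)⁻¹ = dg (e ∘ ⇑π⁻¹ * e⁻¹) := by
  rw [mul_assoc (dg d), pm_dg, map_mul, map_inv, mul_inv_rev, ← mul_assoc, ← mul_assoc, ← map_mul,
    mul_comm d, map_mul]
  group

theorem center2_S0 {y : UU} (hy : y ∈ Mon C9) (h : ∀ g ∈ Mon C9, ∃ c, y * g * y⁻¹ * g⁻¹ = sc c) :
    ∃ a b : F4ˣ, y = dg ![a, a, a, b, b, b] := by
  obtain ⟨d, -, π, ⟨a, b, hπ⟩, rfl⟩ := hy
  obtain ⟨c, h1⟩ := h _ (dg_mem (d := ![omU, omU⁻¹, 1, 1, 1, 1]) (by decide))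
  obtain ⟨c', h2⟩ := h _ (dg_mem (d := ![1, 1, 1, omU, omU⁻¹, 1]) (by decide))
  rw [comm_dg] at h1 h2
  replace h1 := dg_injective h1
  replace h2 := dg_injective h2
  have h4 : π = 1 := by
    have h5 := (congrFun h1 0).trans (congrFun h1 3).symm
    have h6 := (congrFun h2 0).trans (congrFun h2 3).symm
    subst hπ
    revert h5 h6
    clear h1 h2 h
    revert a b
    decide +kernel
  rw [h4, map_one, mul_one] at h ⊢
  have h7 : ∀ π ∈ C9, ∃ c, ∀ i, d i * (d (π⁻¹ i))⁻¹ = c := fun π hπ => by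
    obtain ⟨c, e⟩ := h _ (pm_mem hπ)
    rw [← map_inv, mul_assoc (dg d), pm_dg, ← mul_assoc, mul_inv_cancel_right, ← map_mul] at e
    exact ⟨c, congrFun (dg_injective e)⟩
  obtain ⟨e1, h8⟩ := h7 _ c1_mem
  obtain ⟨e2, h9⟩ := h7 _ c2_mem
  obtain rfl : 1 = e1 := (mul_inv_cancel _).symm.trans (h8 3)
  obtain rfl : 1 = e2 := (mul_inv_cancel _).symm.trans (h9 0)
  simp only [mul_inv_eq_one] at h8 h9
  refine ⟨d 0, d 3, congrArg dg (funext fun i => ?_)⟩
  fin_cases i
  exacts [rfl, h8 1, (h8 0).symm, rfl, h9 4, (h9 3).symm]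

abbrev U43 : Type := K0 ⧸ center K0

theorem center2_U43 {y y' : U43} (hy : y ∈ ((Mon C9).subgroupOf K0).map (QuotientGroup.mk' _))
    (hy' : y' ∈ ((Mon C9).subgroupOf K0).map (QuotientGroup.mk' _))
    (h : ∀ g ∈ ((Mon C9).subgroupOf K0).map (QuotientGroup.mk' _), g * y = y * g ∧ g * y' = y' * g) :
    y = 1 ∨ y' = 1 ∨ y * y'⁻¹ = 1 ∨ y * y' = 1 := by
  have key : ∀ y : K0, y.1 ∈ Mon C9 → (∀ g ∈ ((Mon C9).subgroupOf K0).map (QuotientGroup.mk' (center K0)),
      g * QuotientGroup.mk' _ y = QuotientGroup.mk' _ y * g) → ∃ a b : F4ˣ, y.1 = dg ![a, a, a, b, b, b] :=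
    fun y hy h => center2_S0 hy fun g hg => mem_center_K0.1 ((QuotientGroup.eq_one_iff
      (y * ⟨g, Mon_alt_le (Mon_mono C9_le hg)⟩ * y⁻¹ * (⟨g, Mon_alt_le (Mon_mono C9_le hg)⟩ : K0)⁻¹)).1
        (mul_inv_eq_one.2 (mul_inv_eq_iff_eq_mul.2 (h _ ⟨_, hg, rfl⟩).symm)))
  obtain ⟨y, hy, rfl⟩ := hy
  obtain ⟨y', hy', rfl⟩ := hy'
  obtain ⟨a, b, e⟩ := key y hy fun g hg => (h g hg).1
  obtain ⟨a', b', e'⟩ := key y' hy' fun g hg => (h g hg).2
  have h1 : ∀ (y : K0) (a b : F4ˣ), y.1 = dg ![a, a, a, b, b, b] → a = b → QuotientGroup.mk' (center K0) y = 1 := by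
    rintro y a _ e rfl
    exact (QuotientGroup.eq_one_iff _).2 (mem_center_K0.2 ⟨a, e.trans (congrArg dg (funext fun i => by
      fin_cases i <;> rfl))⟩)
  have : ∀ a b a' b' : F4ˣ, a = b ∨ a' = b' ∨ a * a'⁻¹ = b * b'⁻¹ ∨ a * a' = b * b' := by decide
  refine (this a b a' b').imp (h1 _ _ _ e) (Or.imp (h1 _ _ _ e') (Or.imp (h1 (y * y'⁻¹) _ _ ?_)
    (h1 (y * y') _ _ ?_))) <;> simp only [coe_mul, coe_inv, e, e', ← map_inv, ← map_mul] <;>
    refine congrArg dg (funext fun i => ?_) <;> fin_cases i <;> rfl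

theorem mem_zpowers_three {G : Type*} [Group G] {a b : G} (h : a ^ 3 = 1) (hb : b ∈ zpowers a) :
    b = 1 ∨ b = a ∨ b = a * a := by
  obtain ⟨n, rfl⟩ := hb
  have h1 : n % 3 = 0 ∨ n % 3 = 1 ∨ n % 3 = 2 := by omega
  show a ^ n = 1 ∨ a ^ n = a ∨ a ^ n = a * a
  rw [zpow_eq_zpow_emod n (n := 3) (by exact_mod_cast h)]
  rcases h1 with e | e | e <;> rw [e]
  exacts [.inl (zpow_zero a), .inr (.inl (zpow_one a)), .inr (.inr (zpow_two a))]

/-- the hypotheses of the recognition theorem -/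
structure Pre {Γ : Type*} [Group Γ] (q : QuadraticForm (ZMod 2) V) (r : Γ →* L2) (f : Γ →* U43) (x : Γ) :
    Prop where
  nd : Orth.Nondeg q
  inv : ∀ g v, q (r g v) = q v
  inj : Function.Injective r
  surj : Function.Surjective f
  ker : f.ker = zpowers x
  ord : orderOf x = 3
  comm : ∀ g, g * x = x * g

/-- the conclusion of the recognition theorem -/
def Goal {Γ : Type*} [Group Γ] (q : QuadraticForm (ZMod 2) V) (r : Γ →* L2) : Prop :=
  ∃ φ : L2, (∀ v, q v = 0 ↔ hh (φ v) (φ v) = 0) ∧ r.range :^ φ = K0.map io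

variable {Γ : Type*} [Group Γ] {q : QuadraticForm (ZMod 2) V} {r : Γ →* L2} {f : Γ →* U43} {x : Γ}

theorem Pre.conj (h : Pre q r f x) (φ : L2) :
    Pre (q.comp φ.symm.toLinearMap) ((MulAut.conj φ).toMonoidHom.comp r) f x := by
  refine ⟨fun v hv => φ.symm.map_eq_zero_iff.1 (h.nd _ fun w => ?_), fun g v => ?_,
    (MulAut.conj φ).injective.comp h.inj, h.surj, h.ker, h.ord, h.comm⟩
  · have := hv (φ w)
    simpa [polar] using this
  · exact (congrArg q (φ.symm_apply_apply _)).trans (h.inv g _)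

theorem Goal.of_conj (φ : L2) (h : Goal (q.comp φ.symm.toLinearMap) ((MulAut.conj φ).toMonoidHom.comp r)) :
    Goal q r := by
  obtain ⟨ψ, h1, h2⟩ := h
  refine ⟨ψ * φ, fun v => Iff.trans ?_ (h1 (φ v)), ?_⟩
  · simp
  · rw [conjg_mul, ← h2, MonoidHom.range_comp]; rfl

theorem Pre.goal3 (h : Pre q r f x) (h1 : ∀ v, r x v = om4 • v) (h2 : ∀ v, q v = 0 ↔ hh v v = 0) :
    Goal q r := by
  have h3 : ∀ g, ∃ k : UU, io k = r g := fun g => exists_io
    (fun v => by rw [← h1, ← h1, ← LinearEquiv.mul_apply, ← map_mul, h.comm, map_mul]; rfl)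
    fun v => by rw [← h2, ← h2, h.inv]
  choose s hs using h3
  let t : Γ →* UU := MonoidHom.mk' s fun a b => io_injective (by rw [map_mul, hs, hs, hs, map_mul])
  have ht : ∀ g, io (t g) = r g := hs
  have hi : Function.Injective t := fun a b e => h.inj (by rw [← ht, e, ht])
  have hx : t x = sc omU := io_injective (LinearEquiv.ext fun v => by rw [ht, h1]; rfl)
  have hZ : center Γ = f.ker := by
    refine le_antisymm (fun g hg => ?_) (h.ker.le.trans (zpowers_le.2 (mem_center_iff.2 h.comm)))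
    have hs := simple_K0
    rcases IsSimpleGroup.eq_bot_or_eq_top_of_normal (center U43) inferInstance with e | e
    · refine mem_bot.1 (e.le (mem_center_iff.2 fun y => ?_))
      obtain ⟨y, rfl⟩ := h.surj y
      rw [← map_mul, mem_center_iff.1 hg, map_mul]
    · have := card_U43
      rw [← card_top, ← commutator_U43, (commutator_eq_bot_iff_center_eq_top _).2 e, card_bot] at this
      norm_num at this
  let e : Γ ≃* t.range := MonoidHom.ofInjective hi
  obtain ⟨g, -, c, h4⟩ := classify (K := t.range) (by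
      rintro _ ⟨g, rfl⟩
      obtain ⟨y, hy, ey⟩ : f g ∈ (commutator Γ).map f := by
        rw [map_commutator_eq, MonoidHom.range_eq_top.2 h.surj]
        exact commutator_U43.ge trivial
      have hn : y⁻¹ * g ∈ zpowers x :=
        h.ker.le (by rw [MonoidHom.mem_ker, map_mul, map_inv, ey, inv_mul_cancel])
      have h5 := mul_mem (Abelianization.commutator_subset_ker ((udet hh).comp t) hy)
        (zpowers_le.2 (show x ∈ ((udet hh).comp t).ker from by
          rw [MonoidHom.mem_ker, MonoidHom.comp_apply, hx]; exact Mon_le_SUG ⊥ (sc_mem _ _)) hn)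
      rwa [mul_inv_cancel_left] at h5)
    (by rw [← Nat.card_congr (Subgroup.centerCongr e).toEquiv, hZ, h.ker, Nat.card_zpowers, h.ord])
    ((Lin.quotCenterCongr e).symm.trans ((QuotientGroup.quotientMulEquivOfEq hZ).trans
      (QuotientGroup.quotientKerEquivOfSurjective f h.surj)))
  refine ⟨io (dl c * g), fun v => by rw [h2, io_apply, UG.map_h], ?_⟩
  rw [← h4, map_conjg, MonoidHom.map_range, show io.comp t = r from MonoidHom.ext ht]

theorem om_add (v : V) : om4 • om4 • v = om4 • v + v := by rw [← mul_smul, om4_sq, add_smul, one_smul]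

theorem Pre.goal2 (h : Pre q r f x) (h1 : ∀ v, r x v = om4 • v) : Goal q r := by
  have h2 : ∀ v, q (om4 • v) = q v := fun v => by rw [← h1, h.inv]
  have h3 : ∀ u v, polar q (om4 • u) (om4 • v) = polar q u v := fun u v => by
    simp only [polar, ← smul_add, h2]
  have h4 : ∀ u v, polar q u (om4 • v) = polar q u v + polar q (om4 • u) v := fun u v => by
    rw [← h3 u (om4 • v), om_add, polar_add_right, h3]
  have t2 : ∀ a : ZMod 2, a + a = 0 := by decide
  let H : Herm F4 V := Herm.mk' (fun u v => ⟨polar q u v + polar q (om4 • u) v, polar q u v⟩)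
    (fun u v w => QuadraticAlgebra.ext (by simp [smul_add, polar_add_left]; ring) (by simp [polar_add_left]))
    (fun c u v => by
      have h5 : ∀ u, (⟨polar q (om4 • u) v + polar q (om4 • om4 • u) v, polar q (om4 • u) v⟩ : F4) =
          om4 * ⟨polar q u v + polar q (om4 • u) v, polar q u v⟩ := fun u => by
        rw [om_add, polar_add_left]
        generalize polar q u v = a
        generalize polar q (om4 • u) v = b
        revert a b
        decide
      rcases F4_cases c with rfl | rfl | rfl | rfl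
      · simp; rfl
      · simp
      · exact h5 u
      · rw [mul_smul, h5, h5, mul_assoc])
    (fun u v => by
      rw [polar_comm q (om4 • v), h4, polar_comm q v]
      generalize polar q u v = a
      generalize polar q (om4 • u) v = b
      revert a b
      decide)
  have hH : ∀ u v, H u v = ⟨polar q u v + polar q (om4 • u) v, polar q u v⟩ := fun _ _ => rfl
  obtain ⟨φ, hφ⟩ := exists_equiv_std fq4 (h := H) (fun u hu => h.nd u fun v => congrArg (·.im) (hu v))
    (n := 6) (by simp)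
  let ψ : L2 := φ.symm.restrictScalars (ZMod 2)
  refine Goal.of_conj ψ ((h.conj ψ).goal3 (fun v => ?_) fun v => ?_)
  · show φ.symm (r x (φ v)) = _
    rw [h1, map_smul, φ.symm_apply_apply]
  · show q (φ v) = 0 ↔ _
    have h5 := h2 (om4 • φ v)
    rw [om_add, h2, QuadraticMap.map_add q, h2] at h5
    rw [← hφ, hH, polar_self, two_smul, t2]
    revert h5
    generalize q (φ v) = a
    generalize polar q (om4 • φ v) (φ v) = b
    revert a b
    decide

theorem Pre.goal1 (h : Pre q r f x) {d : Fin 6 → F4ˣ} (h1 : r x = io (dg d)) (hd : ∀ i, d i ≠ 1) : Goal q r := by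
  let ψ := kap fun i => d i ≠ omU
  refine Goal.of_conj ψ ((h.conj ψ).goal2 fun v => funext fun i => ?_)
  show ψ (r x (ψ v)) i = om4 * v i
  rw [h1, kap_apply, io_apply, dg_apply, kap_apply]
  have := hd i
  revert this
  generalize d i = a
  generalize v i = b
  revert a b
  decide

theorem Pre.goal [Finite Γ] (h : Pre q r f x) : Goal q r := by
  let P := (((Mon C9).subgroupOf K0).map (QuotientGroup.mk' _)).comap f
  have cP : Nat.card P = 3 ^ 7 := by
    rw [card_comap_surj h.surj, h.ker, Nat.card_zpowers, h.ord, mul_comm,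
      card_map_mk (Mon_mono bot_le) ((Mon_mono C9_le).trans Mon_alt_le), card_S0]
  obtain ⟨φ, -, h1⟩ := sylow_Jsub (Q := P.map r) Nat.prime_three (sylow_of_card (P := (MonG C9).map io) (n := 8)
    (m := Nat.card L2 / 3 ^ 8) Nat.prime_three le_top (by rw [card_map_of_injective io_injective, card_MonG])
    (by rw [card_top, card_L2]; decide +kernel) (by rw [card_L2]; decide +kernel))
    (pGrp_of_card_eq_pow Nat.prime_three (by rw [card_map_of_injective h.inj, cP])) le_top
  refine Goal.of_conj φ ?_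
  replace h := h.conj φ
  rw [conjg_def, map_map] at h1
  generalize q.comp φ.symm.toLinearMap = q at h
  generalize (MulAut.conj φ).toMonoidHom.comp r = r at h h1
  let S := (P.map r).comap io
  have hS : S ≤ MonG C9 := fun g hg => (mem_map_iff_mem io_injective).1 (h1 hg)
  have cS : Nat.card (S.subgroupOf (MonG C9)) = 3 ^ 7 := by
    rw [Nat.card_congr (subgroupOfEquivOfLe hS).toEquiv, ← card_map_of_injective io_injective,
      map_comap_eq_self (h1.trans (map_le_range _ _)), card_map_of_injective h.inj, cP]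
  have iS : (S.subgroupOf (MonG C9)).index = 3 := by
    have := (S.subgroupOf (MonG C9)).card_mul_index
    rw [cS, card_MonG] at this
    omega
  have nS : (S.subgroupOf (MonG C9)).Normal := normal_of_index_eq_minFac_card (by rw [iS, card_MonG]; norm_num)
  have hc : ∀ e : Fin 6 → F4ˣ, ∀ π ∈ C9, dg (e ∘ ⇑π⁻¹ * e⁻¹) ∈ S := fun e π hπ => by
    haveI := Fact.mk Nat.prime_three
    haveI := isCyclic_of_prime_card (α := MonG C9 ⧸ S.subgroupOf (MonG C9)) iS
    let a : MonG C9 := ⟨_, 1, π, hπ, rfl⟩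
    let b : MonG C9 := ⟨dg e, e, 1, one_mem _, by rw [map_one, mul_one]⟩
    rw [← comm_dg 1]
    refine (QuotientGroup.eq_one_iff (N := S.subgroupOf (MonG C9)) (a * b * a⁻¹ * b⁻¹)).1 ?_
    simp only [QuotientGroup.mk_mul, QuotientGroup.mk_inv]
    rw [IsCyclic.commutative.1.1 (a : MonG C9 ⧸ S.subgroupOf (MonG C9))]
    group
  have o3 : orderOf (r x) = 3 := (orderOf_injective r h.inj x).trans h.ord
  have hX : ∀ d : Fin 6 → F4ˣ, d ≠ 1 → io (dg d) ∈ zpowers (r x) → (∀ e, io (dg e) ∈ zpowers (r x) →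
      e = 1 ∨ e = d ∨ e = d * d) ∧ (r x = io (dg d) ∨ r x = io (dg (d * d))) := fun d hd hm => by
    have h3 : d ^ 3 = 1 := funext fun i => (by decide : ∀ c : F4ˣ, c ^ 3 = 1) _
    have h4 : zpowers (io (dg d)) = zpowers (r x) := eq_of_le_of_card_ge (zpowers_le.2 hm) (by
      haveI := Fact.mk Nat.prime_three
      rw [Nat.card_zpowers, Nat.card_zpowers, o3, orderOf_injective _ io_injective,
        orderOf_injective _ dg_injective, orderOf_eq_prime h3 hd])
    refine ⟨fun e he => mem_zpowers_three h3 ?_, ?_⟩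
    · rwa [← h4, ← MonoidHom.map_zpowers, ← MonoidHom.map_zpowers, mem_map_iff_mem io_injective,
        mem_map_iff_mem dg_injective] at he
    · rw [map_mul, map_mul]
      refine (mem_zpowers_three (by rw [← map_pow, ← map_pow, h3, map_one, map_one])
        (h4.ge (mem_zpowers _))).resolve_left fun e => ?_
      rw [e, orderOf_one] at o3
      omega
  have hk : ∀ p, f p = 1 ↔ r p ∈ zpowers (r x) := fun p => by
    rw [← MonoidHom.map_zpowers, mem_map_iff_mem h.inj, ← h.ker, MonoidHom.mem_ker]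
  have key : ∀ d e : Fin 6 → F4ˣ, dg d ∈ S → dg e ∈ S →
      (∀ π ∈ C9, io (dg (d ∘ ⇑π⁻¹ * d⁻¹)) ∈ zpowers (r x) ∧ io (dg (e ∘ ⇑π⁻¹ * e⁻¹)) ∈ zpowers (r x)) →
      io (dg d) ∈ zpowers (r x) ∨ io (dg e) ∈ zpowers (r x) ∨ io (dg (d * e⁻¹)) ∈ zpowers (r x) ∨
        io (dg (d * e)) ∈ zpowers (r x) := by
    rintro d e ⟨p, hp, ep⟩ ⟨p', hp', ep'⟩ H
    simp only [map_mul, map_inv, ← ep, ← ep']
    simp only [← map_mul, ← map_inv, ← hk]
    simp only [map_mul, map_inv]
    refine center2_U43 hp hp' fun g hg => ?_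
    obtain ⟨s, rfl⟩ := h.surj g
    obtain ⟨_, ⟨d', π, hπ, rfl⟩, es⟩ := h1 ⟨s, hg, rfl⟩
    have H := H π hπ
    simp only [← comm_dg d', map_mul, map_inv, ← ep, ← ep'] at H
    rw [← map_mul, es] at H
    simp only [← map_mul, ← map_inv, ← hk] at H
    simpa only [map_mul, map_inv, mul_inv_eq_iff_eq_mul, one_mul] using H
  have hu : ∀ a b : F4ˣ, ∀ π ∈ C9, io (dg (![a, a, a, b, b, b] ∘ ⇑π⁻¹ * ![a, a, a, b, b, b]⁻¹)) ∈ zpowers (r x) := by
    rintro a b _ ⟨i, j, rfl⟩
    rw [show ![a, a, a, b, b, b] ∘ ⇑(c1 ^ i.1 * c2 ^ j.1)⁻¹ * ![a, a, a, b, b, b]⁻¹ = 1 by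
      revert a b i j; decide +kernel, map_one, map_one]
    exact one_mem _
  have m1 : dg ![omU, omU⁻¹, 1, 1, 1, 1] ∈ S := by
    convert hc ![omU⁻¹, 1, 1, 1, 1, 1] _ c1_mem using 2; decide +kernel
  have m2 : dg ![1, 1, 1, omU, omU⁻¹, 1] ∈ S := by
    convert hc ![1, 1, 1, omU⁻¹, 1, 1] _ c2_mem using 2; decide +kernel
  have m3 : dg ![omU, omU, omU, 1, 1, 1] ∈ S := by
    convert hc ![omU, omU⁻¹, 1, 1, 1, 1] _ (inv_mem c1_mem) using 2; decide +kernel
  have m4 : dg ![1, 1, 1, omU, omU, omU] ∈ S := by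
    convert hc ![1, 1, 1, omU, omU⁻¹, 1] _ (inv_mem c2_mem) using 2; decide +kernel
  have hw : ∀ u w : Fin 6 → F4ˣ, io (dg u) ∈ zpowers (r x) → (∀ i j : Fin 3, ∃ n : Fin 3,
      w ∘ ⇑(c1 ^ i.1 * c2 ^ j.1)⁻¹ * w⁻¹ = u ^ n.1) → ∀ π ∈ C9, io (dg (w ∘ ⇑π⁻¹ * w⁻¹)) ∈ zpowers (r x) := by
    rintro u w hu H _ ⟨i, j, rfl⟩
    obtain ⟨n, e⟩ := H i j
    rw [e, map_pow, map_pow]
    exact pow_mem hu _
  rcases key _ _ m3 m4 fun π hπ => ⟨hu _ _ π hπ, hu _ _ π hπ⟩ with e | e | e | e
  · have := (hX _ (by decide) e).1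
    rcases key _ _ m4 m1 fun π hπ => ⟨hu _ _ π hπ, hw _ _ e (by decide +kernel) π hπ⟩ with e | e | e | e <;>
      exact absurd (this _ e) (by decide)
  · have := (hX _ (by decide) e).1
    rcases key _ _ m3 m2 fun π hπ => ⟨hu _ _ π hπ, hw _ _ e (by decide +kernel) π hπ⟩ with e | e | e | e <;>
      exact absurd (this _ e) (by decide)
  · rcases (hX _ (by decide) e).2 with e | e <;> exact h.goal1 e (by decide)
  · rcases (hX _ (by decide) e).2 with e | e <;> exact h.goal1 e (by decide)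

theorem realizeEqns_U6Coord : True := by
  have := @CA.U6.MonG.eq_1
  have := @CA.U6.MonG.eq_def
  have := @CA.U6.MonG.congr_simp
  have := @CA.U6.U43.eq_1
  have := @CA.U6.U43.eq_def
  have := @CA.U6.U43.congr_simp
  have := @CA.U6.kap.eq_1
  have := @CA.U6.kap.eq_def
  have := @CA.U6.kap.congr_simp
  have := @CA.U6.Goal.eq_1.{0}
  have := @CA.U6.Goal.eq_def.{0}
  have := @CA.U6.Goal.congr_simp.{0}
  have := @CA.U6.mkL2.eq_1
  have := @CA.U6.mkL2.eq_def
  have := @CA.U6.mkL2.congr_simp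
  trivial

end CA.U6
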