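/-
Recognition of the transvections of `U₆(2)` from the neighbourhood of a point.
-/
import Cfsg.Agent.U6.XV
import Cfsg.Agent.U6.Dih
import Cfsg.Agent.Fi.ClsU
import Cfsg.Agent.Cov.T3

set_option autoImplicit false

namespace CA.U6

open Cfsg Subgroup CA.Fi CA.TC CA.Cov

variable {G : Type*} [Group G] {K : Subgroup G} {D : Set G} {z c b : G} {e : ℕ → G}

theorem d4_of_comm (hD : IsThreeTranspositionSet D) {z c q r b : G} (hc : c ∈ D) (hz : z ∈ D) (hq : q ∈ D)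
    (hr : r ∈ D) (hb : b ∈ D) (c1 : Commute z r) (c2 : Commute c r) (c3 : Commute q r) (nq : ¬ Commute b q)
    (nr : ¬ Commute b r) (h : Commute b (z * (c * (q * r)))) : cj b (cj z (cj c (cj b q))) = r := by
  have hr2 := tt_sq hD hr
  have tr : Commute (z * (c * (q * r))) r := c1.mul_left (c2.mul_left (c3.mul_left (Commute.refl r)))
  have e1 : z * (c * q) = z * (c * (q * r)) * r := by rw [mul_assoc, mul_assoc, mul_assoc, hr2, mul_one]
  rw [tt_cj_comm hD hb hq nq]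
  have e2 : cj z (cj c (cj q b)) = cj (z * (c * (q * r))) (cj r b) := by
    rw [show cj z (cj c (cj q b)) = cj (z * (c * q)) b by simp only [cj]; group, e1]; simp only [cj]; group
  rw [e2, ← tt_cj_comm hD hb hr nr, cj_swap h, tt_cj_cj hD hb, cj_of_commute tr]

/-- Passing to a subgroup containing `D`. -/
theorem real_lift {T : Tab} {E : Set G} (h : Real T E e) (sub : ∀ x ∈ E, x ∈ K) :
    ∃ f : ℕ → K, Real T {x : K | (x : G) ∈ E} f ∧ ∀ p < T.n, (f p : G) = e p := by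
  classical
  let f : ℕ → K := fun p => if hp : p < T.n then ⟨e p, sub _ (h.mem p hp)⟩ else 1
  have hf : ∀ p < T.n, (f p : G) = e p := fun p hp => by simp only [f, dif_pos hp]
  refine ⟨f, ⟨⟨h.ok, fun g hg => Subtype.ext ?_, fun g hg p hp => Subtype.ext ?_⟩,
    fun p hp => show (f p : G) ∈ E from hf p hp ▸ h.mem p hp, fun p hp q hq a => h.inj p hp q hq ?_, fun d hd => ?_⟩, hf⟩
  · simpa only [Tab.gen, coe_mul, coe_one, hf _ (h.ok.pt_lt g hg)] using h.sq g hg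
  · simpa only [Tab.gen, coe_mul, coe_inv, hf _ (h.ok.pt_lt g hg), hf p hp, hf _ (h.ok.act_lt g hg p hp)]
      using h.conj g hg p hp
  · rw [← hf p hp, a, hf q hq]
  · obtain ⟨p, hp, a⟩ := h.surj d hd
    exact ⟨p, hp, Subtype.ext ((hf p hp).trans a)⟩

/-- One level up, inside the subgroup `K`. -/
theorem level_sub {lo hi : Tab} (hN : Nest lo hi) (ht : hi.Trans) (hD : IsThreeTranspositionSet D)
    (sub : ∀ x ∈ D, x ∈ K) (hc : ∀ g ∈ K, ∀ x ∈ D, g * x * g⁻¹ ∈ D) (hz : z ∈ D) (hb : b ∈ D) (hzb : ¬ Commute z b)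
    (h : Real lo (nb D z) e) {qs : List (ℕ × List ℕ × ℕ)} (hR : QRel (sUp lo e z b) qs)
    (hq : ∀ s : ℕ → K, (∀ g < hi.ng, s g * s g = 1) → QRel s qs → QReal hi (hi.el s)) {g : ℕ} (hg : g < lo.ng)
    (hgb : hi.act g (lo.n + 1) = lo.n + 1) {k : ℕ} {xs : List ℕ} (hnd : xs.Nodup)
    (hxs : ∀ p ∈ xs, p ≤ lo.n ∧ ∀ q ∈ xs, hi.op p q = q) (hm : 2 ^ k < xs.length) (hk : ¬ 2 ^ (k + 1) ∣ hi.n) :
    ∃ f : ℕ → G, Real hi D f ∧ f 0 = z ∧ ∀ p < lo.n, f (p + 1) = e p := by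
  obtain ⟨f, h1, hf⟩ := real_lift (K := K) h fun x hx => sub x hx.1
  have e1 : {x : K | (x : G) ∈ nb D z} = nb {x : K | (x : G) ∈ D} ⟨z, sub z hz⟩ := Set.ext fun x =>
    and_congr Iff.rfl (and_congr (not_congr (Subtype.ext_iff (a2 := ⟨z, sub z hz⟩)).symm)
      ⟨fun a => Subtype.ext a, fun a => congrArg Subtype.val a⟩)
  have t : IsThreeTranspositionSet {x : K | (x : G) ∈ D} :=
    ⟨fun x hx => (orderOf_coe x).symm.trans (hD.1 _ hx), fun x hx y hy =>
      (hD.2 _ hx _ hy).imp (fun a => Subtype.ext a) fun a => Subtype.ext a⟩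
  have s1 : ∀ g, ((sUp lo f ⟨z, sub z hz⟩ ⟨b, sub b hb⟩ g : K) : G) = sUp lo e z b g := fun g => by
    unfold sUp
    split_ifs with a
    · exact hf _ (h.ok.pt_lt g a)
    all_goals rfl
  rw [e1] at h1
  obtain ⟨f', r, a0, -, a1⟩ := step_main (z := (⟨z, sub z hz⟩ : K)) (b := (⟨b, sub b hb⟩ : K)) hN ht t
    (fun g x hx => hc g g.2 x hx) hz hb (fun a => hzb (by exact congrArg Subtype.val a)) h1 (hq _ (fun g _ => tt_sq t
      (sUp_mem (D := {x : K | (x : G) ∈ D}) (z := ⟨z, sub z hz⟩) (b := ⟨b, sub b hb⟩) hz hb h1 g)) fun q hq' =>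
      Subtype.ext (by
        have := map_wd K.subtype (sUp lo f ⟨z, sub z hz⟩ ⟨b, sub b hb⟩) q.2.1
        simp only [subtype_apply, s1] at this
        simpa only [coe_mul, coe_inv, s1, this] using hR q hq')) hg hgb hnd hxs hm hk
  have r' := r.map K.subtype Subtype.val_injective.injOn
  rw [show K.subtype '' {x : K | (x : G) ∈ D} = D from Set.ext fun x =>
    ⟨by rintro ⟨y, hy, rfl⟩; exact hy, fun hx => ⟨⟨x, sub x hx⟩, hx, rfl⟩⟩] at r'
  exact ⟨_, r', congrArg Subtype.val a0, fun p hp => (congrArg Subtype.val (a1 p hp)).trans (hf p hp)⟩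

/-- The neighbourhood of `z` with its relations. -/
structure RQ (D : Set G) (z c : G) (e : ℕ → G) : Prop extends Real XQ (nb D z) e where
  fib : wd e [0, 1, 2, 3] = z
  lin : wd e [0, 4, 8, 12, 16] = 1
  hyp : z * wd e [1, 13, 7, 8, 16] = c

theorem RQ.cjg (h : RQ D z c e) (hc : ∀ g ∈ K, ∀ x ∈ D, g * x * g⁻¹ ∈ D) (cc : ∀ g ∈ K, Commute g c) {g : G}
    (hg : g ∈ K) : RQ D (g * z * g⁻¹) c fun p => g * e p * g⁻¹ := by
  have m := fun l => map_wd (MulAut.conj g).toMonoidHom e l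
  simp only [MulEquiv.coe_toMonoidHom, MulAut.conj_apply] at m
  have r := h.toReal.map (MulAut.conj g).toMonoidHom (MulAut.conj g).injective.injOn
  rw [show (MulAut.conj g).toMonoidHom '' nb D z = nb D (g * z * g⁻¹) from Set.ext fun x => ⟨by
      rintro ⟨y, hy, rfl⟩
      exact ⟨hc g hg y hy.1, fun a => hy.2.1 (by simpa using a), commute_cj.2 hy.2.2⟩,
    fun hx => ⟨g⁻¹ * x * g⁻¹⁻¹, ⟨hc _ (inv_mem hg) x hx.1, fun a => hx.2.1 (by rw [← a]; group),
      (commute_cj (g := g)).1 (by simpa [cj, mul_assoc] using hx.2.2)⟩, by simp [mul_assoc]⟩⟩] at r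
  refine ⟨r, by rw [← m, h.fib], by rw [← m, h.lin]; group, ?_⟩
  rw [← m, show g * z * g⁻¹ * (g * wd e [1, 13, 7, 8, 16] * g⁻¹) = g * (z * wd e [1, 13, 7, 8, 16]) * g⁻¹ by group,
    h.hyp, (cc g hg).eq, mul_inv_cancel_right]

namespace L3

variable (h : L3 K D) (cc : ∀ g ∈ K, Commute g c) (hz : z ∈ D) (hb : b ∈ D) (nb' : ¬ Commute z b)
include h cc

theorem mv (r : RQ D z c e) {w : List ℕ} (hw : XQ.Val w) :
    ∃ e', RQ D z c e' ∧ ∀ p < 180, e' p = e (XQ.actw w p) := by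
  have m := r.toReal.wd_mem_closure hw
  have := r.cjg h.cj cc ((closure_le K).2 (fun x hx => h.sub x hx.1) m)
  rw [((closure_le (centralizer {z})).2 (fun x hx => mem_cent.2 hx.2.2) m z rfl).symm, mul_inv_cancel_right] at this
  exact ⟨_, this, fun p hp => r.toQReal.wd_conj hw hp⟩

include hz hb nb'

theorem wlog (r : RQ D z c e) {fx : List ℕ} (hf : ∀ p ∈ fx, p < 180 ∧ Commute b (e p)) {k t : ℕ} (hk : k ∈ fx)
    (ht : t < 180) {w : List ℕ} {us : List (List ℕ)} (hw : XQ.Val w ∧ ∀ p < 4, XQ.op k (XQ.actw w p) = XQ.actw w p ∧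
      XQ.Val (us.getD p []) ∧ XQ.actw (us.getD p []) t = XQ.actw w p ∧ ∀ q ∈ fx, XQ.actw (us.getD p []) q = q) :
    ∃ e', RQ D z c e' ∧ ∀ p ∈ t :: fx, p < 180 ∧ Commute b (e' p) := by
  obtain ⟨f, r', hf'⟩ := h.mv cc r hw.1
  obtain ⟨k1, k2⟩ := hf k hk
  have mk := r.mem k k1
  have m : ∀ p < 4, f p ∈ {x | x ∈ D ∧ Commute (e k) x} := fun p hp => ⟨(r'.mem p (by rw [XQ_n]; omega)).1, by
    rw [hf' p (by omega)]
    exact r.toQReal.commute_of_op k1 (okQ.actw_lt hw.1 (by rw [XQ_n]; omega)) (hw.2 p hp).1⟩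
  have cm : ∀ p < 4, ∀ q < 4, Commute (f p) (f q) := fun p hp q hq => r'.toQReal.commute_of_op
    (by rw [XQ_n]; omega) (by rw [XQ_n]; omega) (by revert p q; decide +kernel)
  have ne : ∀ p < 4, ∀ q < 4, p ≠ q → f p ≠ f q := fun p hp q hq a e =>
    a (r'.inj p (by rw [XQ_n]; omega) q (by rw [XQ_n]; omega) e)
  have cz : Commute z (f 2 * f 3) := (r'.mem 2 (by decide)).2.2.mul_right (r'.mem 3 (by decide)).2.2
  obtain ⟨p, hp, a⟩ : ∃ p < 4, Commute b (f p) := by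
    have := t3_five (h.tt _ mk.1) ⟨hb, k2.symm⟩ ⟨hz, mk.2.2.symm⟩ (m 0 (by omega)) (m 1 (by omega)) (m 2 (by omega))
      (m 3 (by omega)) (cm 0 (by omega) 1 (by omega)) (cm 2 (by omega) 3 (by omega)) (ne 0 (by omega) 1 (by omega) (by omega))
      (ne 2 (by omega) 3 (by omega) (by omega)) cz (by
        have := r'.fib
        simp only [wd_cons, wd_nil, mul_one] at this
        rw [cz.eq, ← mul_assoc, mul_assoc (f 0), this, h.sq hz]
        exact Commute.one_right b) fun a => nb' a.symm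
    rcases this with a | a | a | a
    exacts [⟨0, by omega, a⟩, ⟨1, by omega, a⟩, ⟨2, by omega, a⟩, ⟨3, by omega, a⟩]
  obtain ⟨-, u1, u2, u3⟩ := hw.2 p hp
  obtain ⟨g, r'', hg⟩ := h.mv cc r u1
  refine ⟨g, r'', List.forall_mem_cons.2 ⟨⟨ht, ?_⟩, fun q hq => ⟨(hf q hq).1, ?_⟩⟩⟩
  · rwa [hg t ht, u2, ← hf' p (by omega)]
  · rw [hg q (hf q hq).1, u3 q hq]; exact (hf q hq).2

theorem patQ (r : RQ D z c e) {m : G} (hm : m ∈ D) (c1 : Commute m z) (c2 : Commute m b) :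
    ∃ e', RQ D z c e' ∧ ∀ p < XQ.n, Commute b (e' p) ↔ pat XQ XV p = true := by
  obtain ⟨p, hp, rfl⟩ := r.surj m ⟨hm, fun a => nb' (a ▸ c2), c1.symm⟩
  obtain ⟨w, hw, rfl⟩ := transQ p hp
  obtain ⟨e, r, a⟩ := h.mv cc r hw
  rw [← a 0 (by omega)] at c2
  obtain ⟨e, r, a⟩ := h.wlog cc hz hb nb' r (fx := [0]) (by simpa using c2.symm) (k := 0) (t := 4) (by simp) (by omega)
    (w := [3, 4, 2, 3, 1, 4]) (us := [[], [4, 3, 1, 0, 4, 3, 1, 0, 4, 3], [4, 1, 0, 4, 3, 5, 4, 1, 0, 4, 5, 3],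
      [3, 5, 4, 1, 0, 4, 5, 4, 1, 0, 4, 3]]) (by decide +kernel)
  obtain ⟨e, r, a⟩ := h.wlog cc hz hb nb' r a (k := 0) (t := 28) (by simp) (by omega)
    (w := [4, 3, 1, 4]) (us := [[], [3, 4, 2, 3, 1, 0, 4, 3, 1, 0, 4, 2, 3, 2], [5, 3, 4, 1, 0, 4, 3, 5, 3, 4, 1, 0, 4, 3],
      [5, 4, 1, 0, 4, 5, 4, 1, 0, 4]]) (by decide +kernel)
  obtain ⟨e, r, a⟩ := h.wlog cc hz hb nb' r a (k := 4) (t := 24) (by simp) (by omega)
    (w := [1, 4]) (us := [[], [1, 0], [4, 3, 5, 0, 4, 3, 1, 0, 4, 5, 4, 3, 1, 0, 4, 5, 3, 0, 4, 0],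
      [4, 5, 3, 0, 4, 5, 3, 1, 0, 4, 3, 5, 1, 0, 4, 3, 5, 0, 4, 0]]) (by decide +kernel)
  have a0 := (a 0 (by simp)).2
  have m0 := r.mem 0 (by decide)
  have cm : ∀ p < 20, ∀ q < 20, Commute (e p) (e q) := fun p hp q hq => r.toQReal.commute_of_op
    (by rw [XQ_n]; omega) (by rw [XQ_n]; omega) (by revert p q; decide +kernel)
  have m : ∀ p < 20, e p ∈ {x | x ∈ D ∧ Commute (e 0) x} := fun p hp =>
    ⟨(r.mem p (by rw [XQ_n]; omega)).1, cm 0 (by omega) p hp⟩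
  have ne : ∀ p < 20, ∀ q < 20, p ≠ q → e p ≠ e q := fun p hp q hq a e =>
    a (r.inj p (by rw [XQ_n]; omega) q (by rw [XQ_n]; omega) e)
  have t := h.tt _ m0.1
  have a12 : Commute b (e 12) := (t3_three t ⟨hb, a0.symm⟩ (m 8 (by omega)) (m 12 (by omega)) (m 16 (by omega))
    (cm 8 (by omega) 12 (by omega)) (cm 8 (by omega) 16 (by omega)) (cm 12 (by omega) 16 (by omega))
    (ne 8 (by omega) 12 (by omega) (by omega)) (ne 8 (by omega) 16 (by omega) (by omega))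
    (ne 12 (by omega) 16 (by omega) (by omega)) (by
      have := r.lin
      simp only [wd_cons, wd_nil, mul_one] at this
      rw [← mul_assoc, mul_eq_one_iff_inv_eq] at this
      rw [mul_assoc, ← this]
      exact (a0.mul_right (a 4 (by simp)).2).inv_right)).2.1
  have a1 : ¬ Commute b (e 1) := fun a1 => nb' (t3_three t ⟨hb, a0.symm⟩ (m 2 (by omega)) (m 3 (by omega))
    ⟨hz, m0.2.2.symm⟩ (cm 2 (by omega) 3 (by omega)) (r.mem 2 (by decide)).2.2.symm (r.mem 3 (by decide)).2.2.symm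
    (ne 2 (by omega) 3 (by omega) (by omega)) (r.mem 2 (by decide)).2.1 (r.mem 3 (by decide)).2.1 (by
      have := r.fib
      simp only [wd_cons, wd_nil, mul_one] at this
      rw [← mul_assoc, ← eq_inv_mul_iff_mul_eq] at this
      rw [this, mul_assoc, h.sq hz, mul_one]
      exact (a0.mul_right a1).inv_right)).2.2.symm
  refine ⟨e, r, fun p hp => ?_⟩
  have := r.toQReal.comm_orb (b := b) (fun j hj => by
    have : oU j < XQ.n ∧ (oU j = 12 ∨ oU j ∈ [24, 28, 4, 0]) := by revert j; decide +kernel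
    exact ⟨this.1, this.2.elim (fun e => e ▸ a12) fun e => (a _ e).2⟩) kQ_o hp (by rcases (kQ_p p hp).1 with a | a <;> omega)
  rcases (kQ_p p hp).1 with ⟨x, y⟩ | ⟨x, y⟩ <;> rw [this, x, y]
  · exact iff_of_true a0 rfl
  · exact iff_of_false a1 (by decide)

end L3

theorem RQ.rels (r : RQ D z c e) (t : IsThreeTranspositionSet D) (hz : z ∈ D) (hb : b ∈ D) (n : ¬ Commute z b)
    (cb : Commute b c) (hp : ∀ p < XQ.n, Commute b (e p) ↔ pat XQ XV p = true) : QRel (sUp XQ e z b) qsV := by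
  have m := fun p (hp : p < XQ.n) => r.mem p hp
  have cm : ∀ p < 20, ∀ q < 20, Commute (e p) (e q) := fun p hp q hq => r.toQReal.commute_of_op
    (by rw [XQ_n]; omega) (by rw [XQ_n]; omega) (by revert p q; decide +kernel)
  have sq := fun p (hp : p < XQ.n) => tt_sq t (m p hp).1
  have d1 := d4_of_comm t (m 1 (by decide)).1 hz (m 2 (by decide)).1 (m 3 (by decide)).1 hb (m 3 (by decide)).2.2
    (cm 1 (by omega) 3 (by omega)) (cm 2 (by omega) 3 (by omega)) (mt (hp 2 (by decide)).1 (by decide +kernel))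
    (mt (hp 3 (by decide)).1 (by decide +kernel)) (by
      have := r.fib
      simp only [wd_cons, wd_nil, mul_one] at this
      rw [← eq_inv_mul_iff_mul_eq, tt_inv t (m 0 (by decide)).1] at this
      rw [this, ← mul_assoc, (m 0 (by decide)).2.2.eq, mul_assoc, tt_sq t hz, mul_one]
      exact (hp 0 (by decide)).2 (by decide +kernel))
  have d2 := d4_of_comm t (m 1 (by decide)).1 hz (m 13 (by decide)).1 (m 7 (by decide)).1 hb (m 7 (by decide)).2.2
    (cm 1 (by omega) 7 (by omega)) (cm 13 (by omega) 7 (by omega)) (mt (hp 13 (by decide)).1 (by decide +kernel))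
    (mt (hp 7 (by decide)).1 (by decide +kernel)) (by
      have := r.hyp
      simp only [wd_cons, wd_nil, mul_one] at this
      rw [show z * (e 1 * (e 13 * e 7)) = c * (e 8 * e 16)⁻¹ by rw [← this]; group]
      exact cb.mul_right (((hp 8 (by decide)).2 (by decide +kernel)).mul_right
        ((hp 16 (by decide)).2 (by decide +kernel))).inv_right)
  intro q hq
  rcases bor_iff.1 (allL_spec kV_Q q hq) with a | a
  · exact qrel_of_qOK nestV kV_B t hz hb n r.toReal hp (c0 := 0) d1 (qs := [q]) (band_iff.2 ⟨a, rfl⟩) q (by simp)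
  · exact qrel_of_qOK nestV kV_B t hz hb n r.toReal hp (c0 := 0) d2 (qs := [q]) (band_iff.2 ⟨a, rfl⟩) q (by simp)

/-- Recognition of `U₆(2)`. -/
theorem L3.realV [Finite G] (h : L3 K D) (cc : ∀ g ∈ K, Commute g c) (loc : ∀ z ∈ D, ∃ e, RQ D z c e) (hz : z ∈ D) :
    IsThreeTranspositionSet D ∧ ∃ f, Real XV D f := by
  have dm : ∀ x ∈ D, ∀ b ∈ D, ¬ Commute x b → ∀ m ∈ D, Commute m x → Commute m b → ∀ w ∈ D, Commute x w →
      ∃ n ∈ D, Commute n b ∧ Commute n w := fun x hx b hb n m hm c1 c2 w hw c => by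
    obtain ⟨e, r⟩ := loc x hx
    obtain ⟨e, r, a⟩ := h.patQ cc hx hb n r hm c1 c2
    by_cases e1 : w = x
    · exact ⟨m, hm, c2, e1 ▸ c1⟩
    obtain ⟨p, hp, rfl⟩ := r.surj w ⟨hw, e1, c⟩
    have l : 4 * (p / 4) < XQ.n := by omega
    exact ⟨_, (r.mem _ l).1, ((a _ l).2 (kQ_p p hp).2.1).symm, r.toQReal.commute_of_op l hp (kQ_p p hp).2.2⟩
  have t := h.three dm
  obtain ⟨e, r⟩ := loc z hz
  have hz' := (r.mem 0 (by decide)).1
  have hb := (r.mem 24 (by decide)).1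
  have n : ¬ Commute (e 0) (e 24) := mt (r.toReal.commute_iff (by decide) (by decide)).1 (by decide +kernel)
  obtain ⟨f, r'⟩ := loc _ hz'
  obtain ⟨f, r', a⟩ := h.patQ cc hz' hb n r' hz (r.mem 0 (by decide)).2.2 (r.mem 24 (by decide)).2.2
  obtain ⟨g, hg, -⟩ := level_sub nestV transV t h.sub h.cj hz' hb n r'.toReal
    (r'.rels t hz' hb n (cc _ (h.sub _ hb)) a) qrealV (g := 1) (by decide) (by decide +kernel) (k := 0) (xs := [0, 1])
    (by decide) (by decide +kernel) (by decide) (by decide)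
  exact ⟨t, g, hg⟩

end CA.U6
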