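import Cfsg.Agent.U6.Coord
import Cfsg.Agent.Orth.Extra
import Cfsg.Agent.Fi.Pair
import Cfsg.Agent.Fi.ExtraRank
import Cfsg.Prelude.Def_MonsterType

/-! Groups of large Fischer type: coordinates on the extraspecial subgroup. -/

set_option autoImplicit false

namespace CA.U6

open Cfsg Cfsg.Agent Cfsg.Agent.Unit CA.M24 Subgroup Equiv CA.FG CA.Fi

/-- the triple cover acting on the space over two elements -/
noncomputable abbrev KK : Subgroup L2 := K0.map io

/-- the alternating form over two elements -/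
def bb (u v : V) : ZMod 2 := (hh u v).im

/-- coordinates on the centralizer -/
structure FS {H : Type*} [Group H] (Q : Subgroup H) (z : H) (π : H → V) (ρ : H →* L2) : Prop where
  es : ES Q z
  cen : ∀ h, Commute h z
  nrm : Q.Normal
  mul : ∀ {x y}, x ∈ Q → y ∈ Q → π (x * y) = π x + π y
  surj : ∀ v, ∃ x ∈ Q, π x = v
  ker : ∀ {x}, x ∈ Q → (π x = 0 ↔ x = 1 ∨ x = z)
  sq : ∀ {x}, x ∈ Q → (x * x = 1 ↔ hh (π x) (π x) = 0)
  act : ∀ h {x}, x ∈ Q → π (h * x * h⁻¹) = ρ h (π x)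
  kerρ : ρ.ker = Q
  le_range : KK ≤ ρ.range
  index : KK.relIndex ρ.range = 2

/-- coordinates on the centralizer of an involution which is not weakly closed -/
structure GS {H G : Type*} [Group H] [Group G] (i : H →* G) (Q : Subgroup H) (z : H) (π : H → V)
    (ρ : H →* L2) : Prop extends FS Q z π ρ where
  inj : Function.Injective i
  range : ∀ g, Commute g (i z) → ∃ h, i h = g
  nwc : ∃ g, ∃ s ∈ Q, s ≠ z ∧ g * i z * g⁻¹ = i s

theorem exists_gen_three {Γ : Type*} [Group Γ] (f : Γ →* U43) (hf : Function.Surjective f)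
    (h : Nat.card f.ker = 3) : ∃ x, f.ker = zpowers x ∧ orderOf x = 3 ∧ ∀ g, g * x = x * g := by
  haveI := Fact.mk Nat.prime_three
  obtain ⟨x, hx⟩ := (Subgroup.isCyclic_iff_exists_zpowers_eq_top f.ker).1 (isCyclic_of_prime_card h)
  have h3 : orderOf x = 3 := by rw [← Nat.card_zpowers, hx, h]
  have h4 : x ^ 3 = 1 := h3 ▸ pow_orderOf_eq_one x
  have h5 : ∀ g, g * g ∈ centralizer ({x} : Set Γ) := fun g => by
    rw [mem_cent_iff, ← conj_eq_iff_commute]
    rcases mem_zpowers_three h4 (hx.ge (f.normal_ker.conj_mem _ (hx.le (mem_zpowers x)) g)) with e | e | e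
    · rw [conj_eq_one_iff] at e
      rw [e, orderOf_one] at h3
      omega
    · rw [show g * g * x * (g * g)⁻¹ = g * (g * x * g⁻¹) * g⁻¹ by group, e, e]
    · rw [show g * g * x * (g * g)⁻¹ = g * (g * x * g⁻¹) * g⁻¹ by group, e,
        show g * (x * x) * g⁻¹ = (g * x * g⁻¹) * (g * x * g⁻¹) by group, e,
        show x * x * (x * x) = x ^ 3 * x by rw [pow_three]; group, h4, one_mul]
  refine ⟨x, hx.symm, h3, fun g => ?_⟩
  obtain ⟨y, hy, ey⟩ : f g ∈ (commutator Γ).map f := by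
    rw [map_commutator_eq, MonoidHom.range_eq_top.2 hf]
    exact commutator_U43.ge trivial
  have h6 : commutator Γ ≤ centralizer ({x} : Set Γ) := commutator_le.2 fun a _ b _ => by
    rw [commutatorElement_def, show a * b * a⁻¹ * b⁻¹ = a * a * (a⁻¹ * b * (a⁻¹ * b)) * (b⁻¹ * b⁻¹) by group]
    exact mul_mem (mul_mem (h5 _) (h5 _)) (h5 _)
  have := mul_mem (h6 hy) (zpowers_le.2 (mem_cent_iff.2 (Commute.refl x))
    (hx.ge (show y⁻¹ * g ∈ f.ker by rw [MonoidHom.mem_ker, map_mul, map_inv, ey, inv_mul_cancel])))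
  rw [mul_inv_cancel_left] at this
  exact mem_cent_iff.1 this

theorem exists_FS {H : Type*} [Group H] [Finite H] {Q N M : Subgroup H} [Q.Normal] [N.Normal] [M.Normal]
    {z : H} (hE : LE Q z) (hz : ∀ h, Commute h z) (hc : Nat.card Q = 2 ^ 13) (h1 : Q ≤ N) (h2 : N ≤ M)
    (h3 : Nat.card N = 3 * Nat.card Q) (e : M ⧸ N.subgroupOf M ≃* U43) (h4 : M.index = 2) :
    ∃ π ρ, FS Q z π ρ := by
  classical
  obtain ⟨W, _, _, q', π', m'⟩ := Orth.exists_model hE.top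
  haveI : Finite W := Finite.of_surjective _ m'.surj
  obtain ⟨ε⟩ : Nonempty (W ≃ₗ[ZMod 2] V) := FiniteDimensional.nonempty_linearEquiv_of_finrank_eq (by
    haveI := Fintype.ofFinite W
    have := Module.card_eq_pow_finrank (K := ZMod 2) (V := W)
    have h5 := m'.card
    rw [← Nat.card_eq_fintype_card, ZMod.card] at this
    rw [finrank_V]
    exact Nat.pow_right_injective le_rfl (this.symm.trans (show Nat.card W = 2 ^ 12 by omega)))
  have m := m'.congr (Q' := q'.comp ε.symm.toLinearMap) ε fun x => by simp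
  generalize q'.comp ε.symm.toLinearMap = q at m
  generalize (fun x => ε (π' x)) = π₀ at m
  choose g hg using fun h : H => m.exists_OG (MulAut.conjNormal h)
  let ρ₀ : H →* L2 := MonoidHom.mk' (fun h => (g h).1) fun a b => LinearEquiv.ext fun v => by
    obtain ⟨x, rfl⟩ := m.surj v
    rw [LinearEquiv.mul_apply, hg, hg, hg, map_mul, MulAut.mul_apply]
  have hk : ρ₀.ker = Q := Subgroup.ext fun h => ⟨fun H => hE.mem_of_triv (hz h) fun x hx =>
    (m.eq_iff.1 ((hg h ⟨x, hx⟩).symm.trans (LinearEquiv.congr_fun H _))).imp (congrArg Subtype.val)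
      (congrArg Subtype.val), fun H => LinearEquiv.ext fun v => by
    obtain ⟨x, rfl⟩ := m.surj v
    exact (hg h x).trans (m.eq_iff.2 ((hE.conj_or H x.2).imp Subtype.ext Subtype.ext))⟩
  let f₀ : M →* U43 := e.toMonoidHom.comp (QuotientGroup.mk' _)
  have k₀ : f₀.ker = N.subgroupOf M := Subgroup.ext fun x =>
    (MulEquiv.map_eq_one_iff e).trans (QuotientGroup.eq_one_iff x)
  have k₁ : (ρ₀.comp M.subtype).ker = Q.subgroupOf M := by rw [← hk]; rfl
  have k₂ : (ρ₀.comp M.subtype).ker ≤ f₀.ker := by rw [k₀, k₁]; exact comap_mono h1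
  let f := QuotientGroup.lift _ f₀ k₂
  have hf : Function.Surjective f := QuotientGroup.lift_surjective_of_surjective _ _
    (e.surjective.comp (QuotientGroup.mk'_surjective _)) _
  obtain ⟨x, x1, x2, x3⟩ := exists_gen_three f hf (by
    have := card_map_mul_card_inf_ker f₀.ker (QuotientGroup.mk' (ρ₀.comp M.subtype).ker)
    rw [QuotientGroup.ker_mk', inf_eq_left.2 k₂, ← QuotientGroup.ker_lift _ _ k₂, congrArg (fun X : Subgroup M => Nat.card X) k₀,
      congrArg (fun X : Subgroup M => Nat.card X) k₁, Nat.card_congr (subgroupOfEquivOfLe h2).toEquiv,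
      Nat.card_congr (subgroupOfEquivOfLe (h1.trans h2)).toEquiv, h3] at this
    exact Nat.eq_of_mul_eq_mul_right Nat.card_pos this)
  obtain ⟨φ, p1, p2⟩ := Pre.goal (q := q) (r := QuotientGroup.kerLift (ρ₀.comp M.subtype)) (f := f) (x := x)
    ⟨m.nondeg, fun a v => by induction a using QuotientGroup.induction_on with | H a => exact (g a).2 v,
      QuotientGroup.kerLift_injective _, hf, x1, x2, x3⟩
  let ρ := (MulAut.conj φ).toMonoidHom.comp ρ₀
  have hρ : ρ.ker = Q := hk ▸ MonoidHom.ker_comp_of_injective _ _ (MulAut.conj φ).injective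
  have hK : KK = M.map ρ := by
    rw [KK, ← p2, ← map_map]
    refine congrArg (· :^ φ) (le_antisymm ?_ ?_)
    · rintro _ ⟨a, rfl⟩
      induction a using QuotientGroup.induction_on with | H a => exact ⟨a, a.2, rfl⟩
    · rintro _ ⟨a, ha, rfl⟩
      exact ⟨(⟨a, ha⟩ : M), rfl⟩
  refine ⟨fun x => if hx : x ∈ Q then φ (π₀ ⟨x, hx⟩) else 0, ρ, hE.toES, hz, inferInstance, fun hx hy => ?_,
    fun v => ?_, fun hx => ?_, fun hx => ?_, fun h x hx => ?_, hρ, hK ▸ map_le_range _ _, ?_⟩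
  · rw [dif_pos hx, dif_pos hy, dif_pos (mul_mem hx hy), ← map_add, ← m.mul]; rfl
  · obtain ⟨x, hx⟩ := m.surj (φ.symm v)
    exact ⟨x, x.2, by rw [dif_pos x.2, hx, φ.apply_symm_apply]⟩
  · rw [dif_pos hx, φ.map_eq_zero_iff, m.ker, Subtype.ext_iff, Subtype.ext_iff]; rfl
  · rw [dif_pos hx, ← p1, ← m.sq, Subtype.ext_iff]; rfl
  · rw [dif_pos hx, dif_pos (‹Q.Normal›.conj_mem _ hx h)]
    exact congrArg φ ((hg h ⟨x, hx⟩).symm.trans (congrArg (g h).1 (φ.symm_apply_apply _).symm))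
  · rw [← index_comap, hK, comap_map_eq_self (hρ.le.trans (h1.trans h2)), h4]

theorem exists_GS {G : Type*} [Group G] [Finite G] {z : G} {Q : Subgroup (centralizer ({z} : Set G))}
    [Q.Normal] (hF : IsOfLargeFischerTypeAt z Q) :
    ∃ π ρ, GS (centralizer ({z} : Set G)).subtype Q ⟨z, mem_cent_iff.2 (Commute.refl z)⟩ π ρ := by
  obtain ⟨⟨h1, h2, h3, h4, g, ⟨hg, hg'⟩, hne⟩, N, M, _, _, a1, a2, a3, ⟨F, _, _, hF, ⟨e⟩⟩, a4⟩ := hF
  obtain ⟨z', hz'⟩ := exists_ES h3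
  have hle := LE_of_Fstar h1 (by rw [h2]) (hz'.map _ fun x _ hx => Subtype.ext hx).isExtraspecial
  obtain ⟨e'⟩ := nonempty_K0_equiv hF
  obtain ⟨π, ρ, h⟩ := exists_FS (z := ⟨z, mem_cent_iff.2 (Commute.refl z)⟩)
    ⟨ES.of_map (subtype_injective _) hle.toES, fun c hc => (mem_map_iff_mem (subtype_injective _)).1
      (hle.cent c (by rintro _ ⟨x, hx, rfl⟩; exact (hc x hx).map (Subgroup.subtype _))),
      fun c _ x hx => ‹Q.Normal›.conj_mem x hx c⟩ (fun h => Subtype.ext (mem_cent_iff.1 h.2)) h4 a1 a2 a3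
    (e.trans e'.symm) a4
  exact ⟨π, ρ, h, subtype_injective _, fun g hg => ⟨⟨g, mem_cent_iff.2 hg⟩, rfl⟩, g, _, hg',
    fun e => hne (congrArg Subtype.val e), rfl⟩

theorem bb_add_left (u v w : V) : bb (u + v) w = bb u w + bb v w := by rw [bb, hh.add_left]; rfl

theorem bb_add_right (u v w : V) : bb u (v + w) = bb u v + bb u w := by rw [bb, hh.add_right]; rfl

theorem bb_comm (u v : V) : bb u v = bb v u := by
  rw [bb, bb, ← hh.star_apply u v]
  exact (by decide : ∀ c : F4, c.im = (star c).im) _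

theorem bb_self (u : V) : bb u u = 0 := by rcases hh_self u with e | e <;> rw [bb, e] <;> rfl

theorem bb_zero_left (u : V) : bb 0 u = 0 := by rw [bb, hh.zero_left]; rfl

theorem bb_zero_right (u : V) : bb u 0 = 0 := by rw [bb, hh.zero_right]; rfl

theorem hh_eq_zero {u v : V} : hh u v = 0 ↔ bb u v = 0 ∧ bb (om4 • u) v = 0 := by
  rw [bb, bb, hh.smul_left]
  exact (by decide : ∀ c : F4, c = 0 ↔ c.im = 0 ∧ (om4 * c).im = 0) _

theorem bb_nondeg {u : V} (h : ∀ v, bb u v = 0) : u = 0 := nondeg_std 6 u fun v =>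
  Herm.eq_zero_comm (hh_eq_zero.2 ⟨by rw [bb_comm, h], by rw [bb_comm, h]⟩)

theorem hh_add_iff (u v : V) : (hh (u + v) (u + v) = 0 ↔ (hh u u = 0 ↔ hh v v = 0)) ↔ bb u v = 0 := by
  rw [hh.add_left, hh.add_right, hh.add_right, bb, ← hh.star_apply u v]
  exact (by decide : ∀ a b c : F4, star a = a → star b = b →
    ((a + c + (star c + b) = 0 ↔ (a = 0 ↔ b = 0)) ↔ c.im = 0)) _ _ _ (hh.star_apply u u) (hh.star_apply v v)

theorem bb_vec (m n : ℕ) : bb (vec m) (vec n) = bt (hN m n) 1 := by rw [bb, hh_vec]; rfl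

theorem card_KK : Nat.card KK = 2 ^ 7 * 3 ^ 7 * 5 * 7 := by rw [card_map_of_injective io_injective, card_K0]

/-- the field automorphism -/
def sig : L2 := kap fun _ => true

theorem sig_apply (v : V) : sig v = star v := rfl

theorem sig_mul_sig : sig * sig = 1 := LinearEquiv.ext fun v => star_star v

theorem hh_star (u v : V) : hh (star u) (star v) = star (hh u v) := by
  simp only [std_apply, star_sum, star_mul', Pi.star_apply]

theorem star_chk : allP (fun n => bimp (tb 5 (clN n)) (tb 5 (clN (cj n)))) 12 0 = true := by decide +kernel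

theorem star_mem_cs5 {v : V} (h : v ∈ cs 5) : star v ∈ cs 5 := by
  obtain ⟨n, hn, rfl⟩ := exists_vec v
  rw [← vec_cj hn, vec_mem_cs (cj_lt hn)]
  exact bimp_eq_true.1 (allP_zero star_chk n hn) ((vec_mem_cs hn).1 h)

theorem zmod_cases : ∀ a : ZMod 2, a = 0 ∨ a = 1 := by decide

namespace FS

variable {H : Type*} [Group H] {Q : Subgroup H} {z : H} {π : H → V} {ρ : H →* L2} (h : FS Q z π ρ)
include h

theorem one : π 1 = 0 := (h.ker (one_mem _)).2 (.inl rfl)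

theorem z0 : π z = 0 := (h.ker h.es.z_mem).2 (.inr rfl)

theorem mul_z {x : H} (hx : x ∈ Q) : π (x * z) = π x := by rw [h.mul hx h.es.z_mem, h.z0, add_zero]

theorem inv {x : H} (hx : x ∈ Q) : π x⁻¹ = π x := by
  rcases h.es.inv_or hx with e | e <;> rw [e]
  exact h.mul_z hx

theorem eq_iff {x y : H} (hx : x ∈ Q) (hy : y ∈ Q) : π y = π x ↔ y = x ∨ y = x * z := by
  have := h.ker (mul_mem (inv_mem hx) hy)
  rw [h.mul (inv_mem hx) hy, h.inv hx, inv_mul_eq_one, inv_mul_eq_iff_eq_mul, eq_comm (a := x)] at this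
  rw [← this, ← V_add_self (π x), add_right_inj]

theorem commute_iff {x y : H} (hx : x ∈ Q) (hy : y ∈ Q) : Commute x y ↔ bb (π x) (π y) = 0 := by
  have := Orth.ES.sq_mul h.es.top ⟨x, hx⟩ ⟨y, hy⟩
  simp only [Commute, SemiconjBy, Subtype.ext_iff, coe_mul, coe_one] at this
  rw [← hh_add_iff, ← h.mul hx hy, ← h.sq hx, ← h.sq hy, ← h.sq (mul_mem hx hy), this]
  rfl

theorem mem_iff {x : H} : x ∈ Q ↔ ρ x = 1 := by rw [← h.kerρ, MonoidHom.mem_ker]

theorem conj_mem (g : H) {x : H} (hx : x ∈ Q) : g * x * g⁻¹ ∈ Q := h.nrm.conj_mem x hx g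

theorem conj_z (g : H) : g * z * g⁻¹ = z := conj_eq_iff_commute.2 (h.cen g)

theorem mem_cs31 {x : H} (hx : x ∈ Q) : π x ∈ cs 31 ↔ x * x = 1 ∧ x ≠ 1 ∧ x ≠ z := by
  rw [U6.mem_cs31, Ne, h.ker hx, ← h.sq hx, not_or, and_comm]

theorem exists_conj_z {x : H} (hx : x ∈ Q) (h0 : π x ≠ 0) : ∃ q ∈ Q, q * x * q⁻¹ = x * z := by
  rw [Ne, h.ker hx, not_or] at h0
  obtain ⟨q, hq, e⟩ := h.es.exists_not_commute hx h0.1 h0.2
  exact ⟨q, hq, h.es.conj_eq hq hx fun c => e c.symm⟩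

theorem exists_conj {x y g : H} (hx : x ∈ Q) (hy : y ∈ Q) (h0 : π y ≠ 0) (e : ρ g (π x) = π y) :
    ∃ k, ρ k = ρ g ∧ k * x * k⁻¹ = y := by
  rcases (h.eq_iff hy (h.conj_mem g hx)).1 ((h.act g hx).trans e) with e | e
  · exact ⟨g, rfl, e⟩
  · obtain ⟨q, hq, e'⟩ := h.exists_conj_z hy h0
    refine ⟨q⁻¹ * g, by rw [map_mul, h.mem_iff.1 (inv_mem hq), one_mul], ?_⟩
    rw [show q⁻¹ * g * x * (q⁻¹ * g)⁻¹ = q⁻¹ * (g * x * g⁻¹) * q by group, e, ← e']
    group

theorem exists_comm {x g : H} (hx : x ∈ Q) (h0 : π x ≠ 0) (e : ρ g (π x) = π x) :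
    ∃ k, ρ k = ρ g ∧ Commute k x := by
  obtain ⟨k, e1, e2⟩ := h.exists_conj hx hx h0 e
  exact ⟨k, e1, conj_eq_iff_commute.1 e2⟩

theorem fix_of_comm {x g : H} (hx : x ∈ Q) (e : Commute g x) : ρ g (π x) = π x := by
  rw [← h.act g hx, conj_eq_iff_commute.2 e]

/-- the preimage of a subspace -/
def pre (S : AddSubgroup V) : Subgroup H where
  carrier := {x | x ∈ Q ∧ π x ∈ S}
  one_mem' := ⟨one_mem _, h.one ▸ zero_mem _⟩
  mul_mem' := fun a b => ⟨mul_mem a.1 b.1, h.mul a.1 b.1 ▸ add_mem a.2 b.2⟩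
  inv_mem' := fun a => ⟨inv_mem a.1, h.inv a.1 ▸ a.2⟩

theorem mem_pre {S : AddSubgroup V} {x : H} : x ∈ h.pre S ↔ x ∈ Q ∧ π x ∈ S := Iff.rfl

theorem z_mem_pre (S : AddSubgroup V) : z ∈ h.pre S := ⟨h.es.z_mem, h.z0 ▸ zero_mem _⟩

theorem card_pre (S : AddSubgroup V) : Nat.card (h.pre S) = 2 * Nat.card S := by
  let f : h.pre S →* Multiplicative S := MonoidHom.mk' (fun x => Multiplicative.ofAdd ⟨π x, x.2.2⟩)
    fun x y => Subtype.ext (h.mul x.2.1 y.2.1)
  have h1 : f.ker = zpowers ⟨z, h.z_mem_pre S⟩ := Subgroup.ext fun x => by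
    rw [mem_zpowers_iff_of_sq (Subtype.ext h.es.z_sq), Subtype.ext_iff, Subtype.ext_iff]
    exact Iff.trans Subtype.ext_iff (h.ker x.2.1)
  have h2 := f.ker.card_mul_index
  rw [index_ker, MonoidHom.range_eq_top.2 fun v => ?_, card_top, h1, Nat.card_zpowers, ← orderOf_coe,
    h.es.orderOf_z] at h2
  · exact h2.symm
  · obtain ⟨x, hx, e⟩ := h.surj v.toAdd
    exact ⟨⟨x, hx, e ▸ v.toAdd.2⟩, Subtype.ext e⟩

theorem card_Q : Nat.card Q = 2 ^ 13 := by
  have := h.card_pre ⊤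
  rwa [show h.pre ⊤ = Q from Subgroup.ext fun x => and_iff_left trivial, AddSubgroup.card_top, card_V] at this

theorem card_range : Nat.card ρ.range = 2 ^ 8 * 3 ^ 7 * 5 * 7 := by
  rw [← card_mul_relIndex h.le_range, h.index, card_KK]; norm_num

theorem card_map (X : Subgroup H) : Nat.card (X.map ρ) * Nat.card ↥(Q ⊓ X) = Nat.card X :=
  h.kerρ ▸ card_map_mul_card_inf_ker X ρ

theorem card_H : Nat.card H = 2 ^ 21 * 3 ^ 7 * 5 * 7 := by
  have := h.card_map ⊤
  rw [inf_top_eq, card_top, ← MonoidHom.range_eq_map, h.card_range, h.card_Q] at this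
  rw [← this]; norm_num

theorem finite : Finite H := Nat.finite_of_card_ne_zero (by rw [h.card_H]; norm_num)

theorem map_iso (g : H) (v : V) : hh (ρ g v) (ρ g v) = 0 ↔ hh v v = 0 := by
  obtain ⟨x, hx, rfl⟩ := h.surj v
  rw [← h.act g hx, ← h.sq hx, ← h.sq (h.conj_mem g hx), conj_mul, conj_eq_one_iff]

theorem map_bb (g : H) (u v : V) : bb (ρ g u) (ρ g v) = bb u v := by
  have : bb (ρ g u) (ρ g v) = 0 ↔ bb u v = 0 := by
    rw [← hh_add_iff, ← hh_add_iff, ← map_add, h.map_iso, h.map_iso, h.map_iso]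
  revert this
  exact (by decide : ∀ a b : ZMod 2, (a = 0 ↔ b = 0) → a = b) _ _

theorem map_cs31 (g : H) {v : V} (hv : v ∈ cs 31) : ρ g v ∈ cs 31 := by
  rwa [U6.mem_cs31, h.map_iso, Ne, LinearEquiv.map_eq_zero_iff, ← Ne, ← U6.mem_cs31]

theorem mul_mem_KK {a b : H} : ρ a * ρ b ∈ KK ↔ (ρ a ∈ KK ↔ ρ b ∈ KK) :=
  mul_mem_iff_of_index_two (H := KK.subgroupOf ρ.range) h.index (a := ⟨_, a, rfl⟩) (b := ⟨_, b, rfl⟩)

theorem conj_KK (g : H) {k : L2} (hk : k ∈ KK) : ρ g * k * (ρ g)⁻¹ ∈ KK :=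
  (normal_of_index_eq_two (H := KK.subgroupOf ρ.range) h.index).conj_mem ⟨k, h.le_range hk⟩ hk ⟨_, g, rfl⟩

theorem map_cs5 (g : H) {v : V} (hv : v ∈ cs 5) : ρ g v ∈ cs 5 := by
  by_contra h1
  have h2 := mem_cs26.2 ⟨h.map_cs31 g (cs_subset (by norm_num) hv), h1⟩
  have := Set.ncard_le_ncard_of_injOn (s := cs 26) (t := cs 5) (ρ g⁻¹) (fun w hw => by
    obtain ⟨k, hk, rfl⟩ := exists_K0_26 h2 hw
    obtain ⟨k', hk', e⟩ := h.conj_KK g⁻¹ ⟨k, hk, rfl⟩
    have := G0_map_mem (K0_le hk') hv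
    rwa [← io_apply, e, map_inv, inv_inv, ← map_inv] at this) (ρ g⁻¹).injective.injOn
  rw [card_cs (by norm_num), card_cs (by norm_num)] at this
  exact absurd this (by decide)

theorem map_cs5_iff (g : H) {v : V} : ρ g v ∈ cs 5 ↔ v ∈ cs 5 :=
  ⟨fun H => by simpa using h.map_cs5 g⁻¹ H, h.map_cs5 g⟩

theorem map_cs26 (g : H) {v : V} (hv : v ∈ cs 26) : ρ g v ∈ cs 26 :=
  mem_cs26.2 ⟨h.map_cs31 g (mem_cs26.1 hv).1, mt (h.map_cs5_iff g).1 (mem_cs26.1 hv).2⟩

theorem exists_lift {k : UU} (hk : k ∈ K0) : ∃ g, ρ g = io k := h.le_range ⟨k, hk, rfl⟩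

theorem exists_conj5 {x y : H} (hx : x ∈ Q) (hy : y ∈ Q) (h1 : π x ∈ cs 5) (h2 : π y ∈ cs 5) :
    ∃ g, g * x * g⁻¹ = y := by
  obtain ⟨k, hk, e⟩ := exists_K0_5 h1 h2
  obtain ⟨g, hg⟩ := h.exists_lift hk
  exact (h.exists_conj hx hy (U6.mem_cs31.1 (cs_subset (by norm_num) h2)).1 (g := g) (by rw [hg]; exact e)).imp fun _ => And.right

theorem exists_conj26 {x y : H} (hx : x ∈ Q) (hy : y ∈ Q) (h1 : π x ∈ cs 26) (h2 : π y ∈ cs 26) :
    ∃ g, g * x * g⁻¹ = y := by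
  obtain ⟨k, hk, e⟩ := exists_K0_26 h1 h2
  obtain ⟨g, hg⟩ := h.exists_lift hk
  exact (h.exists_conj hx hy (U6.mem_cs31.1 (cs_subset (by norm_num) h2)).1 (g := g) (by rw [hg]; exact e)).imp fun _ => And.right

theorem lin_or (g : H) : (∀ v, ρ g (om4 • v) = om4 • ρ g v) ∨ ∀ v, ρ g (om4 • v) = (om4 * om4) • ρ g v := by
  obtain ⟨k, hk, e⟩ := h.conj_KK g ⟨_, sc_mem_K0 omU, rfl⟩
  obtain ⟨c, rfl⟩ : ∃ c, k = sc c := mem_center_K0.1 (mem_center_iff.2 fun k' => (Subtype.ext (io_injective (by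
    obtain ⟨l, -, e'⟩ := h.conj_KK g⁻¹ ⟨_, k'.2, rfl⟩
    have := congrArg (fun a => ρ g * io a * (ρ g)⁻¹) (sc_comm omU l)
    simp only [map_mul, e', map_inv] at this
    rw [coe_mul, coe_mul, map_mul, map_mul, e]
    simpa [mul_assoc] using this)) : k' * ⟨k, hk⟩ = _))
  have h1 : ∀ v, ρ g (om4 • v) = (c : F4) • ρ g v := fun v => by
    have := LinearEquiv.congr_fun e (ρ g v)
    rw [mul_assoc, LinearEquiv.mul_apply, LinearEquiv.mul_apply, ← LinearEquiv.mul_apply (ρ g)⁻¹,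
      inv_mul_cancel] at this
    exact this.symm
  rcases units_cases c with rfl | rfl | rfl
  · have := h1 (vec 1)
    rw [Units.val_one, one_smul, (ρ g).injective.eq_iff] at this
    exact absurd this (by decide)
  exacts [.inl h1, .inr h1]

theorem G0_or (g : H) : (∃ k ∈ G0, io k = ρ g) ∨ ∃ k ∈ G0, io k = ρ g * sig := by
  refine (h.lin_or g).imp (fun H => ?_) fun H => ?_
  · obtain ⟨k, e⟩ := exists_io H (h.map_iso g)
    exact ⟨k, mem_G0_of_map fun v hv => by rw [← io_apply, e]; exact h.map_cs5 g hv, e⟩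
  · obtain ⟨k, e⟩ := exists_io (g := ρ g * sig) (fun v => by
      rw [LinearEquiv.mul_apply, LinearEquiv.mul_apply, sig_apply, sig_apply, star_smul,
        show star om4 = om4 * om4 by decide, mul_smul, H, H, ← mul_smul]
      rfl) fun v => by rw [LinearEquiv.mul_apply, h.map_iso, sig_apply, hh_star, star_eq_zero]
    exact ⟨k, mem_G0_of_map fun v hv => by rw [← io_apply, e]; exact h.map_cs5 g (star_mem_cs5 hv), e⟩

theorem range_conj (k : H) : (ρ.comp (MulAut.conj k).toMonoidHom).range = ρ.range := by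
  rw [MonoidHom.range_comp, MonoidHom.range_eq_top.2 (MulAut.conj k).surjective, MonoidHom.range_eq_map]

theorem conj (k : H) : FS Q z (fun x => π (k * x * k⁻¹)) (ρ.comp (MulAut.conj k).toMonoidHom) := by
  refine ⟨h.es, h.cen, h.nrm, fun hx hy => ?_, fun v => ?_, fun hx => ?_, fun hx => ?_, fun g x hx => ?_, ?_,
    (h.range_conj k).symm ▸ h.le_range, (h.range_conj k).symm ▸ h.index⟩
  · rw [← h.mul (h.conj_mem k hx) (h.conj_mem k hy), conj_mul]
  · obtain ⟨x, hx, rfl⟩ := h.surj v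
    exact ⟨k⁻¹ * x * k⁻¹⁻¹, h.conj_mem _ hx, by group⟩
  · rw [h.act k hx, LinearEquiv.map_eq_zero_iff, h.ker hx]
  · rw [h.act k hx, h.map_iso, h.sq hx]
  · exact Eq.trans (by simp [mul_assoc]) (h.act (k * g * k⁻¹) (h.conj_mem k hx))
  · exact Subgroup.ext fun x => (h.mem_iff.symm.trans (h.nrm.mem_comm_iff.trans (by simp)))

end FS

theorem GS.conj {H G : Type*} [Group H] [Group G] {i : H →* G} {Q : Subgroup H} {z : H} {π : H → V}
    {ρ : H →* L2} (h : GS i Q z π ρ) (k : H) :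
    GS i Q z (fun x => π (k * x * k⁻¹)) (ρ.comp (MulAut.conj k).toMonoidHom) :=
  ⟨h.toFS.conj k, h.inj, h.range, h.nwc⟩

theorem realizeEqns_U6Setup : True := by
  have := @CA.U6.FS.pre.eq_1.{0}
  have := @CA.U6.FS.pre.eq_def.{0}
  have := @CA.U6.FS.pre.congr_simp.{0}
  have := @CA.U6.KK.eq_1
  have := @CA.U6.KK.eq_def
  have := @CA.U6.KK.congr_simp
  have := @CA.U6.bb.eq_1
  have := @CA.U6.bb.eq_def
  have := @CA.U6.bb.congr_simp
  have := @CA.U6.sig.eq_1
  have := @CA.U6.sig.eq_def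
  have := @CA.U6.sig.congr_simp
  trivial

end CA.U6
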